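import Cfsg.Agent.H3.DerMain1
import Cfsg.Agent.H4.Frobenius

set_option autoImplicit false
set_option linter.style.haveILetI false
set_option linter.unusedSectionVars false

/-! Burnside's theorem on minimal normal subgroups of doubly transitive groups. -/

namespace Cfsg.Agent.H3.Burn2

open MulAction Der

variable {G Ω : Type*} [Group G] [MulAction G Ω] [Finite G] [Finite Ω] [FaithfulSMul G Ω]

/-- The least `N`-invariant equivalence relation relating `a` and `b`. -/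
def E (N : Subgroup G) (a b : Ω) : Ω → Ω → Prop :=
  Relation.EqvGen fun u v => ∃ x ∈ N, u = x • a ∧ v = x • b

variable {N : Subgroup G}

theorem E.base (a b : Ω) : E N a b a b := .rel _ _ ⟨1, N.one_mem, by simp, by simp⟩

theorem E.conj [hN : N.Normal] {a b u v : Ω} (h : E N a b u v) (g : G) :
    E N (g • a) (g • b) (g • u) (g • v) := by
  induction h with
  | rel u v h =>
    obtain ⟨x, hx, rfl, rfl⟩ := h
    exact .rel _ _ ⟨g * x * g⁻¹, hN.conj_mem x hx g, by simp [mul_smul], by simp [mul_smul]⟩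
  | refl => exact .refl _
  | symm _ _ _ ih => exact .symm _ _ ih
  | trans _ _ _ _ _ h1 h2 => exact .trans _ _ _ h1 h2

theorem E.inv {a b u v : Ω} (h : E N a b u v) {y : G} (hy : y ∈ N) : E N a b (y • u) (y • v) := by
  induction h with
  | rel u v h =>
    obtain ⟨x, hx, rfl, rfl⟩ := h
    exact .rel _ _ ⟨y * x, N.mul_mem hy hx, by simp [mul_smul], by simp [mul_smul]⟩
  | refl => exact .refl _
  | symm _ _ _ ih => exact .symm _ _ ih
  | trans _ _ _ _ _ h1 h2 => exact .trans _ _ _ h1 h2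

theorem E.le {a b c d u v : Ω} (h : E N a b c d) (h' : E N c d u v) : E N a b u v := by
  induction h' with
  | rel u v h' =>
    obtain ⟨x, hx, rfl, rfl⟩ := h'
    exact h.inv hx
  | refl => exact .refl _
  | symm _ _ _ ih => exact .symm _ _ ih
  | trans _ _ _ _ _ h1 h2 => exact .trans _ _ _ h1 h2

theorem E.ge [N.Normal] (h2 : ∀ a b c d : Ω, a ≠ b → c ≠ d → ∃ g : G, g • a = c ∧ g • b = d)
    {a b c d u v : Ω} (hab : a ≠ b) (hcd : c ≠ d) (h : E N a b c d) (h' : E N a b u v) :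
    E N c d u v := by
  obtain ⟨g, rfl, rfl⟩ := h2 a b c d hab hcd
  have : {p : Ω × Ω | E N (g • a) (g • b) p.1 p.2} = {p | E N a b p.1 p.2} :=
    Set.eq_of_subset_of_ncard_le (fun p hp => h.le hp)
      (Set.ncard_le_ncard_of_injOn (fun p => g • p) (fun p hp => E.conj hp g)
        fun _ _ _ _ e => smul_left_cancel g e)
  exact (Set.ext_iff.1 this (u, v)).2 h'

theorem frob_of_not_prim [N.Normal]
    (h2 : ∀ a b c d : Ω, a ≠ b → c ≠ d → ∃ g : G, g • a = c ∧ g • b = d)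
    (htr : ∀ a b : Ω, ∃ x ∈ N, x • a = b) (hp : ¬ IsPreprimitive N Ω) {x : G} (hx : x ∈ N)
    {a b : Ω} (hab : a ≠ b) (ha : x • a = a) (hb : x • b = b) : x = 1 := by
  have key : ∀ a b : Ω, a ≠ b → x • a = a → x • b = b → ∀ c, ¬ E N a b a c → x • c = c := by
    intro a b hab ha hb c hc
    by_contra hne
    have hac : a ≠ c := fun e => hc (e ▸ .refl _)
    have hbc : b ≠ c := fun e => hc (e ▸ E.base a b)
    have k : ∀ d, x • d = d → E N d c c (x • c) := fun d hd =>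
      .trans _ _ _ (.symm _ _ (E.base d c)) (by have := (E.base (N := N) d c).inv hx; rwa [hd] at this)
    have e1 : E N a c b c := (k a ha).le (E.ge h2 hbc (Ne.symm hne) (k b hb) (E.base b c))
    exact hc (E.ge h2 hac hab (.trans _ _ _ (E.base a c) (.symm _ _ e1)) (E.base a c))
  obtain ⟨c, hc⟩ : ∃ c, ¬ E N a b a c := by
    by_contra hall
    push Not at hall
    apply hp
    haveI : IsPretransitive N Ω := ⟨fun a b => by
      obtain ⟨x, hx, e⟩ := htr a b
      exact ⟨⟨x, hx⟩, e⟩⟩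
    refine ⟨fun {B} hB => ?_⟩
    by_cases hs : B.Subsingleton
    · exact Or.inl hs
    obtain ⟨u, hu, v, hv, huv⟩ := Set.not_subsingleton_iff.1 hs
    obtain ⟨g, rfl, rfl⟩ := h2 a b u v hab huv
    have k : ∀ s t, E N (g • a) (g • b) s t → ∀ y : N, y • s ∈ B ↔ y • t ∈ B := by
      intro s t h
      induction h with
      | rel s t h =>
        obtain ⟨z, hz, rfl, rfl⟩ := h
        intro y
        have e : ∀ w : Ω, y • z • w = (y * ⟨z, hz⟩ : N) • w := fun w => by
          rw [mul_smul]; rfl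
        rw [e, e]
        exact ⟨fun h => hB.smul_eq_of_mem hu h ▸ Set.smul_mem_smul_set hv,
          fun h => hB.smul_eq_of_mem hv h ▸ Set.smul_mem_smul_set hu⟩
      | refl => simp
      | symm _ _ _ ih => exact fun y => (ih y).symm
      | trans _ _ _ _ _ h1 h2 => exact fun y => (h1 y).trans (h2 y)
    refine Or.inr (Set.eq_univ_of_forall fun w => ?_)
    have := (k _ _ (E.conj (hall (g⁻¹ • w)) g) 1).1 (by simpa using hu)
    simpa using this
  have hac : a ≠ c := fun e => hc (e ▸ .refl _)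
  refine eq_of_smul_eq_smul (α := Ω) fun d => ?_
  rw [one_smul]
  by_cases hd : E N a b a d
  · by_cases had : a = d
    · rw [← had, ha]
    exact key a c hac ha (key a b hab ha hb c hc) d fun e =>
      hc (hd.le (E.ge h2 hac had e (E.base a c)))
  · exact key a b hab ha hb d hd

theorem simple_of_prim [hN : N.Normal]
    (h2 : ∀ a b c d : Ω, a ≠ b → c ≠ d → ∃ g : G, g • a = c ∧ g • b = d) (hne : N ≠ ⊥)
    (hmin : ∀ M : Subgroup G, M.Normal → M ≤ N → M = ⊥ ∨ M = N) (hp : IsPreprimitive N Ω)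
    {y : G} (hy : y ∈ N) (hy1 : y ≠ 1) {a : Ω} (hya : y • a = a) : IsSimpleGroup N := by
  haveI := (Subgroup.nontrivial_iff_ne_bot N).2 hne
  refine ⟨fun K hK => ?_⟩
  by_contra hcon
  push Not at hcon
  obtain ⟨M, ⟨hM1, hMK, hMn⟩, hMmin⟩ := (Set.toFinite {M : Subgroup G | M ≠ ⊥ ∧
    M ≤ K.map N.subtype ∧ ∀ x ∈ N, ∀ m ∈ M, x * m * x⁻¹ ∈ M}).exists_minimal
    ⟨K.map N.subtype, fun e => hcon.1 ((Subgroup.map_eq_bot_iff_of_injective _
      N.subtype_injective).1 e), le_rfl, by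
      rintro x hx _ ⟨m, hm, rfl⟩
      exact ⟨_, hK.conj_mem m hm ⟨x, hx⟩, rfl⟩⟩
  have hMN : M ≤ N := hMK.trans (Subgroup.map_subtype_le K)
  let C : G → Subgroup G := fun g => M.comap (MulAut.conj g).toMonoidHom
  have mC : ∀ g x, x ∈ C g ↔ g * x * g⁻¹ ∈ M := fun _ _ => Iff.rfl
  have hCN : ∀ g, C g ≤ N := fun g x hx => by
    simpa [mul_assoc] using hN.conj_mem _ (hMN hx) g⁻¹
  have hCn : ∀ g, ∀ x ∈ N, ∀ m ∈ C g, x * m * x⁻¹ ∈ C g := fun g x hx m hm => by
    have := hMn _ (hN.conj_mem x hx g) _ hm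
    rw [mC]
    simpa [mul_assoc] using this
  have hC1 : C 1 = M := by ext x; simp [mC]
  have hCc : ∀ g, Nat.card (C g) = Nat.card M := fun g =>
    Nat.card_congr (Equiv.subtypeEquiv (MulAut.conj g).toEquiv fun x => Iff.rfl)
  have hCtr : ∀ g, ∀ b c : Ω, ∃ x ∈ C g, x • b = c := by
    intro g b c
    haveI : ((C g).subgroupOf N).Normal := ⟨fun m hm x => hCn g x x.2 m hm⟩
    obtain ⟨m, hm, hm1⟩ := (Subgroup.nontrivial_iff_exists_ne_one M).1
      ((Subgroup.nontrivial_iff_ne_bot M).2 hM1)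
    have := IsPreprimitive.isQuasiPreprimitive.isPretransitive_of_normal
      (N := (C g).subgroupOf N) (X := Ω) (fun e => hm1 (by
        have hm' : g⁻¹ * m * g ∈ C g := by rw [mC]; simpa [mul_assoc] using hm
        have : g⁻¹ * m * g = 1 := eq_of_smul_eq_smul (α := Ω) fun w => by
          rw [one_smul]
          exact Set.eq_univ_iff_forall.1 e w ⟨⟨_, hCN g hm'⟩, hm'⟩
        calc m = g * (g⁻¹ * m * g) * g⁻¹ := by group
          _ = 1 := by rw [this]; group))
    obtain ⟨x, e⟩ := this.exists_smul_eq b c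
    exact ⟨x.1, x.2, e⟩
  have hcomm : ∀ g, C g ≠ M → ∀ x ∈ C g, ∀ m ∈ M, x * m = m * x := by
    intro g hg x hx m hm
    have : M ⊓ C g = ⊥ := by
      by_contra hb
      exact hg (Subgroup.eq_of_le_of_card_ge ((hMmin ⟨hb, inf_le_left.trans hMK,
        fun x hx m hm => ⟨hMn x hx m hm.1, hCn g x hx m hm.2⟩⟩ inf_le_left).trans inf_le_right)
        (hCc g).le).symm
    have e : x * m * x⁻¹ * m⁻¹ ∈ M ⊓ C g := ⟨M.mul_mem (hMn x (hCN g hx) m hm) (M.inv_mem hm), by
      have := (C g).mul_mem hx (hCn g m (hMN hm) _ ((C g).inv_mem hx))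
      simpa [mul_assoc] using this⟩
    rw [this] at e
    exact mul_inv_eq_iff_eq_mul.1 (mul_inv_eq_one.1 e)
  obtain ⟨g, hg⟩ : ∃ g, C g ≠ M := by
    by_contra hc
    push Not at hc
    rcases hmin M ⟨fun m hm g => (mC g m).1 ((hc g).ge hm)⟩ hMN with e | e
    · exact hM1 e
    · exact hcon.2 (eq_top_iff.2 fun x _ => by
        obtain ⟨z, hz, e'⟩ := hMK (e.ge x.2)
        exact Subtype.ext e' ▸ hz)
  have hMtr : ∀ b c : Ω, ∃ x ∈ M, x • b = c := hC1 ▸ hCtr 1
  have hcent : ∀ h, C h ≠ M → C h ≤ C g := by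
    intro h hh x hx
    obtain ⟨z, hz, e⟩ := hCtr g a (x • a)
    have := eq_one_of_comm (hMtr a) (g := z⁻¹ * x) (fun m hm => by
      rw [← mul_assoc, ← hcomm g hg _ ((C g).inv_mem hz) m hm, mul_assoc, ← hcomm h hh x hx m hm,
        mul_assoc]) (by rw [mul_smul, ← e, inv_smul_smul])
    rw [← inv_mul_eq_one.1 this]; exact hz
  have hall : ∀ h, C h ≤ M ⊔ C g := fun h => by
    by_cases hh : C h = M
    · rw [hh]; exact le_sup_left
    · exact (hcent h hh).trans le_sup_right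
  have hsup : M ⊔ C g = N := by
    refine (hmin _ ⟨fun x hx h => ?_⟩ (sup_le hMN (hCN g))).resolve_left
      fun e => hM1 (eq_bot_iff.2 (le_sup_left.trans e.le))
    have : M ⊔ C g ≤ (M ⊔ C g).comap (MulAut.conj h).toMonoidHom := sup_le
      (fun m hm => hall h⁻¹ (by rw [mC]; simpa [mul_assoc] using hm))
      (fun m hm => hall (g * h⁻¹) (by rw [mC]; simpa [mul_assoc] using (mC g m).1 hm))
    exact this hx
  have hMreg : stabilizer G a ⊓ M = ⊥ := eq_bot_iff.2 fun m hm =>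
    eq_one_of_comm (hCtr g a) (fun x hx => hcomm g hg x hx m hm.2) hm.1
  have hMc : Nat.card M = Nat.card Ω := by
    rw [← card_stab_mul M a, hMreg, Subgroup.card_bot, one_mul, card_orbit_of_trans (hMtr a)]
  have hNa : Nat.card (stabilizer G a ⊓ N : Subgroup G) ∣ Nat.card Ω := by
    have e1 := card_stab_mul N a
    rw [card_orbit_of_trans fun c => (hMtr a c).imp fun x hx => ⟨hMN hx.1, hx.2⟩] at e1
    haveI : (M.subgroupOf N).Normal := ⟨fun m hm x => hMn x x.2 m hm⟩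
    have e2 : M.relIndex N = M.relIndex (C g) := by
      rw [← Subgroup.relIndex_subgroupOf (hCN g), ← Subgroup.relIndex_sup_left _ (M.subgroupOf N),
        ← Subgroup.subgroupOf_sup hMN (hCN g), hsup, Subgroup.subgroupOf_self,
        Subgroup.relIndex_top_right]
      rfl
    have e3 := card_inf_mul_relIndex M N
    rw [inf_eq_left.2 hMN, hMc, ← e1, mul_comm] at e3
    haveI : Nonempty Ω := ⟨a⟩
    rw [← Nat.eq_of_mul_eq_mul_right Nat.card_pos e3, e2, ← hMc, ← hCc g]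
    exact Subgroup.relIndex_dvd_card _ _
  obtain ⟨b, hb⟩ : ∃ b : Ω, y • b ≠ b := by
    by_contra hc
    push Not at hc
    exact hy1 (eq_of_smul_eq_smul (α := Ω) fun w => by rw [hc, one_smul])
  have hba : b ≠ a := fun e => hb (e ▸ hya)
  set S := stabilizer G a ⊓ N with hS
  have hle : ∀ c d, c ≠ a → d ≠ a → Nat.card (orbit S c) ≤ Nat.card (orbit S d) := by
    intro c d hc hd
    obtain ⟨h, e1, rfl⟩ := h2 a c a d hc.symm hd.symm
    refine Nat.card_le_card_of_injective (fun w => ⟨h • w.1, ?_⟩) fun w w' e =>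
      Subtype.ext (smul_left_cancel h (congrArg Subtype.val e))
    obtain ⟨x, hx, e⟩ := mem_orbit_sub.1 w.2
    exact mem_orbit_sub.2 ⟨h * x * h⁻¹, ⟨Subgroup.mul_mem _ (Subgroup.mul_mem _ e1 hx.1)
      (Subgroup.inv_mem _ e1), hN.conj_mem x hx.2 h⟩, by rw [mul_smul, inv_smul_smul, mul_smul, e]⟩
  have d1 : Nat.card (orbit S b) ∣ Nat.card Ω - 1 :=
    H4.CABasic.dvd_of_orbits (H := S) a (fun h => h.2.1) _ fun c hc => by
      rw [index_stabilizer, ← Nat.card_coe_set_eq]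
      exact le_antisymm (hle c b hc hba) (hle b c hba hc)
  have d2 : Nat.card (orbit S b) ∣ Nat.card Ω :=
    (Dvd.intro_left _ (card_stab_mul S b)).trans hNa
  have d3 : Nat.card (orbit S b) = 1 := by
    haveI : Nonempty Ω := ⟨a⟩
    have := (Nat.dvd_sub_iff_right (Nat.sub_le _ 1) d2).2 d1
    rw [Nat.sub_sub_self Nat.card_pos] at this
    exact Nat.dvd_one.1 this
  haveI : Subsingleton (orbit S b) := Finite.card_le_one_iff_subsingleton.1 d3.le
  exact hb (congrArg Subtype.val (Subsingleton.elim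
    (⟨_, mem_orbit_sub.2 ⟨y, ⟨hya, hy⟩, rfl⟩⟩ : orbit S b) ⟨b, mem_orbit_self b⟩))

theorem abelian_of_regular [hN : N.Normal]
    (h2 : ∀ a b c d : Ω, a ≠ b → c ≠ d → ∃ g : G, g • a = c ∧ g • b = d) (hne : N ≠ ⊥)
    (hmin : ∀ M : Subgroup G, M.Normal → M ≤ N → M = ⊥ ∨ M = N) (a : Ω)
    (hreg : ∀ x ∈ N, x • a = a → x = 1) :
    IsMulCommutative N ∧ ∃ p : ℕ, p.Prime ∧ ∀ n ∈ N, n ^ p = 1 := by
  haveI := (Subgroup.nontrivial_iff_ne_bot N).2 hne
  obtain ⟨p, hp, hd⟩ := Nat.exists_prime_and_dvd (Finite.one_lt_card (α := N)).ne'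
  haveI := Fact.mk hp
  obtain ⟨x, hx⟩ := exists_prime_orderOf_dvd_card' p hd
  have hx1 : (x : G) ≠ 1 := fun e => hp.one_lt.ne' (by
    rw [← hx, show x = 1 from Subtype.ext e, orderOf_one])
  have hxp : (x : G) ^ p = 1 := by rw [← hx]; exact congrArg Subtype.val (pow_orderOf_eq_one x)
  have hexp : ∀ n ∈ N, n ^ p = 1 := by
    intro n hn
    by_cases h1 : n = 1
    · rw [h1, one_pow]
    obtain ⟨g, e1, e2⟩ := h2 a ((x : G) • a) a (n • a) (fun e => hx1 (hreg _ x.2 e.symm))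
      (fun e => h1 (hreg _ hn e.symm))
    have := hreg (n⁻¹ * (g * x * g⁻¹)) (N.mul_mem (N.inv_mem hn) (hN.conj_mem _ x.2 g)) (by
      rw [mul_smul, mul_smul, mul_smul, inv_smul_eq_iff.2 e1.symm, e2, inv_smul_smul])
    rw [inv_mul_eq_one.1 this, conj_pow, hxp]; simp
  refine ⟨?_, p, hp, hexp⟩
  have hP : IsPGroup p N := fun n => ⟨1, Subtype.ext (by simpa using hexp n n.2)⟩
  haveI := hP.center_nontrivial
  obtain ⟨z, hz⟩ := exists_ne (1 : Subgroup.center N)
  rcases hmin (N ⊓ Subgroup.centralizer N) inferInstance inf_le_left with e | e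
  · refine absurd (Subtype.ext (Subtype.ext (Subgroup.mem_bot.1 (e ▸ ⟨z.1.2, fun w hw => ?_⟩)))) hz
    exact congrArg Subtype.val (Subgroup.mem_center_iff.1 z.2 ⟨w, hw⟩)
  · exact ⟨⟨fun u v => Subtype.ext ((e.ge v.2).2 u u.2)⟩⟩

theorem burnside [hN : N.Normal] (hG : IsMultiplyPretransitive G Ω 2) (hne : N ≠ ⊥)
    (hmin : ∀ M : Subgroup G, M.Normal → M ≤ N → M = ⊥ ∨ M = N) :
    (IsMulCommutative N ∧ (∃ p : ℕ, p.Prime ∧ ∀ n ∈ N, n ^ p = 1) ∧
      ∀ a : Ω, stabilizer N a = ⊥) ∨ (IsSimpleGroup N ∧ IsPreprimitive N Ω) := by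
  have h2 : ∀ a b c d : Ω, a ≠ b → c ≠ d → ∃ g : G, g • a = c ∧ g • b = d :=
    fun a b c d h h' => is_two_pretransitive_iff.1 hG h h'
  haveI := isPreprimitive_of_is_two_pretransitive hG
  obtain ⟨m, hm, hm1⟩ := (Subgroup.nontrivial_iff_exists_ne_one N).1
    ((Subgroup.nontrivial_iff_ne_bot N).2 hne)
  obtain ⟨a, ha⟩ : ∃ b : Ω, m • b ≠ b := by
    by_contra hc
    push Not at hc
    exact hm1 (eq_of_smul_eq_smul (α := Ω) fun w => by rw [hc, one_smul])
  haveI htr := IsPreprimitive.isQuasiPreprimitive.isPretransitive_of_normal (N := N) (X := Ω)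
    (fun e => ha (Set.eq_univ_iff_forall.1 e a ⟨m, hm⟩))
  by_cases hreg : ∀ b : Ω, ∀ x ∈ N, x • b = b → x = 1
  · obtain ⟨h1, h3⟩ := abelian_of_regular h2 hne hmin a (hreg a)
    exact Or.inl ⟨h1, h3, fun b => eq_bot_iff.2 fun x hx => Subtype.ext (hreg b x x.2 hx)⟩
  push Not at hreg
  obtain ⟨b, y, hy, hyb, hy1⟩ := hreg
  by_cases hp : IsPreprimitive N Ω
  · exact Or.inr ⟨simple_of_prim h2 hne hmin hp hy hy1 hyb, hp⟩
  exfalso
  obtain ⟨K, -, hK, hKc, -⟩ := H4.Frobenius.exists_regular_kernel (G := N) (X := Ω)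
    (fun g x y hxy h3 h4 => Subtype.ext (frob_of_not_prim h2 (fun a b => by
      obtain ⟨x, e⟩ := htr.exists_smul_eq a b
      exact ⟨x, x.2, e⟩) hp g.2 hxy h3 h4)) a
  rcases hmin (K.map N.subtype) ⟨by
    rintro _ ⟨x, hx, rfl⟩ g
    refine ⟨⟨g * x * g⁻¹, hN.conj_mem _ x.2 g⟩, (hK _).2 (((hK x).1 hx).imp
      (fun e => Subtype.ext (by simp [e])) fun h w e => h (g⁻¹ • w) ?_), rfl⟩
    have e' : (g * x * g⁻¹) • w = w := e
    rw [mul_smul, mul_smul, ← eq_inv_smul_iff] at e'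
    exact e'⟩ (Subgroup.map_subtype_le K) with e | e
  · rw [(Subgroup.map_eq_bot_iff_of_injective _ N.subtype_injective).1 e, Subgroup.card_bot] at hKc
    haveI := Finite.card_le_one_iff_subsingleton.1 hKc.ge
    exact ha (Subsingleton.elim _ _)
  · obtain ⟨z, hz, rfl⟩ := e.ge hy
    rcases (hK z).1 hz with e | e
    · exact hy1 (congrArg Subtype.val e)
    · exact e b hyb

end Cfsg.Agent.H3.Burn2
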