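import Mathlib

/-!
Centralisers of transitive permutation groups in the symmetric group.
-/

set_option autoImplicit false

namespace Cfsg.Agent.H3.Centralizer

open MulAction

variable {α : Type*}

theorem exists_mem_apply_eq (G : Subgroup (Equiv.Perm α)) (h : IsPretransitive G α) (a b : α) :
    ∃ g ∈ G, g a = b := by
  obtain ⟨g, hg⟩ := h.exists_smul_eq a b
  exact ⟨g, g.2, hg⟩

theorem isPretransitive_of_exists (G : Subgroup (Equiv.Perm α))
    (h : ∀ a b : α, ∃ g ∈ G, g a = b) : IsPretransitive G α :=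
  ⟨fun a b => by
    obtain ⟨g, hg, hab⟩ := h a b
    exact ⟨⟨g, hg⟩, hab⟩⟩

theorem centralizer_apply {G : Subgroup (Equiv.Perm α)} {c g : Equiv.Perm α}
    (hc : c ∈ Subgroup.centralizer (G : Set (Equiv.Perm α))) (hg : g ∈ G) (a : α) :
    c (g a) = g (c a) := by
  have := Subgroup.mem_centralizer_iff.mp hc g hg
  rw [← Equiv.Perm.mul_apply, ← this, Equiv.Perm.mul_apply]

/-- The centraliser of a transitive group is semiregular. -/
theorem eq_one_of_centralizer_fix (G : Subgroup (Equiv.Perm α)) (h : IsPretransitive G α)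
    {c : Equiv.Perm α} (hc : c ∈ Subgroup.centralizer (G : Set (Equiv.Perm α))) {a : α}
    (ha : c a = a) : c = 1 := by
  ext b
  obtain ⟨g, hg, rfl⟩ := exists_mem_apply_eq G h a b
  rw [centralizer_apply hc hg, ha]; rfl

theorem eq_of_centralizer_apply_eq (G : Subgroup (Equiv.Perm α)) (h : IsPretransitive G α)
    {c d : Equiv.Perm α} (hc : c ∈ Subgroup.centralizer (G : Set (Equiv.Perm α)))
    (hd : d ∈ Subgroup.centralizer (G : Set (Equiv.Perm α))) {a : α}
    (ha : c a = d a) : c = d := by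
  ext b
  obtain ⟨g, hg, rfl⟩ := exists_mem_apply_eq G h a b
  rw [centralizer_apply hc hg, centralizer_apply hd hg, ha]

/-- A transitive subgroup of the centraliser of a transitive group is the whole centraliser. -/
theorem eq_centralizer_of_transitive (G K : Subgroup (Equiv.Perm α)) (h : IsPretransitive G α)
    (hK : IsPretransitive K α) (hle : K ≤ Subgroup.centralizer (G : Set (Equiv.Perm α))) :
    Subgroup.centralizer (G : Set (Equiv.Perm α)) = K := by
  refine le_antisymm (fun c hc => ?_) hle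
  rcases isEmpty_or_nonempty α with h0 | ⟨⟨a⟩⟩
  · have : c = 1 := by ext x; exact h0.elim x
    rw [this]; exact K.one_mem
  · obtain ⟨k, hk, hka⟩ := exists_mem_apply_eq K hK a (c a)
    rw [← eq_of_centralizer_apply_eq G h (hle hk) hc hka]
    exact hk

/-- Two points with the same stabiliser in a transitive group are in one orbit of the
centraliser. -/
theorem exists_centralizer_apply_eq (G : Subgroup (Equiv.Perm α)) (h : IsPretransitive G α)
    {a b : α} (hab : ∀ g ∈ G, g a = a ↔ g b = b) :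
    ∃ c ∈ Subgroup.centralizer (G : Set (Equiv.Perm α)), c a = b := by
  choose t ht hta using exists_mem_apply_eq G h a
  choose u hu hub using exists_mem_apply_eq G h b
  have k1 : ∀ g ∈ G, ∀ g' ∈ G, g a = g' a → g b = g' b := by
    intro g hg g' hg' e
    have : (g'⁻¹ * g) b = b := (hab _ (G.mul_mem (G.inv_mem hg') hg)).mp (by simp [e])
    rw [Equiv.Perm.mul_apply, Equiv.Perm.inv_eq_iff_eq] at this
    exact this
  have k2 : ∀ g ∈ G, ∀ g' ∈ G, g b = g' b → g a = g' a := by
    intro g hg g' hg' e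
    have : (g'⁻¹ * g) a = a := (hab _ (G.mul_mem (G.inv_mem hg') hg)).mpr (by simp [e])
    rw [Equiv.Perm.mul_apply, Equiv.Perm.inv_eq_iff_eq] at this
    exact this
  let c : Equiv.Perm α :=
    { toFun := fun x => t x b
      invFun := fun x => u x a
      left_inv := fun x => by
        change u (t x b) a = x
        rw [k2 _ (hu _) _ (ht x) (hub _), hta]
      right_inv := fun x => by
        change t (u x a) b = x
        rw [k1 _ (ht _) _ (hu x) (hta _), hub] }
  have hc : ∀ x, c x = t x b := fun _ => rfl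
  refine ⟨c, Subgroup.mem_centralizer_iff.mpr fun g hg => ?_, ?_⟩
  · ext x
    rw [Equiv.Perm.mul_apply, Equiv.Perm.mul_apply, hc, hc, ← Equiv.Perm.mul_apply]
    apply k1 _ (G.mul_mem hg (ht x)) _ (ht _)
    rw [Equiv.Perm.mul_apply, hta, hta]
  · rw [hc]
    exact k1 _ (ht a) 1 G.one_mem (hta a)

theorem stabilizer_eq_bot_iff (G : Subgroup (Equiv.Perm α)) (a : α) :
    stabilizer G a = ⊥ ↔ ∀ g ∈ G, g a = a → g = 1 := by
  rw [Subgroup.eq_bot_iff_forall]
  constructor
  · intro h g hg ha
    exact congrArg Subtype.val (h ⟨g, hg⟩ ha)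
  · intro h g hg
    exact Subtype.ext (h g g.2 hg)

theorem sub_stabilizer_eq_bot_iff (G : Subgroup (Equiv.Perm α)) (M : Subgroup G) (a : α) :
    stabilizer M a = ⊥ ↔ ∀ g ∈ M, (g : Equiv.Perm α) a = a → g = 1 := by
  rw [Subgroup.eq_bot_iff_forall]
  constructor
  · intro h g hg ha
    exact congrArg Subtype.val (h ⟨g, hg⟩ ha)
  · intro h g hg
    exact Subtype.ext (h g g.2 hg)

theorem map_subtype_isPretransitive (G : Subgroup (Equiv.Perm α)) (M : Subgroup G)
    (h : IsPretransitive M α) : IsPretransitive (M.map G.subtype) α :=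
  ⟨fun a b => by
    obtain ⟨m, hm⟩ := h.exists_smul_eq a b
    exact ⟨⟨_, m, m.2, rfl⟩, hm⟩⟩

/-- Two disjoint normal subgroups centralise each other in the symmetric group. -/
theorem map_le_centralizer_of_disjoint (G : Subgroup (Equiv.Perm α)) (M N : Subgroup G)
    (hM : M.Normal) (hN : N.Normal) (h : Disjoint M N) :
    N.map G.subtype ≤ Subgroup.centralizer
      ((M.map G.subtype : Subgroup (Equiv.Perm α)) : Set (Equiv.Perm α)) := by
  rintro _ ⟨n, hn, rfl⟩
  rw [Subgroup.mem_centralizer_iff]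
  rintro _ ⟨m, hm, rfl⟩
  exact congrArg Subtype.val (Subgroup.commute_of_normal_of_disjoint M N hM hN h m n hm hn).eq

/-- Distinct minimal normal subgroups are disjoint. -/
theorem disjoint_of_minimal {H : Type*} [Group H] (M N : Subgroup H) (hM : M.Normal)
    (hN : N.Normal) (hM0 : M ≠ ⊥)
    (hMmin : ∀ L : Subgroup H, L.Normal → L ≤ M → L = ⊥ ∨ L = M)
    (hNmin : ∀ L : Subgroup H, L.Normal → L ≤ N → L = ⊥ ∨ L = N) (hMN : M ≠ N) :
    Disjoint M N := by
  rw [disjoint_iff]
  rcases hMmin (M ⊓ N) inferInstance inf_le_left with h | h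
  · exact h
  · rcases hNmin M hM (inf_eq_left.mp h) with h' | h'
    · exact absurd h' hM0
    · exact absurd h' hMN

/-- A non-trivial normal subgroup of a primitive permutation group is transitive. -/
theorem normal_isPretransitive (G : Subgroup (Equiv.Perm α)) (hG : IsPreprimitive G α)
    (N : Subgroup G) (hNn : N.Normal) (hN : N ≠ ⊥) : IsPretransitive N α := by
  apply IsQuasiPreprimitive.isPretransitive_of_normal
  intro h
  apply hN
  rw [eq_bot_iff]
  intro n hn
  rw [Subgroup.mem_bot]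
  ext x
  have : x ∈ fixedPoints N α := h ▸ Set.mem_univ x
  exact this ⟨n, hn⟩

theorem nontrivial_of_ne_bot (G : Subgroup (Equiv.Perm α)) (N : Subgroup G) (hN : N ≠ ⊥) :
    Nontrivial α := by
  by_contra h
  rw [not_nontrivial_iff_subsingleton] at h
  exact hN (Subsingleton.elim _ _)

/-- An abelian minimal normal subgroup of a finite group is elementary abelian. -/
theorem exists_prime_pow_eq_one {H : Type*} [Group H] [Finite H] (M : Subgroup H) (hMn : M.Normal)
    (hM : M ≠ ⊥) (hmin : ∀ L : Subgroup H, L.Normal → L ≤ M → L = ⊥ ∨ L = M)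
    (hab : IsMulCommutative M) : ∃ p : ℕ, p.Prime ∧ ∀ m ∈ M, m ^ p = 1 := by
  have : Nontrivial M := (Subgroup.nontrivial_iff_ne_bot M).mpr hM
  obtain ⟨p, hp, hpd⟩ := Nat.exists_prime_and_dvd (Finite.one_lt_card (α := M)).ne'
  have : Fact p.Prime := ⟨hp⟩
  obtain ⟨x, hx⟩ := exists_prime_orderOf_dvd_card' p hpd
  let L : Subgroup H :=
    { carrier := {m | m ∈ M ∧ m ^ p = 1}
      one_mem' := ⟨M.one_mem, one_pow _⟩
      mul_mem' := fun {a b} ha hb => ⟨M.mul_mem ha.1 hb.1, by
        have : Commute a b := congrArg Subtype.val (hab.is_comm.comm ⟨a, ha.1⟩ ⟨b, hb.1⟩)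
        rw [this.mul_pow, ha.2, hb.2, one_mul]⟩
      inv_mem' := fun {a} ha => ⟨M.inv_mem ha.1, by rw [inv_pow, ha.2, inv_one]⟩ }
  have hL : L.Normal := ⟨fun m hm g => ⟨hMn.conj_mem m hm.1 g, by
    rw [conj_pow, hm.2]; simp⟩⟩
  rcases hmin L hL (fun m hm => hm.1) with h | h
  · exfalso
    have h1 : (x : H) ∈ L := ⟨x.2, by
      rw [← Subgroup.coe_pow, ← hx, pow_orderOf_eq_one]; rfl⟩
    rw [h, Subgroup.mem_bot] at h1
    have : x = 1 := Subtype.ext h1
    rw [this, orderOf_one] at hx
    exact hp.one_lt.ne hx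
  · refine ⟨p, hp, fun m hm => ?_⟩
    have : m ∈ L := h ▸ hm
    exact this.2

end Cfsg.Agent.H3.Centralizer
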