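import Mathlib

/-!
A finite solvable group has a self-centralising normal subgroup of nilpotency class at most two.
-/

set_option autoImplicit false

namespace Cfsg.Agent.H3.ClassTwo

open scoped commutatorElement

variable {G : Type*} [Group G]

theorem exists_classTwo [Finite G] [Group.IsSolvable G] :
    ∃ B : Subgroup G, B.Normal ∧ (∀ x ∈ B, ∀ y ∈ B, ∀ z ∈ B, Commute ⁅x, y⁆ z) ∧
      Subgroup.centralizer (B : Set G) ≤ B := by
  obtain ⟨B, ⟨hBn, hB⟩, hmax⟩ := (Set.toFinite {B : Subgroup G | B.Normal ∧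
    ∀ x ∈ B, ∀ y ∈ B, ∀ z ∈ B, Commute ⁅x, y⁆ z}).exists_maximal
      ⟨⊥, inferInstance, fun x _ y _ z hz => by
        rw [Subgroup.mem_bot.mp hz]; exact Commute.one_right _⟩
  refine ⟨B, hBn, hB, ?_⟩
  set E := Subgroup.centralizer (B : Set G) with hE
  have hEn : E.Normal := inferInstance
  obtain ⟨D, hD0, hDs⟩ : ∃ D : ℕ → Subgroup G, D 0 = E ∧ ∀ k, D (k + 1) = ⁅D k, D k⁆ :=
    ⟨fun k => Nat.rec E (fun _ X => ⁅X, X⁆) k, rfl, fun _ => rfl⟩
  have hDn : ∀ k, (D k).Normal := by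
    intro k
    induction k with
    | zero => rw [hD0]; exact hEn
    | succ k ih => rw [hDs]; infer_instance
  have hDE : ∀ k, D k ≤ E := by
    intro k
    induction k with
    | zero => exact hD0.le
    | succ k ih => 
      rw [hDs]
      have := hDn k
      exact (Subgroup.commutator_le_left _ _).trans ih
  have hDd : ∀ k, D k ≤ derivedSeries G k := by
    intro k
    induction k with
    | zero => exact le_top
    | succ k ih => rw [hDs, derivedSeries_succ]; exact Subgroup.commutator_mono ih ih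
  have step : ∀ k, D (k + 1) ≤ B → D k ≤ B := by
    intro k hk
    have := hDn k
    have hc : ∀ e ∈ D k, ∀ b ∈ B, Commute e b := fun e he b hb =>
      (Subgroup.mem_centralizer_iff.mp (hDE k he) b hb).symm
    refine le_sup_left.trans (hmax (y := D k ⊔ B) ⟨Subgroup.sup_normal _ _, ?_⟩ le_sup_right)
    intro x hx y hy z hz
    obtain ⟨e, he, b, hb, rfl⟩ := Subgroup.mem_sup_of_normal_right.mp hx
    obtain ⟨e', he', b', hb', rfl⟩ := Subgroup.mem_sup_of_normal_right.mp hy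
    obtain ⟨e'', he'', b'', hb'', rfl⟩ := Subgroup.mem_sup_of_normal_right.mp hz
    have h1 : ⁅e, e'⁆ ∈ D (k + 1) := hDs k ▸ Subgroup.commutator_mem_commutator he he'
    have h2 : ⁅b, b'⁆ ∈ B := B.mul_mem (B.mul_mem (B.mul_mem hb hb') (B.inv_mem hb)) (B.inv_mem hb')
    have h3 : ⁅e * b, e' * b'⁆ = ⁅e, e'⁆ * ⁅b, b'⁆ := by
      have k1 := (hc e' he' b hb).eq
      have k2 := (hc e⁻¹ ((D k).inv_mem he) (b * b' * b⁻¹)
        (B.mul_mem (B.mul_mem hb hb') (B.inv_mem hb))).eq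
      have k3 := (hc e'⁻¹ ((D k).inv_mem he') _ h2).eq
      simp only [commutatorElement_def] at k3 ⊢
      calc e * b * (e' * b') * (e * b)⁻¹ * (e' * b')⁻¹
          = e * (b * e') * b' * b⁻¹ * e⁻¹ * b'⁻¹ * e'⁻¹ := by group
        _ = e * e' * ((b * b' * b⁻¹) * e⁻¹) * b'⁻¹ * e'⁻¹ := by rw [← k1]; group
        _ = e * e' * e⁻¹ * ((b * b' * b⁻¹ * b'⁻¹) * e'⁻¹) := by rw [← k2]; group
        _ = e * e' * e⁻¹ * e'⁻¹ * (b * b' * b⁻¹ * b'⁻¹) := by rw [← k3]; group
    rw [h3]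
    refine Commute.mul_left (Commute.mul_right ?_ ?_) (Commute.mul_right ?_ ?_)
    · exact (hc e'' he'' _ (hk h1)).symm
    · exact (Subgroup.mem_centralizer_iff.mp (hDE _ h1) b'' hb'').symm
    · exact (hc e'' he'' _ h2).symm
    · exact hB b hb b' hb' b'' hb''
  obtain ⟨k, hk⟩ := (inferInstance : Group.IsSolvable G).solvable
  have hk' : D k ≤ B := (hDd k).trans (hk ▸ bot_le)
  clear hk
  induction k with
  | zero => exact hD0 ▸ hk'
  | succ k ih => exact ih (step k hk')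

/-- Abstract form of the bound on fixed-point spaces in primitive solvable linear groups. -/
theorem four_mul_le [Finite G] [Group.IsSolvable G] (n : ℕ) (d : G → ℕ)
    (h1 : ∀ g x : G, 2 * d g ≤ n + d ⁅g, x⁆)
    (h0 : ∀ A : Subgroup G, A.Normal → (∀ a ∈ A, ∀ b ∈ A, a * b = b * a) →
      ∀ a ∈ A, a ≠ 1 → d a = 0) (g : G) (hg : g ≠ 1) : 4 * d g ≤ 3 * n := by
  obtain ⟨B, hBn, hB, hC⟩ := exists_classTwo (G := G)
  have hA : ∀ a ∈ B, (∀ z ∈ B, Commute a z) → a ≠ 1 → d a = 0 := fun a ha hc =>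
    h0 (B ⊓ Subgroup.centralizer (B : Set G)) inferInstance
      (fun a ha b hb => Subgroup.mem_centralizer_iff.mp hb.2 a ha.1) a
      ⟨ha, Subgroup.mem_centralizer_iff.mpr fun z hz => (hc z hz).symm⟩
  have hB2 : ∀ h ∈ B, h ≠ 1 → 2 * d h ≤ n := by
    intro h hh hh1
    by_cases hc : ∀ z ∈ B, Commute h z
    · rw [hA h hh hc hh1]; omega
    · push Not at hc
      obtain ⟨z, hz, hne⟩ := hc
      have := h1 h z
      rw [hA ⁅h, z⁆ (B.mul_mem (B.mul_mem (B.mul_mem hh hz) (B.inv_mem hh)) (B.inv_mem hz))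
        (hB h hh z hz) (by rwa [Ne, commutatorElement_eq_one_iff_commute])] at this
      omega
  by_cases hc : ∀ z ∈ B, Commute g z
  · have := hB2 g (hC (Subgroup.mem_centralizer_iff.mpr fun z hz => (hc z hz).symm)) hg
    omega
  · push Not at hc
    obtain ⟨z, hz, hne⟩ := hc
    have k1 := h1 g z
    have k2 := hB2 ⁅g, z⁆ (B.mul_mem (hBn.conj_mem z hz g) (B.inv_mem hz))
      (by rwa [Ne, commutatorElement_eq_one_iff_commute])
    omega

end Cfsg.Agent.H3.ClassTwo
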