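import Mathlib

/-!
Dimension inequalities for eigenspaces permuted by twisted commuting operators, and a
polarisation lemma for bimultiplicative skew pairings.
-/

set_option autoImplicit false
set_option linter.unusedSectionVars false
set_option linter.style.haveILetI false

namespace Cfsg.Agent.H3.ExEig

open Module Module.End

variable {F V : Type*} [Field F] [AddCommGroup V] [Module F V] [FiniteDimensional F V]

theorem finrank_le_of_map (y : End F V) (hy : Function.Injective y) {P Q : Submodule F V}
    (h : ∀ v ∈ P, y v ∈ Q) : finrank F P ≤ finrank F Q :=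
  LinearMap.finrank_le_finrank_of_injective (f := y.restrict h) (fun a b hab => by
    apply Subtype.ext
    apply hy
    exact congrArg Subtype.val hab)

/-- Eigenspaces for distinct eigenvalues are independent inside any subspace. -/
theorem sum_finrank_inf_le {κ : Type*} (f : End F V) (E : Submodule F V) (a : κ → F)
    (s : Finset κ) (ha : Set.InjOn a s) :
    ∑ k ∈ s, finrank F (E ⊓ f.eigenspace (a k) : Submodule F V) ≤ finrank F E := by
  classical
  have key : ∀ t : Finset κ, Set.InjOn a t →
      ∑ k ∈ t, finrank F (E ⊓ f.eigenspace (a k) : Submodule F V) ≤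
        finrank F (t.sup fun k => E ⊓ f.eigenspace (a k) : Submodule F V) := by
    intro t
    induction t using Finset.induction_on with
    | empty => intro _; simp
    | insert k t hk ih =>
      intro ht
      rw [Finset.sum_insert hk, Finset.sup_insert]
      have h1 := ih (ht.mono (by simp))
      have h2 := Submodule.finrank_sup_add_finrank_inf_eq (E ⊓ f.eigenspace (a k))
        (t.sup fun k => E ⊓ f.eigenspace (a k))
      have h3 : (E ⊓ f.eigenspace (a k)) ⊓ (t.sup fun k => E ⊓ f.eigenspace (a k)) = ⊥ := by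
        have h4 := Module.End.eigenspaces_iSupIndep f (a k)
        refine disjoint_iff.1 (h4.mono inf_le_right ?_)
        refine Finset.sup_le fun j hj => inf_le_right.trans ?_
        refine le_iSup₂_of_le (a j) ?_ le_rfl
        intro e
        have := ht (by simp [hj]) (by simp) e
        exact hk (this ▸ hj)
      rw [h3, finrank_bot] at h2
      omega
  exact (key s ha).trans (Submodule.finrank_mono (Finset.sup_le fun k _ => inf_le_left))

/-- An invariant subspace killed by a product of linear factors is covered by eigenspaces. -/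
theorem finrank_le_sum {κ : Type*} (u : End F V) (a : κ → F) (s : Finset κ) :
    ∀ W : Submodule F V, (∀ w ∈ W, u w ∈ W) →
      (∀ w ∈ W, Polynomial.aeval u (∏ k ∈ s, (Polynomial.X - Polynomial.C (a k))) w = 0) →
      finrank F W ≤ ∑ k ∈ s, finrank F (W ⊓ u.eigenspace (a k) : Submodule F V) := by
  classical
  induction s using Finset.induction_on with
  | empty =>
    intro W _ h
    have : W = ⊥ := by
      rw [eq_bot_iff]
      intro w hw
      simpa using h w hw
    simp [this]
  | insert k t hk ih =>
    intro W hW h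
    rw [Finset.sum_insert hk]
    set T : End F V := u - a k • (1 : End F V) with hT
    have hTv : ∀ v, T v = u v - a k • v := fun v => by simp [hT]
    have h1 := ih (W.map T) (by
      rintro _ ⟨w, hw, rfl⟩
      exact ⟨u w, hW w hw, by simp [hTv]⟩) (by
      rintro _ ⟨w, hw, rfl⟩
      have := h w hw
      rw [Finset.prod_insert hk, mul_comm, map_mul, Module.End.mul_apply] at this
      rw [← this]
      congr 1
      simp [hTv])
    have hle : W.map T ≤ W := by
      rintro _ ⟨w, hw, rfl⟩
      rw [hTv]
      exact W.sub_mem (hW w hw) (W.smul_mem _ hw)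
    have h2 : ∑ j ∈ t, finrank F (W.map T ⊓ u.eigenspace (a j) : Submodule F V) ≤
        ∑ j ∈ t, finrank F (W ⊓ u.eigenspace (a j) : Submodule F V) :=
      Finset.sum_le_sum fun j _ => Submodule.finrank_mono (inf_le_inf_right _ hle)
    have h3 := LinearMap.finrank_range_add_finrank_ker (T.domRestrict W)
    rw [LinearMap.range_domRestrict] at h3
    have h4 : finrank F (LinearMap.ker (T.domRestrict W)) ≤
        finrank F (W ⊓ u.eigenspace (a k) : Submodule F V) := by
      rw [← Submodule.finrank_map_subtype_eq]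
      refine Submodule.finrank_mono ?_
      rintro _ ⟨w, hw, rfl⟩
      refine ⟨w.2, ?_⟩
      rw [SetLike.mem_coe, LinearMap.mem_ker, LinearMap.domRestrict_apply, hTv] at hw
      rw [SetLike.mem_coe, mem_eigenspace_iff]
      exact sub_eq_zero.1 hw
    omega

theorem finrank_le_sum_root {r : ℕ} (hr : 0 < r) {ζ : F} (hζ : IsPrimitiveRoot ζ r) (u : End F V)
    (hu : u ^ r = 1) (W : Submodule F V) (hW : ∀ w ∈ W, u w ∈ W) :
    finrank F W ≤ ∑ k ∈ Finset.range r, finrank F (W ⊓ u.eigenspace (ζ ^ k) : Submodule F V) := by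
  refine finrank_le_sum u (fun k => ζ ^ k) _ W hW fun w _ => ?_
  have := X_pow_sub_C_eq_prod hζ (α := 1) (a := 1) hr (one_pow r)
  simp only [mul_one] at this
  rw [← this]
  simp [hu]

/-- An operator twisting `g` by a primitive root of unity permutes its eigenspaces. -/
theorem mul_finrank_le {r : ℕ} {β : F} (hβ : IsPrimitiveRoot β r) (g y : End F V)
    (hy : Function.Injective y) (E : Submodule F V) (hE : ∀ v ∈ E, y v ∈ E)
    (hg : ∀ v ∈ E, g (y v) = β • y (g v)) {c : F} (hc : c ≠ 0) :
    r * finrank F (E ⊓ g.eigenspace c : Submodule F V) ≤ finrank F E := by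
  have h1 : ∀ i : ℕ, finrank F (E ⊓ g.eigenspace c : Submodule F V) ≤
      finrank F (E ⊓ g.eigenspace (c * β ^ i) : Submodule F V) := by
    intro i
    induction i with
    | zero => rw [pow_zero, mul_one]
    | succ i ih =>
      refine ih.trans (finrank_le_of_map y hy ?_)
      rintro v ⟨hv1, hv2⟩
      refine ⟨hE v hv1, ?_⟩
      rw [SetLike.mem_coe, mem_eigenspace_iff] at hv2 ⊢
      rw [hg v hv1, hv2, map_smul, smul_smul]
      congr 1
      ring
  have h2 := sum_finrank_inf_le g E (fun i => c * β ^ i) (Finset.range r) (by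
    intro i hi j hj e
    exact hβ.pow_inj (by simpa using hi) (by simpa using hj) (mul_left_cancel₀ hc e))
  refine le_trans ?_ h2
  have := Finset.card_nsmul_le_sum (Finset.range r)
    (fun i => finrank F (E ⊓ g.eigenspace (c * β ^ i) : Submodule F V)) _ (fun i _ => h1 i)
  simpa using this

/-- triangular numbers -/
def tri (k : ℕ) : ℕ := ∑ i ∈ Finset.range (k + 1), i

theorem tri_succ (k : ℕ) : tri (k + 1) = tri k + (k + 1) := Finset.sum_range_succ _ _

theorem two_mul_tri (k : ℕ) : 2 * tri k = k * (k + 1) := by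
  induction k with
  | zero => simp [tri]
  | succ k ih => rw [tri_succ, mul_add, ih]; ring

theorem tri_inj {r : ℕ} (hr : r.Prime) {ζ : F} (hζ : IsPrimitiveRoot ζ r) {k l : ℕ} (hk : k < r)
    (hl : l < r) (h : ζ ^ tri k = ζ ^ tri l) : k = l ∨ k + l + 1 = r := by
  have h0 : ζ ≠ 0 := hζ.ne_zero hr.ne_zero
  have h1 : ζ ^ ((tri k : ℤ) - tri l) = 1 := by
    rw [zpow_sub₀ h0, zpow_natCast, zpow_natCast, h, div_self (pow_ne_zero _ h0)]
  rw [hζ.zpow_eq_one_iff_dvd] at h1
  have h2 : (r : ℤ) ∣ ((k : ℤ) - l) * ((k : ℤ) + l + 1) := by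
    have e : ((k : ℤ) - l) * ((k : ℤ) + l + 1) = 2 * ((tri k : ℤ) - tri l) := by
      have a1 := congrArg (Nat.cast : ℕ → ℤ) (two_mul_tri k)
      have a2 := congrArg (Nat.cast : ℕ → ℤ) (two_mul_tri l)
      push_cast at a1 a2
      linear_combination a2 - a1
    rw [e]
    exact h1.mul_left 2
  rcases (Nat.prime_iff_prime_int.1 hr).dvd_or_dvd h2 with h3 | h3
  · left
    have := Int.eq_zero_of_abs_lt_dvd h3 (by rw [abs_lt]; omega)
    omega
  · right
    obtain ⟨m, hm⟩ := h3
    have hr0 : (0 : ℤ) < r := by exact_mod_cast hr.pos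
    have m1 : 0 < m := by nlinarith
    have m2 : m < 2 := by nlinarith
    have : m = 1 := by omega
    rw [this] at hm
    omega

/-- The main estimate: `g x = u x g`, `g u = u g`, `u ^ r = 1`, `u x = γ x u`, and the eigenspace
of `u` for `1` has dimension at most `n / r`. -/
theorem main_bound {r : ℕ} (hr : r.Prime) {ζ : F} (hζ : IsPrimitiveRoot ζ r) (g x x' u : End F V)
    (hx : ∀ v, x (x' v) = v) (hx' : ∀ v, x' (x v) = v) (hgx : ∀ v, g (x v) = u (x (g v)))
    (hgu : ∀ v, g (u v) = u (g v)) (hu : u ^ r = 1) {γ : F} (hγ : γ ^ r = 1)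
    (hux : ∀ v, u (x v) = γ • x (u v))
    (hfix : r * finrank F (u.eigenspace 1) ≤ finrank F V) {c : F} (hc : c ≠ 0) :
    r * finrank F (g.eigenspace c) ≤ 2 * finrank F V := by
  have hW : ∀ w ∈ g.eigenspace c, u w ∈ g.eigenspace c := by
    intro w hw
    rw [mem_eigenspace_iff] at hw ⊢
    rw [hgu, hw, map_smul]
  have hxi : Function.Injective x := fun a b h => by rw [← hx' a, h, hx']
  have hxi' : Function.Injective x' := fun a b h => by rw [← hx a, h, hx]
  by_cases h1 : γ = 1
  · have h2 := finrank_le_sum_root hr.pos hζ u hu _ hW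
    obtain ⟨m, rfl⟩ : ∃ m, r = m + 1 := ⟨r - 1, by have := hr.pos; omega⟩
    rw [Finset.sum_range_succ', pow_zero] at h2
    have h3 : ∀ k ∈ Finset.range m, (m + 1) *
        finrank F (g.eigenspace c ⊓ u.eigenspace (ζ ^ (k + 1)) : Submodule F V) ≤
        finrank F (⊤ ⊓ u.eigenspace (ζ ^ (k + 1)) : Submodule F V) := by
      intro k hk
      rw [Finset.mem_range] at hk
      rw [top_inf_eq, inf_comm]
      refine mul_finrank_le (β := ζ ^ (k + 1)) (hζ.pow_of_coprime _ ?_) g x hxi _ ?_ ?_ hc
      · exact ((Nat.Prime.coprime_iff_not_dvd hr).2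
          (Nat.not_dvd_of_pos_of_lt (by omega) (by omega))).symm
      · intro v hv
        rw [mem_eigenspace_iff] at hv ⊢
        rw [hux, h1, one_smul, hv, map_smul]
      · intro v hv
        rw [mem_eigenspace_iff] at hv
        rw [hgx, hux, h1, one_smul, ← hgu, hv, map_smul, map_smul]
    have h4 := sum_finrank_inf_le u ⊤ (fun k => ζ ^ (k + 1)) (Finset.range m) (by
      intro i hi j hj e
      have := hζ.pow_inj (by simpa using hi) (by simpa using hj) e
      omega)
    have h5 := Finset.sum_le_sum h3
    rw [← Finset.mul_sum] at h5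
    rw [finrank_top] at h4
    have h6 : finrank F (g.eigenspace c ⊓ u.eigenspace 1 : Submodule F V) ≤
        finrank F (u.eigenspace 1) := Submodule.finrank_mono inf_le_right
    have h7 := Nat.mul_le_mul_left (m + 1) h2
    have h8 := Nat.mul_le_mul_left (m + 1) h6
    rw [mul_add] at h7
    omega
  · haveI : Fact r.Prime := ⟨hr⟩
    have hγp : IsPrimitiveRoot γ r := by
      rw [← orderOf_eq_prime hγ h1]
      exact IsPrimitiveRoot.orderOf γ
    have hγ0 : γ ≠ 0 := hγp.ne_zero hr.ne_zero
    have h2 := finrank_le_sum_root hr.pos hγp u hu _ hW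
    have h3 : ∀ (k : ℕ) (a : F),
        finrank F (g.eigenspace (a * γ ^ tri k) ⊓ u.eigenspace (γ ^ k) : Submodule F V) ≤
        finrank F (u.eigenspace 1 ⊓ g.eigenspace a : Submodule F V) := by
      intro k
      induction k with
      | zero =>
        intro a
        have : tri 0 = 0 := rfl
        rw [this, pow_zero, mul_one, inf_comm]
      | succ k ih =>
        intro a
        refine le_trans (finrank_le_of_map x' hxi' ?_) (ih a)
        rintro v ⟨hv1, hv2⟩
        rw [SetLike.mem_coe, mem_eigenspace_iff] at hv1 hv2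
        have e2 : u (x' v) = γ ^ k • x' v := by
          apply hxi
          have := hux (x' v)
          rw [hx, hv2, pow_succ', mul_smul] at this
          rw [map_smul, hx]
          exact (smul_right_injective V hγ0 this).symm
        refine ⟨?_, by rw [SetLike.mem_coe, mem_eigenspace_iff, e2]⟩
        rw [SetLike.mem_coe, mem_eigenspace_iff]
        have e3 := hgx (x' v)
        rw [hx, hv1, hux, ← hgu, e2, map_smul, map_smul, smul_smul, ← pow_succ', tri_succ, pow_add,
          ← mul_assoc, mul_comm, mul_smul] at e3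
        apply hxi
        rw [map_smul, hx]
        exact (smul_right_injective V (pow_ne_zero _ hγ0) e3).symm
    have h4 : ∀ k ∈ Finset.range r,
        finrank F (g.eigenspace c ⊓ u.eigenspace (γ ^ k) : Submodule F V) ≤
        finrank F (u.eigenspace 1 ⊓ g.eigenspace (c * (γ ^ tri k)⁻¹) : Submodule F V) := by
      intro k _
      have := h3 k (c * (γ ^ tri k)⁻¹)
      rwa [mul_assoc, inv_mul_cancel₀ (pow_ne_zero _ hγ0), mul_one] at this
    have h5 := Finset.sum_le_sum h4
    have h6 := Finset.sum_filter_add_sum_filter_not (Finset.range r) (fun k => 2 * k + 1 ≤ r)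
      (fun k => finrank F (u.eigenspace 1 ⊓ g.eigenspace (c * (γ ^ tri k)⁻¹) : Submodule F V))
    have h7 := sum_finrank_inf_le g (u.eigenspace 1) (fun k => c * (γ ^ tri k)⁻¹)
      ((Finset.range r).filter fun k => 2 * k + 1 ≤ r) (by
        intro i hi j hj e
        simp only [Finset.coe_filter, Finset.mem_range, Set.mem_ofPred_eq] at hi hj
        rcases tri_inj hr hγp hi.1 hj.1 (inv_injective (mul_left_cancel₀ hc e)) with h | h <;> omega)
    have h8 := sum_finrank_inf_le g (u.eigenspace 1) (fun k => c * (γ ^ tri k)⁻¹)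
      ((Finset.range r).filter fun k => ¬ 2 * k + 1 ≤ r) (by
        intro i hi j hj e
        simp only [Finset.coe_filter, Finset.mem_range, Set.mem_ofPred_eq] at hi hj
        rcases tri_inj hr hγp hi.1 hj.1 (inv_injective (mul_left_cancel₀ hc e)) with h | h <;> omega)
    have h9 : finrank F (g.eigenspace c) ≤ 2 * finrank F (u.eigenspace 1) := by omega
    have := Nat.mul_le_mul_left r h9
    nlinarith

/-- Polarisation for a skew bimultiplicative pairing preserved by an automorphism. -/
theorem polar {N S : Type*} [Group N] [AddCommGroup S] (ω : N → N → S)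
    (h1 : ∀ a b c, ω (a * b) c = ω a c + ω b c) (h2 : ∀ a b c, ω a (b * c) = ω a b + ω a c)
    (hs : ∀ a b, ω a b + ω b a = 0) (φ : N →* N) (hφ : ∀ a b, ω (φ a) (φ b) = ω a b)
    (H : ∀ x, ω (φ x * x⁻¹) (φ (φ x * x⁻¹)) = 0) (x y : N) :
    ω x (φ (φ (φ (φ y * y⁻¹) * (φ y * y⁻¹)⁻¹)) * (φ (φ y * y⁻¹) * (φ y * y⁻¹)⁻¹)⁻¹) = 0 := by
  have i1 : ∀ c, ω 1 c = 0 := fun c => by simpa using h1 1 1 c
  have i2 : ∀ c, ω c 1 = 0 := fun c => by simpa using h2 c 1 1
  have j1 : ∀ a c, ω a⁻¹ c = - ω a c := fun a c => by
    have := h1 a⁻¹ a c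
    rw [inv_mul_cancel, i1] at this
    exact eq_neg_of_add_eq_zero_left this.symm
  have j2 : ∀ a c, ω c a⁻¹ = - ω c a := fun a c => by
    have := h2 c a⁻¹ a
    rw [inv_mul_cancel, i2] at this
    exact eq_neg_of_add_eq_zero_left this.symm
  have a1 := H (x * φ (φ y))
  have a2 := H x
  have a3 := H (φ (φ y))
  have s1 := hs (φ y) x
  have s2 := hs (φ (φ y)) x
  have s3 := hs y x
  simp only [map_mul, map_inv, mul_inv_rev, h1, h2, j1, j2, hφ] at a1 a2 a3 ⊢
  linear_combination (norm := abel1) a2 + a3 - a1 - s3 - s2 + s1 + s1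

end Cfsg.Agent.H3.ExEig
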