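import Mathlib
import Cfsg.Agent.Asch.Span

/-!
Eigenspaces of invertible matrices and commutators.
-/

set_option autoImplicit false

namespace Cfsg.Agent.H3.FixSpace

open scoped commutatorElement Matrix MatrixGroups
open Cfsg.Agent.Asch Cfsg.Geo

variable {ι : Type} [Fintype ι] [DecidableEq ι] {F : Type*} [Field F]

theorem mem_eig (x : Matrix ι ι F) (c : F) (v : ι → F) :
    v ∈ Module.End.eigenspace (Matrix.toLin' x) c ↔ x *ᵥ v = c • v := by
  rw [Module.End.mem_eigenspace_iff, Matrix.toLin'_apply]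

theorem map_eig (g : GL ι F) (x : Matrix ι ι F) (c : F) :
    (Module.End.eigenspace (Matrix.toLin' x) c).map (Matrix.toLin' (g : Matrix ι ι F)) =
      Module.End.eigenspace (Matrix.toLin' (cj g x)) c := by
  ext v
  rw [Submodule.mem_map, mem_eig]
  constructor
  · rintro ⟨u, hu, rfl⟩
    rw [mem_eig] at hu
    rw [Matrix.toLin'_apply, cj_mulVec, hu, Matrix.mulVec_smul]
  · intro hv
    refine ⟨((g⁻¹ : GL ι F) : Matrix ι ι F) *ᵥ v, ?_, by
      rw [Matrix.toLin'_apply, mulVec_inv_mulVec]⟩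
    rw [mem_eig, ← Matrix.mulVec_smul, ← hv]
    conv_rhs => rw [← mulVec_inv_mulVec g v, cj_mulVec, inv_mulVec_mulVec]

theorem finrank_eig_cj (g : GL ι F) (x : Matrix ι ι F) (c : F) :
    Module.finrank F (Module.End.eigenspace (Matrix.toLin' (cj g x)) c) =
      Module.finrank F (Module.End.eigenspace (Matrix.toLin' x) c) := by
  rw [← map_eig, finrank_map_gl]

/-- An eigenspace of `g` meets its translate in the fixed space of a commutator. -/
theorem two_mul_finrank_le (g x : GL ι F) (c : F) :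
    2 * Module.finrank F (Module.End.eigenspace (Matrix.toLin' (g : Matrix ι ι F)) c) ≤
      Fintype.card ι +
        Module.finrank F (Module.End.eigenspace
          (Matrix.toLin' ((⁅g, x⁆ : GL ι F) : Matrix ι ι F)) 1) := by
  have h1 := Submodule.finrank_sup_add_finrank_inf_eq
    (Module.End.eigenspace (Matrix.toLin' (g : Matrix ι ι F)) c)
    (Module.End.eigenspace (Matrix.toLin' (cj x (g : Matrix ι ι F))) c)
  rw [finrank_eig_cj] at h1
  have h2 := Submodule.finrank_le (Module.End.eigenspace (Matrix.toLin' (g : Matrix ι ι F)) c ⊔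
    Module.End.eigenspace (Matrix.toLin' (cj x (g : Matrix ι ι F))) c)
  rw [Module.finrank_fintype_fun_eq_card] at h2
  have h3 : Module.End.eigenspace (Matrix.toLin' (g : Matrix ι ι F)) c ⊓
      Module.End.eigenspace (Matrix.toLin' (cj x (g : Matrix ι ι F))) c ≤
      Module.End.eigenspace (Matrix.toLin' ((⁅g, x⁆ : GL ι F) : Matrix ι ι F)) 1 := by
    rintro v ⟨hv1, hv2⟩
    rw [SetLike.mem_coe, mem_eig] at hv1 hv2
    rw [cj_coe] at hv2
    have e : ⁅g, x⁆ = g * (x * g * x⁻¹)⁻¹ := by rw [commutatorElement_def]; group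
    rw [mem_eig, one_smul, e, Units.val_mul, ← Matrix.mulVec_mulVec]
    have h4 : (g : Matrix ι ι F) *ᵥ (((x * g * x⁻¹)⁻¹ : GL ι F) : Matrix ι ι F) *ᵥ
        (((x * g * x⁻¹ : GL ι F) : Matrix ι ι F) *ᵥ v) = c • v := by
      rw [inv_mulVec_mulVec, hv1]
    rw [hv2, Matrix.mulVec_smul, Matrix.mulVec_smul] at h4
    by_cases hc : c = 0
    · rw [hc, zero_smul] at hv1
      have : v = 0 := by rw [← inv_mulVec_mulVec g v, hv1, Matrix.mulVec_zero]
      rw [this, Matrix.mulVec_zero, Matrix.mulVec_zero]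
    · exact smul_right_injective _ hc h4
  have h4 := Submodule.finrank_mono h3
  omega

end Cfsg.Agent.H3.FixSpace
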