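import Cfsg.Agent.H3.ExEig
import Cfsg.Agent.H3.FixSpace
import Cfsg.Agent.Asch.RGroup

/-!
Eigenspaces of elements normalising an absolutely irreducible group that is elementary abelian
modulo scalars.
-/

set_option autoImplicit false
set_option linter.unusedSectionVars false
set_option linter.style.haveILetI false

namespace Cfsg.Agent.H3.ExNorm

open scoped commutatorElement Matrix MatrixGroups IsMulCommutative
open Cfsg.Agent.Asch Cfsg.Geo Cfsg.Agent.H3.FixSpace Cfsg.Agent.H3.ExEig Module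

variable {ι : Type} [Fintype ι] [DecidableEq ι] {F : Type*} [Field F]

/-- eigenspace of an invertible matrix -/
abbrev eig (g : GL ι F) (c : F) : Submodule F (ι → F) :=
  Module.End.eigenspace (Matrix.toLin' (g : Matrix ι ι F)) c

theorem eq_zero_of_mulVec {g : GL ι F} {v : ι → F} (h : (g : Matrix ι ι F) *ᵥ v = 0) : v = 0 := by
  rw [← inv_mulVec_mulVec g v, h, Matrix.mulVec_zero]

theorem eig_zero (g : GL ι F) : eig g 0 = ⊥ := by
  rw [eq_bot_iff]
  intro v hv
  rw [mem_eig, zero_smul] at hv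
  exact eq_zero_of_mulVec hv

theorem two_mul_le_inf (g x : GL ι F) (c : F) :
    2 * finrank F (eig g c) ≤ Fintype.card ι + finrank F (eig g c ⊓ eig ⁅g, x⁆ 1 : Submodule F _) := by
  have h1 := Submodule.finrank_sup_add_finrank_inf_eq (eig g c)
    (Module.End.eigenspace (Matrix.toLin' (cj x (g : Matrix ι ι F))) c)
  rw [finrank_eig_cj] at h1
  have h2 := Submodule.finrank_le (eig g c ⊔
    Module.End.eigenspace (Matrix.toLin' (cj x (g : Matrix ι ι F))) c)
  rw [Module.finrank_fintype_fun_eq_card] at h2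
  have h3 : eig g c ⊓ Module.End.eigenspace (Matrix.toLin' (cj x (g : Matrix ι ι F))) c ≤
      eig g c ⊓ eig ⁅g, x⁆ 1 := by
    rintro v ⟨hv1, hv2⟩
    refine ⟨hv1, ?_⟩
    rw [SetLike.mem_coe, mem_eig] at hv1 hv2
    rw [cj_coe] at hv2
    have e : ⁅g, x⁆ = g * (x * g * x⁻¹)⁻¹ := by rw [commutatorElement_def]; group
    rw [SetLike.mem_coe, mem_eig, one_smul, e, Units.val_mul, ← Matrix.mulVec_mulVec]
    have h4 : (g : Matrix ι ι F) *ᵥ (((x * g * x⁻¹)⁻¹ : GL ι F) : Matrix ι ι F) *ᵥ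
        (((x * g * x⁻¹ : GL ι F) : Matrix ι ι F) *ᵥ v) = c • v := by
      rw [inv_mulVec_mulVec, hv1]
    rw [hv2, Matrix.mulVec_smul, Matrix.mulVec_smul] at h4
    by_cases hc : c = 0
    · rw [hc, zero_smul] at hv1
      rw [eq_zero_of_mulVec hv1, Matrix.mulVec_zero, Matrix.mulVec_zero]
    · exact smul_right_injective _ hc h4
  have h4 := Submodule.finrank_mono h3
  change finrank F (eig g c ⊔ _ : Submodule F _) + finrank F (eig g c ⊓ _ : Submodule F _) =
    finrank F (eig g c) + finrank F (eig g c) at h1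
  omega

/-- A large eigenspace yields common fixed vectors of `⁅g, x⁆` and its `g`-conjugate. -/
theorem exists_fix {g : GL ι F} {c : F} (h : Fintype.card ι < 2 * finrank F (eig g c))
    (x : GL ι F) : ∃ v : ι → F, v ≠ 0 ∧ ((⁅g, x⁆ : GL ι F) : Matrix ι ι F) *ᵥ v = v ∧
      ((g * ⁅g, x⁆ * g⁻¹ : GL ι F) : Matrix ι ι F) *ᵥ v = v := by
  have h1 := two_mul_le_inf g x c
  have h2 : eig g c ⊓ eig ⁅g, x⁆ 1 ≠ ⊥ := by
    intro e
    rw [e, finrank_bot] at h1
    omega
  obtain ⟨v, ⟨hv1, hv2⟩, hv0⟩ := Submodule.exists_mem_ne_zero_of_ne_bot h2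
  rw [SetLike.mem_coe, mem_eig] at hv1 hv2
  rw [one_smul] at hv2
  refine ⟨v, hv0, hv2, ?_⟩
  have hc : c ≠ 0 := by
    rintro rfl
    rw [zero_smul] at hv1
    exact hv0 (eq_zero_of_mulVec hv1)
  apply smul_right_injective _ hc
  have e : ((g * ⁅g, x⁆ * g⁻¹ : GL ι F) : Matrix ι ι F) *ᵥ ((g : Matrix ι ι F) *ᵥ v) = c • v := by
    rw [Units.val_mul, Units.val_mul, ← Matrix.mulVec_mulVec, ← Matrix.mulVec_mulVec,
      inv_mulVec_mulVec, hv2, hv1]
  rwa [hv1, Matrix.mulVec_smul] at e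

theorem eq_one_of_scalar {z : GL ι F} (hz : z ∈ scalars ι F) {v : ι → F} (hv : v ≠ 0)
    (h : (z : Matrix ι ι F) *ᵥ v = v) : z = 1 := by
  obtain ⟨a, rfl⟩ := mem_scalars_iff_sc.1 hz
  rw [coe_sc, Matrix.smul_mulVec, Matrix.one_mulVec] at h
  have : (a : F) = 1 := by
    apply smul_left_injective F hv
    simpa using h
  rw [Units.val_eq_one.1 this, map_one]

theorem comm_mem_scalars {r : ℕ} {N : Subgroup (GL ι F)} (h : RData r N) {x y : GL ι F}
    (hx : x ∈ N) (hy : y ∈ N) : ⁅x, y⁆ ∈ scalars ι F := by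
  obtain ⟨c, hc⟩ := h.comm x hx y hy
  exact mem_scalars_of_eq_smul (mem_of_twist hc)

theorem mulVec_eq_of_comm {a b : GL ι F} {v : ι → F} (ha : (a : Matrix ι ι F) *ᵥ v = v)
    (hb : (b : Matrix ι ι F) *ᵥ v = v) : ((⁅a, b⁆ : GL ι F) : Matrix ι ι F) *ᵥ v = v := by
  have ha' : ((a⁻¹ : GL ι F) : Matrix ι ι F) *ᵥ v = v := by
    conv_lhs => rw [← ha, inv_mulVec_mulVec]
  have hb' : ((b⁻¹ : GL ι F) : Matrix ι ι F) *ᵥ v = v := by
    conv_lhs => rw [← hb, inv_mulVec_mulVec]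
  rw [commutatorElement_def, Units.val_mul, Units.val_mul, Units.val_mul, ← Matrix.mulVec_mulVec,
    ← Matrix.mulVec_mulVec, ← Matrix.mulVec_mulVec, hb', ha', hb, ha]

/-- A non-scalar element of `N` has fixed space of dimension at most `n / r`. -/
theorem fix_bound [Nonempty ι] {r : ℕ} {N : Subgroup (GL ι F)} (h : RData r N) {u : GL ι F}
    (hu : u ∈ N) (hs : u ∉ scalars ι F) :
    (∃ ζ : F, IsPrimitiveRoot ζ r) ∧ r * finrank F (eig u 1) ≤ Fintype.card ι := by
  obtain ⟨y, -, β, hβ1, hβ⟩ := h.exists_twist hu hs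
  have hp := RData.isPrimitiveRoot_of_ne_one h.prime hβ1 (h.twist_pow hu hβ)
  refine ⟨⟨β, hp⟩, ?_⟩
  have := mul_finrank_le hp (Matrix.toLin' (u : Matrix ι ι F)) (Matrix.toLin' (y : Matrix ι ι F))
    (fun a b hab => by
      rw [Matrix.toLin'_apply, Matrix.toLin'_apply] at hab
      rw [← inv_mulVec_mulVec y a, hab, inv_mulVec_mulVec]) ⊤ (fun _ _ => trivial)
    (fun v _ => by
      simp only [Matrix.toLin'_apply, Matrix.mulVec_mulVec, hβ, Matrix.smul_mulVec])
    (one_ne_zero (α := F))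
  rwa [top_inf_eq, finrank_top, Module.finrank_fintype_fun_eq_card] at this

theorem comm_mem {N : Subgroup (GL ι F)} {g : GL ι F} (hg : ∀ x ∈ N, g * x * g⁻¹ ∈ N)
    {x : GL ι F} (hx : x ∈ N) : ⁅g, x⁆ ∈ N := by
  rw [commutatorElement_def]
  exact N.mul_mem (hg x hx) (N.inv_mem hx)

theorem exists_nonscalar {r : ℕ} {N : Subgroup (GL ι F)} (h : RData r N) {g : GL ι F}
    (hns : g ∉ scalars ι F) {c : F} (hd : Fintype.card ι < 2 * finrank F (eig g c)) :
    ∃ x ∈ N, ⁅g, x⁆ ∉ scalars ι F := by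
  by_contra h'
  push Not at h'
  refine hns (h.abs.mem_scalars_of_comm fun x hx => ?_)
  obtain ⟨v, hv0, hv, -⟩ := exists_fix hd x
  exact commutatorElement_eq_one_iff_mul_comm.1 (eq_one_of_scalar (h' x hx) hv0 hv)

theorem bound_general [Nonempty ι] {r : ℕ} {N : Subgroup (GL ι F)} (h : RData r N) {g : GL ι F}
    (hg : ∀ x ∈ N, g * x * g⁻¹ ∈ N) (hns : g ∉ scalars ι F) (c : F) :
    r * (2 * finrank F (eig g c)) ≤ r * Fintype.card ι + Fintype.card ι := by
  by_cases hd : Fintype.card ι < 2 * finrank F (eig g c)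
  · obtain ⟨x, hx, hs⟩ := exists_nonscalar h hns hd
    have h1 := (fix_bound h (comm_mem hg hx) hs).2
    have h2 := two_mul_finrank_le g x c
    have h3 := Nat.mul_le_mul_left r h2
    rw [mul_add] at h3
    exact h3.trans (Nat.add_le_add_left h1 _)
  · exact (Nat.mul_le_mul_left r (not_lt.1 hd)).trans (Nat.le_add_right _ _)

theorem comm_mul_left {G : Type*} [Group G] {a b c : G} (h : ⁅b, c⁆ ∈ Subgroup.center G) :
    ⁅a * b, c⁆ = ⁅a, c⁆ * ⁅b, c⁆ := by
  have e : ⁅a * b, c⁆ = a * ⁅b, c⁆ * a⁻¹ * ⁅a, c⁆ := by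
    simp only [commutatorElement_def]; group
  rw [e, Subgroup.mem_center_iff.1 h a, mul_inv_cancel_right, Subgroup.mem_center_iff.1 h]

theorem comm_mul_right {G : Type*} [Group G] {a b c : G} (h : ⁅a, c⁆ ∈ Subgroup.center G) :
    ⁅a, b * c⁆ = ⁅a, b⁆ * ⁅a, c⁆ := by
  have e : ⁅a, b * c⁆ = ⁅a, b⁆ * (b * ⁅a, c⁆ * b⁻¹) := by
    simp only [commutatorElement_def]; group
  rw [e, Subgroup.mem_center_iff.1 h b, mul_inv_cancel_right]

theorem polar_group {G : Type*} [Group G] (N : Subgroup G)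
    (hc : ∀ a ∈ N, ∀ b ∈ N, ⁅a, b⁆ ∈ Subgroup.center G) {g : G} (hg : ∀ x ∈ N, g * x * g⁻¹ ∈ N)
    (H : ∀ x ∈ N, ⁅⁅g, x⁆, g * ⁅g, x⁆ * g⁻¹⁆ = 1) {x y : G} (hx : x ∈ N) (hy : y ∈ N) :
    ⁅x, ⁅g ^ 2, ⁅g, ⁅g, y⁆⁆⁆⁆ = 1 := by
  let ω : N → N → Additive (Subgroup.center G) := fun a b =>
    Additive.ofMul ⟨⁅(a : G), (b : G)⁆, hc a a.2 b b.2⟩
  let φ : N →* N :=
    { toFun := fun a => ⟨g * a * g⁻¹, hg a a.2⟩
      map_one' := by ext; simp
      map_mul' := fun a b => by ext; simp only [Subgroup.coe_mul]; group }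
  have hφ : ∀ a : N, (φ a : G) = g * a * g⁻¹ := fun a => rfl
  have key := polar ω
    (fun a b c => by
      apply Additive.toMul.injective
      exact Subtype.ext (comm_mul_left (a := (a : G)) (hc b b.2 c c.2)))
    (fun a b c => by
      apply Additive.toMul.injective
      exact Subtype.ext (comm_mul_right (b := (b : G)) (hc a a.2 c c.2)))
    (fun a b => by
      apply Additive.toMul.injective
      refine Subtype.ext ?_
      change ⁅(a : G), (b : G)⁆ * ⁅(b : G), (a : G)⁆ = 1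
      simp only [commutatorElement_def]; group)
    φ
    (fun a b => by
      apply Additive.toMul.injective
      refine Subtype.ext ?_
      change ⁅g * a * g⁻¹, g * b * g⁻¹⁆ = ⁅(a : G), (b : G)⁆
      rw [← conjugate_commutatorElement, Subgroup.mem_center_iff.1 (hc a a.2 b b.2) g,
        mul_inv_cancel_right])
    (fun a => by
      apply Additive.toMul.injective
      exact Subtype.ext (H a a.2))
    ⟨x, hx⟩ ⟨y, hy⟩
  have := congrArg (fun t => ((Additive.toMul t : Subgroup.center G) : G)) key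
  simp only [ω, toMul_ofMul, toMul_zero, Subgroup.coe_one, Subgroup.coe_mul, hφ,
    Subgroup.coe_inv] at this
  rw [← this]
  congr 1
  simp only [commutatorElement_def, sq, mul_inv_rev, mul_assoc, inv_inv]

theorem bound_odd [Nonempty ι] {r : ℕ} {N : Subgroup (GL ι F)} (h : RData r N) {g : GL ι F}
    (hg : ∀ x ∈ N, g * x * g⁻¹ ∈ N) (hns : g ∉ scalars ι F) {p : ℕ} (hp : p.Prime) (hp2 : p ≠ 2)
    (hgp : g ^ p = 1) (c : F) :
    2 * finrank F (eig g c) ≤ Fintype.card ι ∨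
      (p = r ∧ r * finrank F (eig g c) ≤ 2 * Fintype.card ι) := by
  by_cases hd : Fintype.card ι < 2 * finrank F (eig g c)
  swap
  · exact Or.inl (not_lt.1 hd)
  right
  have hc : c ≠ 0 := by
    rintro rfl
    rw [eig_zero, finrank_bot] at hd
    omega
  haveI : (scalars ι F).Normal := scalars_normal
  have hcen : ∀ a ∈ N, ∀ b ∈ N, ⁅a, b⁆ ∈ Subgroup.center (GL ι F) := fun a ha b hb =>
    Subgroup.mem_center_iff.2 fun z => (scalars_comm (comm_mem_scalars h ha hb) z).symm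
  have H : ∀ x ∈ N, ⁅⁅g, x⁆, g * ⁅g, x⁆ * g⁻¹⁆ = 1 := by
    intro x hx
    obtain ⟨v, hv0, hv1, hv2⟩ := exists_fix hd x
    exact eq_one_of_scalar (comm_mem_scalars h (comm_mem hg hx) (hg _ (comm_mem hg hx))) hv0
      (mulVec_eq_of_comm hv1 hv2)
  have hq : ∀ a b : GL ι F, ⁅a, b⁆ ∈ scalars ι F ↔
      Commute (QuotientGroup.mk' (scalars ι F) a) (QuotientGroup.mk' (scalars ι F) b) := by
    intro a b
    rw [← commutatorElement_eq_one_iff_commute, ← map_commutatorElement, QuotientGroup.mk'_apply,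
      QuotientGroup.eq_one_iff]
  have H3 : ∀ y ∈ N, ⁅g, ⁅g, ⁅g, y⁆⁆⁆ ∈ scalars ι F := by
    intro y hy
    have h1 : ⁅g ^ 2, ⁅g, ⁅g, y⁆⁆⁆ ∈ scalars ι F :=
      h.abs.mem_scalars_of_comm fun x hx =>
        (commutatorElement_eq_one_iff_mul_comm.1 (polar_group N hcen hg H hx hy)).symm
    rw [hq] at h1 ⊢
    obtain ⟨k, hk⟩ := hp.odd_of_ne_two hp2
    have e : g = (g ^ 2) ^ (k + 1) := by
      rw [← pow_mul, show 2 * (k + 1) = p + 1 by omega, pow_succ, hgp, one_mul]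
    have := h1.pow_left (k + 1)
    rwa [← map_pow, ← e] at this
  obtain ⟨x, hx, hs, hs2⟩ : ∃ x ∈ N, ⁅g, x⁆ ∉ scalars ι F ∧ ⁅g, ⁅g, x⁆⁆ ∈ scalars ι F := by
    obtain ⟨y, hy, hys⟩ := exists_nonscalar h hns hd
    by_cases h2 : ⁅g, ⁅g, y⁆⁆ ∈ scalars ι F
    · exact ⟨y, hy, hys, h2⟩
    · exact ⟨⁅g, y⁆, comm_mem hg hy, h2, H3 y hy⟩
  have hu := comm_mem hg hx
  obtain ⟨v, hv0, hv1, hv2⟩ := exists_fix hd x
  set u := ⁅g, x⁆ with hudef
  have hgu : ⁅g, u⁆ = 1 := by
    refine eq_one_of_scalar hs2 hv0 ?_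
    have hv3 : ((u⁻¹ : GL ι F) : Matrix ι ι F) *ᵥ v = v := by
      conv_lhs => rw [← hv1, inv_mulVec_mulVec]
    rw [commutatorElement_def, Units.val_mul, ← Matrix.mulVec_mulVec, hv3, hv2]
  have hcomm : Commute g u := commutatorElement_eq_one_iff_commute.1 hgu
  have hgx : g * x = u * x * g := by rw [hudef, commutatorElement_def]; group
  have hpow : ∀ i : ℕ, g ^ i * x = u ^ i * x * g ^ i := by
    intro i
    induction i with
    | zero => simp
    | succ i ih =>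
      rw [pow_succ' g, mul_assoc, ih, ← mul_assoc, ← mul_assoc, (hcomm.pow_right i).eq,
        mul_assoc (u ^ i), hgx, pow_succ u]
      group
  have hup : u ^ p = 1 := by
    have := hpow p
    rw [hgp, one_mul, mul_one] at this
    exact (mul_eq_right.1 this.symm)
  have hpr : p = r := by
    by_contra hne
    apply hs
    have a1 : (QuotientGroup.mk' (scalars ι F) u) ^ p = 1 := by rw [← map_pow, hup, map_one]
    have a2 : (QuotientGroup.mk' (scalars ι F) u) ^ r = 1 := by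
      rw [← map_pow, QuotientGroup.mk'_apply, QuotientGroup.eq_one_iff]
      exact h.pow u hu
    have a3 := pow_gcd_eq_one.2 ⟨a1, a2⟩
    rw [((Nat.coprime_primes hp h.prime).2 hne).gcd_eq_one, pow_one, QuotientGroup.mk'_apply,
      QuotientGroup.eq_one_iff] at a3
    exact a3
  refine ⟨hpr, ?_⟩
  obtain ⟨⟨ζ, hζ⟩, hfix⟩ := fix_bound h hu hs
  obtain ⟨γ, hγ⟩ := h.comm u hu x hx
  have := main_bound h.prime hζ (Matrix.toLin' (g : Matrix ι ι F))
    (Matrix.toLin' (x : Matrix ι ι F)) (Matrix.toLin' ((x⁻¹ : GL ι F) : Matrix ι ι F))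
    (Matrix.toLin' (u : Matrix ι ι F))
    (fun v => by simp only [Matrix.toLin'_apply, mulVec_inv_mulVec])
    (fun v => by simp only [Matrix.toLin'_apply, inv_mulVec_mulVec])
    (fun v => by simp only [Matrix.toLin'_apply, Matrix.mulVec_mulVec, ← Units.val_mul, hgx,
      mul_assoc])
    (fun v => by simp only [Matrix.toLin'_apply, Matrix.mulVec_mulVec, ← Units.val_mul, hcomm.eq])
    (by rw [← Matrix.toLin'_pow, ← Units.val_pow_eq_pow_val, ← hpr, hup, Units.val_one,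
      Matrix.toLin'_one, Module.End.one_eq_id])
    (h.twist_pow hu hγ)
    (fun v => by simp only [Matrix.toLin'_apply, Matrix.mulVec_mulVec, hγ, Matrix.smul_mulVec])
    (by rwa [Module.finrank_fintype_fun_eq_card]) hc
  rwa [Module.finrank_fintype_fun_eq_card] at this

end Cfsg.Agent.H3.ExNorm
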