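import Mathlib
import Cfsg.Agent.H3.ExtBasic

/-!
Overgroups of the stabiliser of a tensor decomposition with factors of different dimensions in
the special linear group. The tensor product is modelled as a space of linear maps.
-/

set_option autoImplicit false
set_option linter.unusedSectionVars false

namespace Cfsg.Agent.H3.Ten

open Module Cfsg.Agent.H7 Cfsg.Agent.H3.Ext

section General

variable {F V : Type*} [Field F] [AddCommGroup V] [Module F V] [FiniteDimensional F V]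

theorem finrank_map_mkQ (A A' : Submodule F V) :
    finrank F (A'.map A.mkQ) + finrank F ↥(A ⊓ A') = finrank F A' := by
  have h := LinearMap.finrank_range_add_finrank_ker (A.mkQ.domRestrict A')
  rw [LinearMap.range_domRestrict, LinearMap.ker_domRestrict, Submodule.ker_mkQ,
    ← Submodule.finrank_map_subtype_eq A' (A.comap A'.subtype), Submodule.map_comap_subtype,
    inf_comm] at h
  exact h

theorem finrank_le_comap {M : Type*} [AddCommGroup M] [Module F M] [FiniteDimensional F M]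
    (L : M →ₗ[F] V) (A A' : Submodule F V) (hL : ∀ x, L x ∈ A ⊔ A') :
    finrank F M + finrank F ↥(A ⊓ A') ≤ finrank F (A.comap L) + finrank F A' := by
  have h1 := LinearMap.finrank_range_add_finrank_ker (A.mkQ ∘ₗ L)
  rw [LinearMap.ker_comp, Submodule.ker_mkQ] at h1
  have h2 : LinearMap.range (A.mkQ ∘ₗ L) ≤ A'.map A.mkQ := by
    rintro _ ⟨x, rfl⟩
    obtain ⟨a, ha, b, hb, e⟩ := Submodule.mem_sup.mp (hL x)
    refine ⟨b, hb, ?_⟩
    simp [← e, (Submodule.Quotient.mk_eq_zero A).mpr ha]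
  have h3 := Submodule.finrank_mono h2
  have h4 := finrank_map_mkQ A A'
  omega

theorem finrank_inf_map_inv (A : Submodule F V) (g : V ≃ₗ[F] V) :
    finrank F ↥(A ⊓ A.map ((g⁻¹ : V ≃ₗ[F] V) : V →ₗ[F] V)) =
      finrank F ↥(A ⊓ A.map (g : V →ₗ[F] V)) := by
  have : A.map ((g : V →ₗ[F] V) ∘ₗ ((g⁻¹ : V ≃ₗ[F] V) : V →ₗ[F] V)) = A := by
    rw [show (g : V →ₗ[F] V) ∘ₗ ((g⁻¹ : V ≃ₗ[F] V) : V →ₗ[F] V) = LinearMap.id from
      LinearMap.ext fun x => g.apply_symm_apply x, Submodule.map_id]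
  rw [← LinearEquiv.finrank_map_eq g, Submodule.map_inf _ g.injective, ← Submodule.map_comp,
    inf_comm, this]

theorem increase {X : Subgroup (V ≃ₗ[F] V)} {A : Submodule F V} {g t : V ≃ₗ[F] V} (hg : g ∈ X)
    (ht : t ∈ X) (hD : ∀ d ∈ A, d ∈ A.map (g : V →ₗ[F] V) → t d ∈ A)
    (hD' : ∀ d ∈ A, d ∈ A.map (g : V →ₗ[F] V) → t d ∈ A.map (g : V →ₗ[F] V)) {s s' : V}
    (hs : s ∈ A.map (g : V →ₗ[F] V)) (hsA : t s ∉ A) (hts : t s ∈ A.map (g : V →ₗ[F] V))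
    (hs' : s' ∈ A.map (g : V →ₗ[F] V)) (hts' : t s' ∉ A.map (g : V →ₗ[F] V)) :
    ∃ g' ∈ X, A.map (g' : V →ₗ[F] V) ≠ A ∧
      finrank F ↥(A ⊓ A.map (g : V →ₗ[F] V)) < finrank F ↥(A ⊓ A.map (g' : V →ₗ[F] V)) := by
  set A' := A.map (g : V →ₗ[F] V) with hA'
  have hmem : ∀ x, x ∈ A.map ((g⁻¹ * t * g : V ≃ₗ[F] V) : V →ₗ[F] V) ↔ ∃ y ∈ A', g x = t y := by
    intro x
    constructor
    · rintro ⟨y, hy, rfl⟩
      exact ⟨g y, ⟨y, hy, rfl⟩, g.apply_symm_apply _⟩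
    · rintro ⟨_, ⟨y, hy, rfl⟩, h⟩
      exact ⟨y, hy, g.symm_apply_eq.mpr h.symm⟩
  have hmemA : ∀ x, x ∈ A ↔ g x ∈ A' := fun x => by simp [hA']
  refine ⟨g⁻¹ * t * g, X.mul_mem (X.mul_mem (X.inv_mem hg) ht) hg, fun e => hts' ?_, ?_⟩
  · have h3 : g.symm (t s') ∈ A := e ▸ (hmem _).mpr ⟨s', hs', g.apply_symm_apply _⟩
    rwa [hmemA, g.apply_symm_apply] at h3
  · have h3 : t s ∉ (A ⊓ A').map (t : V →ₗ[F] V) := by
      rintro ⟨d, hd, e⟩
      exact hsA (e ▸ hD d hd.1 hd.2)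
    have h4 := Submodule.finrank_sup_span_singleton h3
    rw [← LinearEquiv.finrank_map_eq g.symm, LinearEquiv.finrank_map_eq t] at h4
    refine lt_of_lt_of_le (Nat.lt_succ_self _) (h4.ge.trans (Submodule.finrank_mono ?_))
    rintro _ ⟨x, hx, rfl⟩
    obtain ⟨_, ⟨d, hd, rfl⟩, c, rfl⟩ := mem_sup_span_singleton.mp hx
    refine ⟨(hmemA _).mpr ?_, (hmem _).mpr ⟨d + c • s, A'.add_mem hd.2 (A'.smul_mem c hs), ?_⟩⟩
    · rw [LinearEquiv.coe_coe, g.apply_symm_apply]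
      exact A'.add_mem (hD' d hd.1 hd.2) (A'.smul_mem c hts)
    · rw [LinearEquiv.coe_coe, g.apply_symm_apply, map_add, map_smul]; rfl

theorem exists_max {X : Subgroup (V ≃ₗ[F] V)} {A : Submodule F V} {g₀ : V ≃ₗ[F] V} (hg₀ : g₀ ∈ X)
    (h0 : A.map (g₀ : V →ₗ[F] V) ≠ A) :
    ∃ g ∈ X, A.map (g : V →ₗ[F] V) ≠ A ∧ ∀ g' ∈ X, A.map (g' : V →ₗ[F] V) ≠ A →
      finrank F ↥(A ⊓ A.map (g' : V →ₗ[F] V)) ≤ finrank F ↥(A ⊓ A.map (g : V →ₗ[F] V)) := by
  have hb : BddAbove {n | ∃ g ∈ X, A.map (g : V →ₗ[F] V) ≠ A ∧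
      finrank F ↥(A ⊓ A.map (g : V →ₗ[F] V)) = n} :=
    ⟨finrank F V, by rintro _ ⟨g, -, -, rfl⟩; exact Submodule.finrank_le _⟩
  obtain ⟨g, hg, h1, h2⟩ := Nat.sSup_mem (s := {n | ∃ g ∈ X, A.map (g : V →ₗ[F] V) ≠ A ∧
      finrank F ↥(A ⊓ A.map (g : V →ₗ[F] V)) = n}) ⟨_, g₀, hg₀, h0, rfl⟩ hb
  exact ⟨g, hg, h1, fun g' hg' h => h2 ▸ le_csSup hb ⟨g', hg', h, rfl⟩⟩

theorem exists_vec_one {U : Submodule F (Dual F V)} {w : Dual F V} (hw : w ∉ U) :
    ∃ φ : V, w φ = 1 ∧ ∀ u ∈ U, u φ = 0 := by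
  obtain ⟨Φ, h1, h2⟩ := exists_dual_one hw
  obtain ⟨φ, rfl⟩ := (Module.evalEquiv F V).surjective Φ
  exact ⟨φ, h1, h2⟩

theorem exists_vec_one' {w w' : Dual F V} (hw : w' ∉ F ∙ w) : ∃ φ : V, w' φ = 1 ∧ w φ = 0 := by
  obtain ⟨φ, h1, h2⟩ := exists_vec_one hw
  exact ⟨φ, h1, h2 w (Submodule.mem_span_singleton_self w)⟩

theorem exists_dual_one₂ {u u' : V} (hw : u' ∉ F ∙ u) : ∃ φ : Dual F V, φ u' = 1 ∧ φ u = 0 := by
  obtain ⟨φ, h1, h2⟩ := exists_dual_one hw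
  exact ⟨φ, h1, h2 u (Submodule.mem_span_singleton_self u)⟩

theorem exists_notMem_span (h : 2 ≤ finrank F V) (u : V) : ∃ u', u' ∉ F ∙ u := by
  obtain ⟨w, -, hw⟩ := exists_notMem_of_finrank_lt (U := F ∙ u) (W := ⊤) (by
    have := finrank_span_singleton_le (F := F) u
    rw [finrank_top]; omega)
  exact ⟨w, hw⟩

theorem notMem_span_symm {u u' : V} (hu : u ≠ 0) (h : u' ∉ F ∙ u) : u ∉ F ∙ u' := by
  simpa using notMem_sup_span_swap (F := F) (U := ⊥) (v := u) (z := u') (by simpa using hu)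
    (by simpa using h)

theorem mem_span_of_ker {w w' : Dual F V} (h : ∀ x, w x = 0 → w' x = 0) : w' ∈ F ∙ w := by
  by_contra hw
  obtain ⟨φ, h1, h2⟩ := exists_vec_one' hw
  exact one_ne_zero (h1.symm.trans (h φ h2))

theorem exists_not_eigen {z : V →ₗ[F] V} (hz : ∀ c : F, z ≠ c • LinearMap.id) :
    ∃ u, z u ∉ F ∙ u := by
  by_contra h
  push Not at h
  rcases subsingleton_or_nontrivial V with hV | hV
  · exact hz 0 (Subsingleton.elim _ _)
  obtain ⟨v, hv⟩ := exists_ne (0 : V)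
  obtain ⟨c, hc⟩ := Submodule.mem_span_singleton.mp (h v)
  refine hz c (LinearMap.ext fun x => ?_)
  change z x = c • x
  by_cases hx : x ∈ F ∙ v
  · obtain ⟨d, rfl⟩ := Submodule.mem_span_singleton.mp hx
    rw [map_smul, ← hc, smul_comm]
  · obtain ⟨c1, h1⟩ := Submodule.mem_span_singleton.mp (h x)
    obtain ⟨c2, h2⟩ := Submodule.mem_span_singleton.mp (h (x + v))
    rw [map_add, ← h1, ← hc] at h2
    obtain ⟨φ, h3, h4⟩ := exists_dual_one₂ hx
    have h5 := congrArg φ h2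
    simp [h3, h4] at h5
    subst h5
    rw [smul_add, add_right_inj] at h2
    rw [← h1, smul_left_injective F hv h2]

end General

variable {F U P : Type*} [Field F] [AddCommGroup U] [Module F U] [AddCommGroup P] [Module F P]
  [FiniteDimensional F U] [FiniteDimensional F P]

/-- The pure tensors with a given second factor. -/
def St (U : Type*) [AddCommGroup U] [Module F U] (w : Dual F P) : Submodule F (P →ₗ[F] U) :=
  LinearMap.range (LinearMap.smulRightₗ w)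

theorem mem_St {w : Dual F P} {x : P →ₗ[F] U} : x ∈ St U w ↔ ∃ u, w.smulRight u = x := Iff.rfl

theorem smulRight_mem_St (w : Dual F P) (u : U) : w.smulRight u ∈ St U w := ⟨u, rfl⟩

theorem smulRight_inj {w : Dual F P} (hw : w ≠ 0) {u u' : U} (h : w.smulRight u = w.smulRight u') :
    u = u' := by
  obtain ⟨x, hx⟩ := DFunLike.ne_iff.mp hw
  exact smul_right_injective U hx (DFunLike.congr_fun h x)

theorem finrank_St {w : Dual F P} (hw : w ≠ 0) : finrank F (St U w) = finrank F U :=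
  LinearMap.finrank_range_of_inj fun _ _ h => smulRight_inj hw h

theorem mem_St_of_ker {w : Dual F P} (hw : w ≠ 0) {x : P →ₗ[F] U} (h : ∀ φ, w φ = 0 → x φ = 0) :
    x ∈ St U w := by
  obtain ⟨φ₀, h0, -⟩ := exists_vec_one' (w := 0) (w' := w) (by simpa using hw)
  refine ⟨x φ₀, LinearMap.ext fun φ => ?_⟩
  have := h (φ - w φ • φ₀) (by simp [h0])
  rw [map_sub, map_smul, sub_eq_zero] at this
  exact this.symm

theorem tensor_induction {p : (P →ₗ[F] U) → Prop} (h0 : p 0) (hadd : ∀ x y, p x → p y → p (x + y))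
    (h : ∀ (w : Dual F P) (u : U), p (w.smulRight u)) (x : P →ₗ[F] U) : p x := by
  let b := Module.finBasis F P
  have : x = ∑ i, (b.coord i).smulRight (x (b i)) := by
    refine b.ext fun j => ?_
    simp [Finsupp.single_apply]
  rw [this]
  exact Finset.sum_induction _ p hadd h0 fun i _ => h _ _

/-- The functional `x ↦ ψ (x φ)`. -/
def pf (ψ : Dual F U) (φ : P) : Dual F (P →ₗ[F] U) := ψ ∘ₗ LinearMap.applyₗ φ

@[simp] theorem pf_apply (ψ : Dual F U) (φ : P) (x : P →ₗ[F] U) : pf ψ φ x = ψ (x φ) := rfl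

theorem dual_induction {p : Dual F (P →ₗ[F] U) → Prop} (h0 : p 0)
    (hadd : ∀ x y, p x → p y → p (x + y)) (h : ∀ (ψ : Dual F U) (φ : P), p (pf ψ φ))
    (Θ : Dual F (P →ₗ[F] U)) : p Θ := by
  let b := Module.finBasis F P
  have : Θ = ∑ i, pf (Θ ∘ₗ LinearMap.smulRightₗ (b.coord i)) (b i) := by
    ext x
    have : x = ∑ i, (b.coord i).smulRight (x (b i)) := by
      refine b.ext fun j => ?_
      simp [Finsupp.single_apply]
    conv_lhs => rw [this]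
    simp
  rw [this]
  exact Finset.sum_induction _ p hadd h0 fun i _ => h _ _

/-- The map `x ↦ w ⊗ z (x φ)`. -/
def yz (w : Dual F P) (z : U →ₗ[F] U) (φ : P) : (P →ₗ[F] U) →ₗ[F] (P →ₗ[F] U) :=
  LinearMap.smulRightₗ w ∘ₗ z ∘ₗ LinearMap.applyₗ φ

@[simp] theorem yz_apply (w : Dual F P) (z : U →ₗ[F] U) (φ : P) (x : P →ₗ[F] U) :
    yz w z φ x = w.smulRight (z (x φ)) := rfl

variable {X : Subgroup ((P →ₗ[F] U) ≃ₗ[F] (P →ₗ[F] U))}

theorem tv_congr {φ φ' : Dual F (P →ₗ[F] U)} {v : P →ₗ[F] U} (h : TV X φ v) (e : ∀ x, φ x = φ' x) :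
    TV X φ' v := LinearMap.ext e ▸ h

theorem _root_.Cfsg.Agent.H3.Ext.Yq.congr {A : Submodule F (P →ₗ[F] U)}
    {y y' : (P →ₗ[F] U) →ₗ[F] (P →ₗ[F] U)} (h : Yq X A y) (e : ∀ x, y x = y' x) : Yq X A y' :=
  LinearMap.ext e ▸ h

/-- All the transvections with pure centre `w ⊗ u` and pure axis vanishing on both factors. -/
def Good (X : Subgroup ((P →ₗ[F] U) ≃ₗ[F] (P →ₗ[F] U))) (w : Dual F P) (u : U) : Prop :=
  ∀ (ψ : Dual F U) (φ : P), ψ u = 0 → w φ = 0 → TV X (pf ψ φ) (w.smulRight u)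

section

variable (hk : ∀ (w : Dual F P) (φ : P), w φ = 0 → Has X fun x => x + w.smulRight (x φ))
  (hh : ∀ (ψ : Dual F U) (u : U), ψ u = 0 → Has X fun x => x + (ψ ∘ₗ x).smulRight u)

include hk in
theorem Good.left {w w' : Dual F P} {u : U} (h : Good X w u) (hw : w ≠ 0) (hw' : w' ∉ F ∙ w) :
    Good X w' u := by
  intro ψ φ h1 h2
  obtain ⟨φ₁, a1, a2⟩ := exists_vec_one' hw'
  obtain ⟨φ₂, a3, a4⟩ := exists_vec_one' (notMem_span_symm hw hw')
  obtain ⟨t, ht, ht'⟩ := hk (w' - w) (φ₁ + φ₂) (by simp [a1, a2, a3, a4])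
  have := (h ψ (φ - w φ • (φ₁ + φ₂)) h1 (by simp [a2, a3])).conj ht (ψ := pf ψ φ) fun x => by
    simp [ht', h2, sub_eq_add_neg]; ring
  convert this using 1
  rw [ht']
  ext x
  simp [a2, a3, sub_smul]

include hh in
theorem Good.right {w : Dual F P} {u u' : U} (h : Good X w u) (hu : u ≠ 0) (hu' : u' ∉ F ∙ u) :
    Good X w u' := by
  intro ψ φ h1 h2
  obtain ⟨φ₁, a1, a2⟩ := exists_dual_one₂ hu'
  obtain ⟨φ₂, a3, a4⟩ := exists_dual_one₂ (notMem_span_symm hu hu')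
  obtain ⟨t, ht, ht'⟩ := hh (φ₁ + φ₂) (u' - u) (by simp [a1, a2, a3, a4])
  have := (h (ψ - ψ u • (φ₁ + φ₂)) φ (by simp [a2, a3]) h2).conj ht (ψ := pf ψ φ) fun x => by
    simp [ht', h1]; ring
  convert this using 1
  rw [ht']
  ext x
  simp [a2, a3, smul_sub]

include hk hh in
theorem SLV_le_of_good (ha : 2 ≤ finrank F U) (hb : 3 ≤ finrank F P) {w₀ : Dual F P} {u₀ : U}
    (h : Good X w₀ u₀) (hw₀ : w₀ ≠ 0) (hu₀ : u₀ ≠ 0) : SLV F (P →ₗ[F] U) ≤ X := by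
  have hne : ∀ {M : Type _} [AddCommGroup M] [Module F M] {a b : M}, a ∉ F ∙ b → a ≠ 0 :=
    fun h e => h (e ▸ Submodule.zero_mem _)
  have h1 : ∀ (w : Dual F P) (u : U), w ≠ 0 → u ≠ 0 → Good X w u := by
    intro w u hw hu
    have h2 : Good X w u₀ := by
      by_cases h3 : w ∈ F ∙ w₀
      · obtain ⟨w₁, hw₁⟩ := exists_notMem_span (F := F) (V := Dual F P)
          (by rw [Subspace.dual_finrank_eq]; omega) w₀
        refine (h.left hk hw₀ hw₁).left hk (hne hw₁) (notMem_span_symm hw fun h4 => hw₁ ?_)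
        exact (Submodule.span_singleton_le_iff_mem _ _).mpr h3 h4
      · exact h.left hk hw₀ h3
    by_cases h3 : u ∈ F ∙ u₀
    · obtain ⟨u₁, hu₁⟩ := exists_notMem_span ha u₀
      refine (h2.right hh hu₀ hu₁).right hh (fun e => hu₁ (e ▸ Submodule.zero_mem _))
        (notMem_span_symm hu fun h4 => hu₁ ?_)
      exact (Submodule.span_singleton_le_iff_mem _ _).mpr h3 h4
    · exact h2.right hh hu₀ h3
  have key : ∀ (w w₂ : Dual F P) (u u₂ : U) (Θ : Dual F (P →ₗ[F] U)), w ≠ 0 → u ≠ 0 →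
      w₂ ∉ F ∙ w → u₂ ∉ F ∙ u → TV X Θ (w₂.smulRight u₂) → Θ (w₂.smulRight u₂) = 0 →
      Θ (w.smulRight u) = 0 → TV X Θ (w.smulRight u) := by
    intro w w₂ u u₂ Θ hw hu hw₂ hu₂ h3 h4 h5
    obtain ⟨φ₁, a1, a2⟩ := exists_vec_one' hw₂
    obtain ⟨ψ₁, a3, a4⟩ := exists_dual_one₂ hu₂
    simpa [a1, a3] using (h1 w u hw hu ψ₁ φ₁ a4 a2).comm h3 (by simp [a2]) h4 h5
  have h2 : ∀ (w : Dual F P) (u : U) (ψ : Dual F U) (φ : P), w ≠ 0 → u ≠ 0 → w φ = 0 →
      TV X (pf ψ φ) (w.smulRight u) := by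
    intro w u ψ φ hw hu hφ
    by_cases hψ : ψ u = 0
    · exact h1 w u hw hu ψ φ hψ hφ
    obtain ⟨u₂, hu₂, hu₂0⟩ := exists_notMem_of_finrank_lt (U := ⊥) (W := ⊤ ⊓ LinearMap.ker ψ) (by
      have := finrank_inf_ker_ge ⊤ ψ
      rw [finrank_top] at this
      rw [finrank_bot]; omega)
    obtain ⟨w₂, hw₂, hw₂0⟩ := exists_notMem_of_finrank_lt (U := F ∙ w)
      (W := ⊤ ⊓ LinearMap.ker (Dual.eval F P φ)) (by
        have := finrank_inf_ker_ge ⊤ (Dual.eval F P φ)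
        rw [finrank_top, Subspace.dual_finrank_eq] at this
        have := finrank_span_singleton_le (F := F) w
        omega)
    have a1 : ψ u₂ = 0 := hu₂.2
    have a2 : w₂ φ = 0 := hw₂.2
    refine key w w₂ u u₂ _ hw hu hw₂0 (fun h => ?_)
      (h1 w₂ u₂ (hne hw₂0) (by simpa using hu₂0) ψ φ a1 a2) (by simp [a1]) (by simp [hφ])
    obtain ⟨c, rfl⟩ := Submodule.mem_span_singleton.mp h
    simp [hψ] at a1
    simp [a1] at hu₂0
  have h3 : ∀ (w : Dual F P) (u : U) (ψ : Dual F U) (φ : P), w ≠ 0 → u ≠ 0 → ψ u = 0 →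
      TV X (pf ψ φ) (w.smulRight u) := by
    intro w u ψ φ hw hu hψ
    by_cases hφ : w φ = 0
    · exact h1 w u hw hu ψ φ hψ hφ
    obtain ⟨u₂, hu₂⟩ := exists_notMem_span ha u
    obtain ⟨w₂, hw₂, hw₂0⟩ := exists_notMem_of_finrank_lt (U := ⊥)
      (W := ⊤ ⊓ LinearMap.ker (Dual.eval F P φ)) (by
        have := finrank_inf_ker_ge ⊤ (Dual.eval F P φ)
        rw [finrank_top, Subspace.dual_finrank_eq] at this
        rw [finrank_bot]; omega)
    have a2 : w₂ φ = 0 := hw₂.2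
    refine key w w₂ u u₂ _ hw hu (fun h => ?_) hu₂
      (h2 w₂ u₂ ψ φ (by simpa using hw₂0) (fun e => hu₂ (e ▸ Submodule.zero_mem _)) a2)
      (by simp [a2]) (by simp [hψ])
    obtain ⟨c, rfl⟩ := Submodule.mem_span_singleton.mp h
    simp [hφ] at a2
    simp [a2] at hw₂0
  refine SLV_le_of_fullSub (eq_top_iff.mpr fun x _ => ?_)
  refine tensor_induction (p := fun x => x ∈ fullSub X) (Submodule.zero_mem _)
    (fun _ _ => Submodule.add_mem _) (fun w u => ?_) x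
  by_cases hw : w = 0
  · simp [hw]
  by_cases hu : u = 0
  · simp [hu]
  obtain ⟨φ₀, a1, -⟩ := exists_vec_one' (w := 0) (w' := w) (by simpa using hw)
  obtain ⟨ψ₀, a2⟩ := exists_dual_one' (F := F) hu
  intro Θ hΘ
  have := dual_induction (p := fun Θ => TV X (Θ - Θ (w.smulRight u) • pf ψ₀ φ₀) (w.smulRight u))
    (tv_congr (TV.zero_left _) fun x => by simp)
    (fun a b ha hb => tv_congr (ha.add_left hb (by simp [a1, a2])) fun x => by simp; ring)
    (fun ψ φ => tv_congr ((h2 w u ψ (φ - w φ • φ₀) hw hu (by simp [a1])).add_left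
      (h3 w u (w φ • (ψ - ψ u • ψ₀)) φ₀ hw hu (by simp [a2])) (by simp [a1])) fun x => by
        simp; ring) Θ
  simpa [hΘ] using this

end

end Cfsg.Agent.H3.Ten
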