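import Mathlib
import Cfsg.Agent.H3.ExtSL
import Cfsg.Agent.H3.TensorSL

/-!
Overgroups of the extension-field subgroups of the symplectic group.
-/

set_option autoImplicit false
set_option linter.unusedSectionVars false

namespace Cfsg.Agent.H3.Ext

open Module Cfsg.Agent.H7

theorem _root_.Cfsg.Agent.H3.Ten.ne_zero_of_notMem' {F M : Type*} [Field F] [AddCommGroup M]
    [Module F M] {a b : M} (h : a ∉ F ∙ b) : a ≠ 0 := fun e => h (e ▸ Submodule.zero_mem _)

section Alt

variable {F V : Type*} [Field F] [AddCommGroup V] [Module F V] {X : Subgroup (V ≃ₗ[F] V)}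
  {B : V →ₗ[F] V →ₗ[F] F}

variable (B) in
/-- The isometry group of a bilinear form. -/
def IsoB : Subgroup (V ≃ₗ[F] V) where
  carrier := {g | ∀ x y, B (g x) (g y) = B x y}
  mul_mem' {a b} ha hb x y := by rw [LinearEquiv.mul_apply, LinearEquiv.mul_apply, ha, hb]
  one_mem' _ _ := rfl
  inv_mem' {a} ha x y := by
    rw [← ha]
    congr 2 <;> exact a.apply_symm_apply _

variable (X B) in
/-- The subgroup contains a given Eichler transformation of the symplectic space. -/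
def El (u w : V) (c : F) : Prop := Has X fun x => x + B x u • w + B x w • u + (c * B x u) • u

theorem El.congr {u w w' : V} {c c' : F} (h : El X B u w c) (h1 : w = w') (h2 : c = c') :
    El X B u w' c' := h1 ▸ h2 ▸ h

theorem El.conj {u w : V} {c : F} (h : El X B u w c) {g : V ≃ₗ[F] V} (hg : g ∈ X)
    (hI : g ∈ IsoB B) : El X B (g u) (g w) c :=
  Has.conj h hg fun x => by simp only [hI x, map_add, map_smul]

theorem El.smul {u w : V} {c t : F} (h : El X B (t • u) w c) : El X B u (t • w) (t * t * c) :=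
  Has.congr h fun x => by simp only [map_smul, smul_eq_mul]; module

variable (hB : ∀ x, B x x = 0)
include hB

theorem skew (x y : V) : B x y = -B y x := by
  have := hB (x + y)
  simp only [map_add, LinearMap.add_apply, hB] at this
  linear_combination this

theorem El.add {u w w' : V} {c c' : F} (h : El X B u w c) (h' : El X B u w' c') (hw : B w u = 0)
    (hw' : B w' u = 0) : El X B u (w + w') (c + c' + B w' w) :=
  (Has.comp h h').congr fun x => by
    simp only [map_add, map_smul, LinearMap.add_apply, LinearMap.smul_apply, smul_eq_mul, hB, hw',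
      skew hB u w, hw]
    module

theorem El.neg {u w : V} {c : F} (h : El X B u w c) (hw : B w u = 0) : El X B u (-w) (-c) :=
  Has.inv h fun x => by
    simp only [map_add, map_smul, map_neg, LinearMap.add_apply, LinearMap.smul_apply, smul_eq_mul,
      hB, skew hB u w, hw, LinearMap.neg_apply]
    module

theorem El.sub {u w : V} {c c' : F} (h : El X B u w c) (h' : El X B u w c') (hw : B w u = 0) :
    El X B u 0 (c - c') :=
  (h.add hB (h'.neg hB hw) hw (by simp [hw])).congr (by simp) (by simp [hB]; ring)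

theorem has_tv (u : V) (c : F) : Has (IsoB B) fun x => x + (c * B x u) • u :=
  ⟨LinearEquiv.transvection (f := c • B.flip u) (v := u) (by simp [hB]), fun x y => by
    simp only [LinearEquiv.transvection.coe_apply, LinearMap.transvection.apply, map_add, map_smul,
      LinearMap.add_apply, LinearMap.smul_apply, LinearMap.flip_apply, smul_eq_mul, hB,
      skew hB u y]
    ring, fun _ => rfl⟩

theorem has_eich {u w : V} (h : B w u = 0) : Has (IsoB B) fun x => x + B x u • w + B x w • u :=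
  ((has_tv hB (u + w) 1).comp ((has_tv hB u (-1)).comp (has_tv hB w (-1)))).congr fun x => by
    simp only [map_add, map_smul, LinearMap.add_apply, LinearMap.smul_apply, smul_eq_mul, hB, h,
      skew hB u w]
    module

theorem exists_move_ne {a b : V} (h : B a b ≠ 0) :
    ∃ t ∈ IsoB B, t a = b ∧ ∀ z, B z a = 0 → B z b = 0 → t z = z := by
  obtain ⟨t, ht, ht'⟩ := has_tv hB (b - a) (B a b)⁻¹
  exact ⟨t, ht, by simp [ht', hB, h], fun z h1 h2 => by simp [ht', h1, h2]⟩

variable [FiniteDimensional F V] (hnd : ∀ y, (∀ x, B x y = 0) → y = 0)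
include hnd

omit hB in
theorem exists_eq_flip (ψ : Dual F V) : ∃ u, ∀ x, B x u = ψ x := by
  obtain ⟨u, hu⟩ := (LinearMap.injective_iff_surjective_of_finrank_eq_finrank (f := B.flip)
    Subspace.dual_finrank_eq.symm).mp ((injective_iff_map_eq_zero _).mpr fun y h =>
      hnd y fun x => DFunLike.congr_fun h x) ψ
  exact ⟨u, fun x => DFunLike.congr_fun hu x⟩

theorem exists_move_fix {v a b : V} (ha : a ∉ F ∙ v) (hb : b ∉ F ∙ v) (ha' : B v a = 0)
    (hb' : B v b = 0) : ∃ t ∈ IsoB B, t a = b ∧ t v = v := by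
  have h1 : ∀ a : V, a ∉ F ∙ v → ∃ w ∈ LinearMap.ker (B v), B a w ≠ 0 := fun a ha => by
    obtain ⟨ψ, h1, h2⟩ := Ten.exists_dual_one₂ ha
    obtain ⟨u, hu⟩ := exists_eq_flip hnd ψ
    exact ⟨u, by simp [hu, h2], by simp [hu, h1]⟩
  obtain ⟨w₁, h2, h3⟩ := h1 a ha
  obtain ⟨w₂, h4, h5⟩ := h1 b hb
  obtain ⟨w, h6, h7, h8⟩ := exists_both_ne _ (B a).toAddMonoidHom (B b).toAddMonoidHom h2 h4 h3 h5
  obtain ⟨t, ht, h9, h10⟩ := exists_move_ne hB (a := a) (b := w) h7
  obtain ⟨t', ht', h11, h12⟩ := exists_move_ne hB (a := w) (b := b)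
    (by rw [skew hB, neg_ne_zero]; exact h8)
  exact ⟨t' * t, Subgroup.mul_mem _ ht' ht, by rw [LinearEquiv.mul_apply, h9, h11],
    by rw [LinearEquiv.mul_apply, h10 v ha' h6, h12 v h6 hb']⟩

theorem exists_move {a b : V} (ha : a ≠ 0) (hb : b ≠ 0) : ∃ t ∈ IsoB B, t a = b := by
  obtain ⟨t, ht, h, -⟩ := exists_move_fix hB hnd (v := 0) (a := a) (b := b) (by simpa using ha)
    (by simpa using hb) (by simp) (by simp)
  exact ⟨t, ht, h⟩

omit hB hnd [FiniteDimensional F V]

variable (X B) in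
/-- A totally isotropic subspace with a regular group of root elements. -/
structure Reg (A : Submodule F V) : Prop where
  ti : ∀ a ∈ A, ∀ b ∈ A, B a b = 0
  ex : ∀ s, ∀ a ∈ A, B s a ≠ 0 → ∀ b ∈ A, ∃ y : V →ₗ[F] V, Has X (fun x => x + y x) ∧
    (∀ x, y x ∈ A) ∧ (∀ x x', B (y x) x' = B (y x') x) ∧ y s = b

theorem Reg.map {A : Submodule F V} (h : Reg X B A) {g : V ≃ₗ[F] V} (hg : g ∈ X)
    (hI : g ∈ IsoB B) : Reg X B (A.map g.toLinearMap) := by
  refine ⟨?_, ?_⟩
  · rintro _ ⟨a, ha, rfl⟩ _ ⟨b, hb, rfl⟩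
    exact (hI a b).trans (h.ti a ha b hb)
  rintro s _ ⟨a, ha, rfl⟩ hs _ ⟨b, hb, rfl⟩
  obtain ⟨s, rfl⟩ := g.surjective s
  obtain ⟨y, h1, h2, h3, h4⟩ := h.ex s a ha (hI s a ▸ hs) b hb
  refine ⟨g.toLinearMap ∘ₗ y ∘ₗ g.symm.toLinearMap, h1.conj hg fun x => by simp,
    fun x => ⟨_, h2 _, rfl⟩, fun x x' => ?_, by simp [h4]⟩
  obtain ⟨x, rfl⟩ := g.surjective x
  obtain ⟨x', rfl⟩ := g.surjective x'
  simp [hI _, h3 x]

include hB hnd

variable [FiniteDimensional F V]

theorem el_of_not_perp {A A' : Submodule F V} (hA : Reg X B A) (hA' : Reg X B A')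
    (hd : finrank F ↥(A ⊓ A') + 1 = finrank F A) (hd' : finrank F ↥(A ⊓ A') + 1 = finrank F A')
    {a a' : V} (ha : a ∈ A) (ha' : a' ∈ A') (h1 : B a a' = 1) {e c : V} (he : e ∈ A ⊓ A')
    (hc : c ∈ A') : El X B e c (B a c) := by
  obtain ⟨y, y1, y2, y3, y4⟩ := hA.ex a' a ha (by rw [skew hB, h1]; simp) e he.1
  obtain ⟨z, z1, z2, z3, z4⟩ := hA'.ex a a' ha' (by simp [h1]) c hc
  have y0 : ∀ b ∈ A, y b = 0 := fun b hb => hnd _ fun x => by
    rw [skew hB, y3, hA.ti _ (y2 x) b hb, neg_zero]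
  have z0 : ∀ b ∈ A', z b = 0 := fun b hb => hnd _ fun x => by
    rw [skew hB, z3, hA'.ti _ (z2 x) b hb, neg_zero]
  have y5 : ∀ b ∈ A', y b = B a b • e := fun b hb => by
    obtain ⟨d, hd, t, rfl⟩ := decomp_of_codim_one (inf_le_right : A ⊓ A' ≤ A') hd' ha'
      (fun h => by simp [hA.ti a ha a' h.1] at h1) hb
    simp [y0 d hd.1, y4, hA.ti a ha d hd.1, h1]
  have z5 : ∀ b ∈ A, z b = B b a' • c := fun b hb => by
    obtain ⟨d, hd, t, rfl⟩ := decomp_of_codim_one (inf_le_left : A ⊓ A' ≤ A) hd ha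
      (fun h => by simp [hA'.ti a h.2 a' ha'] at h1) hb
    simp [z0 d hd.2, z4, hA'.ti d hd.2 a' ha', h1]
  have i1 : Has X fun x => x - y x := y1.inv fun x => by simp [y0 _ (y2 x)]
  have i2 : Has X fun x => x - z x := z1.inv fun x => by simp [z0 _ (z2 x)]
  refine (y1.comp (z1.comp (i1.comp i2))).congr fun x => ?_
  have e1 : y (z x) = B x c • e := by rw [y5 _ (z2 x), skew hB, z3, z4, ← skew hB]
  have e2 : z (y x) = -B x e • c := by rw [z5 _ (y2 x), y3, y4, skew hB]
  simp only [map_add, map_sub, y0 _ (y2 _), z0 _ (z2 _), e1, e2, map_smul, y5 c hc, z0 e he.2,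
    y0 e he.1, map_zero]
  module

theorem el_of_perp {A' : Submodule F V} (hA' : Reg X B A') {D : Submodule F V} (hD : D ≤ A')
    (hd' : finrank F D + 1 = finrank F A') {a' b : V} (ha' : a' ∈ A') (haD : a' ∉ D)
    (hb : ∀ x ∈ A', B x b = 0) {t : V ≃ₗ[F] V} (ht : t ∈ X) (hI : t ∈ IsoB B)
    (h1 : ∀ d ∈ D, t d = d) (h2 : t a' = a' + b) : El X B b a' 1 := by
  obtain ⟨χ, c1, c2⟩ := exists_dual_one haD
  obtain ⟨s, hs⟩ := exists_eq_flip hnd (-χ)
  replace hs : ∀ x, B s x = χ x := fun x => by rw [skew hB, hs]; simp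
  obtain ⟨z, z1, z2, z3, z4⟩ := hA'.ex s a' ha' (by simp [hs, c1]) a' ha'
  have z0 : ∀ b ∈ A', z b = 0 := fun b hb => hnd _ fun x => by
    rw [skew hB, z3, hA'.ti _ (z2 x) b hb, neg_zero]
  have h3 : ∀ x ∈ A', t x = x + χ x • b := fun x hx => by
    obtain ⟨d, hd, c, rfl⟩ := decomp_of_codim_one hD hd' ha' haD hx
    simp only [map_add, map_smul, h1 d hd, h2, c1, c2 d hd, smul_eq_mul]
    module
  have h4 : ∀ x, χ (z x) = B x a' := fun x => by rw [← hs, skew hB, z3, z4, ← skew hB]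
  have h5 : ∀ x, z x = z (t x) + B (t x) b • a' := fun x => by
    rw [← sub_eq_zero]
    refine hnd _ fun w => ?_
    rw [map_sub, skew hB w (z x), z3, ← hI, h3 _ (z2 w), h4]
    simp only [map_add, map_smul, LinearMap.add_apply, LinearMap.smul_apply, smul_eq_mul,
      skew hB w (z (t x)), z3 w, skew hB b (t x)]
    ring
  have h6 : Has X fun x => x + z x + B x b • a' + B x a' • b + B x b • b :=
    z1.conj ht fun x => by
      rw [map_add, h3 _ (z2 x), h4, h5 x, ← hI x a', h2]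
      have := h4 x
      rw [h5 x, map_add, map_smul, c1, h4, ← hI x a', h2] at this
      simp only [map_add] at this ⊢
      module
  refine (h6.comp (z1.inv (T' := fun x => x - z x) fun x => by simp [z0 _ (z2 x)])).congr
    fun x => ?_
  simp only [map_sub, LinearMap.sub_apply, z0 _ (z2 x), hb _ (z2 x), hA'.ti _ (z2 x) a' ha']
  module

/-- All symplectic transvections from one of them and transitivity on non-zero vectors. -/
theorem el_all [Finite F] (htr : ∀ a b : V, a ≠ 0 → b ≠ 0 → ∃ t ∈ X, t ∈ IsoB B ∧ t a = b) {e : V}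
    (he : e ≠ 0) {c : F} (hc : c ≠ 0) (h : El X B e 0 c) (u : V) (d : F) : El X B u 0 d := by
  by_cases hu : u = 0
  · exact Has.id.congr fun x => by simp [hu]
  have h1 : ∀ t : F, El X B u 0 (t * t * c) := fun t => by
    by_cases ht : t = 0
    · exact Has.id.congr fun x => by simp [ht]
    obtain ⟨g, hg, hI, h2⟩ := htr e (t • u) he (smul_ne_zero ht hu)
    exact (El.smul (w := 0) (by simpa [h2] using h.conj hg hI)).congr (smul_zero _) rfl
  by_cases h2 : (2 : F) = 0
  · obtain ⟨t, ht⟩ := FiniteField.isSquare_of_char_two (F := F) (by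
      have := ringChar.dvd (R := F) (x := 2) (by exact_mod_cast h2)
      exact ((Nat.dvd_prime Nat.prime_two).mp this).resolve_left CharP.ringChar_ne_one) (d / c)
    exact (h1 t).congr rfl (by rw [← ht]; field_simp)
  · refine ((h1 ((d / c + 1) / 2)).sub hB (h1 ((d / c - 1) / 2)) (by simp)).congr rfl ?_
    field_simp
    ring

end Alt

variable {F K V : Type*} [Field F] [Field K] [Algebra F K] [AddCommGroup V] [Module F V]
  [Module K V] [IsScalarTower F K V] [Finite K] [FiniteDimensional K V]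
  {X : Subgroup (V ≃ₗ[F] V)} {B : V →ₗ[F] V →ₗ[F] F} {h : V →ₗ[K] V →ₗ[K] K} {θ : K →ₗ[F] F}

theorem exists_scale (hr : (finrank F K).Prime) {v : V} {A' : Submodule F V}
    (h0 : ln F K v ⊓ A' ≠ ⊥) (h1 : ¬ ln F K v ≤ A') {α β : K} (hαβ : β ∉ F ∙ α) :
    ∃ l : K, (l * α) • v ∈ A' ∧ (l * β) • v ∉ A' := by
  obtain ⟨a, ha, haA⟩ := SetLike.not_le_iff_exists.mp h1
  by_cases hα : α = 0
  · obtain ⟨k, rfl⟩ := mem_ln.mp ha
    exact ⟨k / β, by simp [hα], by rwa [div_mul_cancel₀ _ (Ten.ne_zero_of_notMem' hαβ)]⟩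
  have hτ : β / α ∉ (algebraMap F K).range := by
    rintro ⟨c, hc⟩
    exact hαβ (Submodule.mem_span_singleton.mpr ⟨c, by rw [Algebra.smul_def, hc]; field_simp⟩)
  obtain ⟨d, hd, hτd⟩ : ∃ d ∈ ln F K v ⊓ A', (β / α) • d ∉ ln F K v ⊓ A' := by
    by_contra hcon
    push Not at hcon
    obtain ⟨d, hd, hd0⟩ := (Submodule.ne_bot_iff _).mp h0
    obtain ⟨k, rfl⟩ := mem_ln.mp (show a ∈ ln F K d from ln_eq hd.1 hd0 ▸ ha)
    exact haA (smul_mem_of_prime hr hτ hcon k hd).2
  obtain ⟨k, rfl⟩ := mem_ln.mp hd.1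
  refine ⟨k / α, by rw [div_mul_cancel₀ _ hα]; exact hd.2, fun e => hτd ⟨ln_smul_mem hd.1 _, ?_⟩⟩
  rwa [smul_smul, show β / α * k = k / α * β by ring]

section

variable (hh : ∀ x, h x x = 0) (hnd : ∀ y, (∀ x, h x y = 0) → y = 0) (hθ : θ ≠ 0)
  (hB : ∀ x y, B x y = θ (h x y)) (hX : ∀ g ∈ IsoB h, g.restrictScalars F ∈ X)

include hB in
theorem iso_of_K {g : V ≃ₗ[K] V} (hg : g ∈ IsoB h) : g.restrictScalars F ∈ IsoB B :=
  fun x y => by rw [hB, hB, ← hg x y]; rfl

include hX in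
theorem has_of_K {T : V → V} (hT : Has (IsoB h) T) : Has X T := by
  obtain ⟨g, hg, e⟩ := hT
  exact ⟨_, hX g hg, e⟩

include hh hB in
theorem alt_of_K (x : V) : B x x = 0 := by rw [hB, hh, map_zero]

include hθ hB in
theorem exists_B_ne {x y : V} (h0 : h x y ≠ 0) : ∃ k : K, B (k • x) y ≠ 0 := by
  obtain ⟨k, hk⟩ := DFunLike.ne_iff.mp hθ
  exact ⟨k / h x y, by simpa [hB, h0] using hk⟩

include hnd hθ hB in
theorem nd_of_K (y : V) (h0 : ∀ x, B x y = 0) : y = 0 :=
  hnd y fun x => by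
    by_contra h1
    obtain ⟨k, hk⟩ := exists_B_ne hθ hB h1
    exact hk (h0 _)

include hh hB hX in
theorem reg_ln (v : V) : Reg X B (ln F K v) := by
  refine ⟨fun a ha b hb => ?_, fun s a ha hs b hb => ?_⟩
  · obtain ⟨k, rfl⟩ := mem_ln.mp ha
    obtain ⟨k', rfl⟩ := mem_ln.mp hb
    simp [hB, hh]
  obtain ⟨k, rfl⟩ := mem_ln.mp ha
  obtain ⟨k', rfl⟩ := mem_ln.mp hb
  have h0 : h s v ≠ 0 := fun e => hs (by simp [hB, e])
  refine ⟨(((k' / h s v) • h.flip v).smulRight v).restrictScalars F,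
    has_of_K hX (has_tv hh v (k' / h s v)), fun x => smul_mem_ln _ _, fun x x' => ?_, by simp [h0]⟩
  simp only [hB, LinearMap.restrictScalars_apply, LinearMap.smulRight_apply, LinearMap.smul_apply,
    LinearMap.flip_apply, map_smul, smul_eq_mul, skew hh v]
  congr 1; ring

include hh hnd hX in
theorem exists_increase_sp (hr : (finrank F K).Prime) {v : V} (hv : v ≠ 0) {g : V ≃ₗ[F] V}
    (hg : g ∈ X) (h0 : ln F K v ⊓ (ln F K v).map g.toLinearMap ≠ ⊥)
    (hd : finrank F ↥(ln F K v ⊓ (ln F K v).map g.toLinearMap) + 2 ≤ finrank F K) :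
    ∃ g' ∈ X, (ln F K v).map g'.toLinearMap ≠ ln F K v ∧
      finrank F ↥(ln F K v ⊓ (ln F K v).map g.toLinearMap) <
        finrank F ↥(ln F K v ⊓ (ln F K v).map g'.toLinearMap) := by
  have : FiniteDimensional F K := Module.finite_of_finrank_pos hr.pos
  have : FiniteDimensional F V := Module.Finite.trans K V
  have hinc := fun t ht h1 h2 s s' =>
    Ten.increase (A := ln F K v) (t := t) hg ht h1 h2 (s := s) (s' := s')
  have hA : finrank F (ln F K v) = finrank F K := finrank_ln hv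
  have hA' := LinearEquiv.finrank_map_eq g (ln F K v)
  generalize (ln F K v).map g.toLinearMap = A' at *
  have h1 : ¬ ln F K v ≤ A' := fun e => by rw [inf_eq_left.mpr e] at hd; omega
  have key : ∀ ψ : Dual K V, ψ v = 0 → (∀ l : K, ∃ t ∈ X, ∀ x ∈ A', t x = x + (l * ψ x) • v) →
      ∀ s ∈ A', ∀ s' ∈ A', s ∉ ln F K v → ψ s' ∉ F ∙ ψ s → ∃ g' ∈ X,
      (ln F K v).map g'.toLinearMap ≠ ln F K v ∧ finrank F ↥(ln F K v ⊓ A') <
        finrank F ↥(ln F K v ⊓ (ln F K v).map g'.toLinearMap) := by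
    intro ψ hψ hT s hs s' hs' h2 h3
    obtain ⟨l, h4, h5⟩ := exists_scale hr h0 h1 h3
    obtain ⟨t, ht, ht'⟩ := hT l
    have h6 : ∀ d ∈ ln F K v, d ∈ A' → t d = d := fun d hd hd' => by
      rw [ht' d hd']
      obtain ⟨k, rfl⟩ := mem_ln.mp hd
      simp [hψ]
    exact hinc t ht (fun d hd hd' => by rwa [h6 d hd hd']) (fun d hd hd' => by rwa [h6 d hd hd'])
      s s' hs (by rwa [ht' s hs, Submodule.add_mem_iff_left _ (smul_mem_ln _ _)])
      (by rw [ht' s hs]; exact A'.add_mem hs h4) hs'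
      (by rwa [ht' s' hs', Submodule.add_mem_iff_right _ hs'])
  have hs' : ∀ s, ∃ s' ∈ A', s' ∉ (ln F K v ⊓ A') ⊔ F ∙ s := fun s =>
    exists_notMem_of_finrank_lt (by have := finrank_sup_span_le (ln F K v ⊓ A') s; omega)
  by_cases h2 : ∀ x ∈ A', h x v = 0
  · obtain ⟨s, hs, hsD⟩ := exists_notMem_of_finrank_lt (U := ln F K v ⊓ A') (W := A') (by omega)
    have hsA : s ∉ ln F K v := fun e => hsD ⟨e, hs⟩
    obtain ⟨s', hs', hsD'⟩ := hs' s
    obtain ⟨ψ, h3, h4⟩ : ∃ ψ : Dual K V, ψ v = 0 ∧ ψ s' ∉ F ∙ ψ s := by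
      by_cases h5 : s' ∈ (K ∙ v) ⊔ K ∙ s
      · obtain ⟨b, hb, τ, rfl⟩ := mem_sup_span_singleton.mp h5
        obtain ⟨χ, c1, c2⟩ := exists_dual_one (F := K) (U := K ∙ v) hsA
        refine ⟨χ, c2 v (Submodule.mem_span_singleton_self v), fun e => hsD' ?_⟩
        obtain ⟨c, hc⟩ := Submodule.mem_span_singleton.mp e
        simp only [c1, map_add, c2 b hb, map_smul, smul_eq_mul, mul_one, zero_add] at hc
        rw [← hc, smul_assoc, one_smul] at hs' ⊢
        exact mem_sup_span_singleton.mpr ⟨b, ⟨hb,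
          (A'.add_mem_iff_left (A'.smul_mem c hs)).mp hs'⟩, c, rfl⟩
      · obtain ⟨χ, c1, c2⟩ := exists_dual_one h5
        exact ⟨χ, c2 v (Submodule.mem_sup_left (Submodule.mem_span_singleton_self v)), by
          simp [c1, c2 s (Submodule.mem_sup_right (Submodule.mem_span_singleton_self s))]⟩
    refine key ψ h3 (fun l => ?_) s hs s' hs' hsA h4
    obtain ⟨u, hu⟩ := exists_eq_flip hnd (l • ψ)
    obtain ⟨t, ht, ht'⟩ := has_of_K hX (has_eich hh (u := v) (w := u)
      (by rw [skew hh, hu]; simp [h3]))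
    exact ⟨t, ht, fun x hx => by simp [ht', h2 x hx, hu]⟩
  push Not at h2
  obtain ⟨s₀, hs₀, h2⟩ := h2
  have hT : ∀ l : K, ∃ t ∈ X, ∀ x ∈ A', t x = x + (l * h.flip v x) • v := fun l => by
    obtain ⟨t, ht, ht'⟩ := has_of_K hX (has_tv hh v l)
    exact ⟨t, ht, fun x _ => ht' x⟩
  by_cases h3 : ∃ s ∈ A', s ∉ ln F K v ∧ h s v = 0
  · obtain ⟨s, hs, h3, h4⟩ := h3
    exact key (h.flip v) (hh v) hT s hs s₀ hs₀ h3 (by simpa [h4] using h2)
  push Not at h3
  obtain ⟨s', hs', hsD'⟩ := hs' s₀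
  refine key (h.flip v) (hh v) hT s₀ hs₀ s' hs' (fun e => h2 ?_) fun e => hsD' ?_
  · obtain ⟨k, rfl⟩ := mem_ln.mp e
    simp [hh]
  · obtain ⟨c, hc⟩ := Submodule.mem_span_singleton.mp e
    have h4 := A'.sub_mem hs' (A'.smul_mem c hs₀)
    refine mem_sup_span_singleton.mpr ⟨s' - c • s₀, ⟨?_, h4⟩, c, by simp⟩
    by_contra h5
    refine h3 _ h4 h5 ?_
    rw [map_sub, LinearMap.map_smul_of_tower, LinearMap.sub_apply, LinearMap.smul_apply]
    exact sub_eq_zero.mpr hc.symm

include hh hnd hθ hB hX in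
/-- An overgroup of the symplectic group over the extension field which consists of isometries
and is not semilinear contains all the symplectic transvections. -/
theorem el_of_not_semi (hr : (finrank F K).Prime) (hm : 2 ≤ finrank K V)
    (hq : (∃ t : F, t ≠ 0 ∧ t ≠ 1) ∨ 3 ≤ finrank F K ∨ 3 ≤ finrank K V) (hI : X ≤ IsoB B)
    {g₀ : V ≃ₗ[F] V} (hg₀ : g₀ ∈ X) (hs : ¬ Semi K g₀) (u : V) (c : F) : El X B u 0 c := by
  have : FiniteDimensional F K := Module.finite_of_finrank_pos hr.pos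
  have : FiniteDimensional F V := Module.Finite.trans K V
  have : Finite F := Finite.of_injective _ (algebraMap F K).injective
  have hBa := alt_of_K hh hB
  have hBn := nd_of_K hnd hθ hB
  have hfin : ∀ (e : V) (c' : F), e ≠ 0 → c' ≠ 0 → El X B e 0 c' → El X B u 0 c :=
    fun e c' h1 h2 h3 => el_all hBa hBn (fun a b ha hb => by
      obtain ⟨t, ht, e⟩ := exists_move hh hnd ha hb
      exact ⟨_, hX t ht, iso_of_K hB ht, e⟩) h1 h2 h3 u c
  obtain ⟨l, v, hlv⟩ : ∃ (l : K) (v : V), g₀ (l • v) ∉ ln F K (g₀ v) := by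
    by_contra h
    push Not at h
    exact hs (semi_of_lines hm h)
  have hv : v ≠ 0 := fun e => hlv (by simp [e])
  obtain ⟨t, ht, htv⟩ := exists_move hh hnd (a := g₀ v) (by simpa using hv) hv
  have h1 : (ln F K v).map (t.restrictScalars F * g₀).toLinearMap ≠ ln F K v := fun e => hlv (by
    have : t (g₀ (l • v)) ∈ ln F K v := e ▸ ⟨l • v, smul_mem_ln l v, rfl⟩
    obtain ⟨k, hk⟩ := mem_ln.mp this
    exact mem_ln.mpr ⟨k, t.injective (by rw [map_smul, htv, hk])⟩)
  obtain ⟨g, hg, h2, h3⟩ := Ten.exists_max (X.mul_mem (hX t ht) hg₀) h1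
  have hA : finrank F (ln F K v) = finrank F K := finrank_ln hv
  have hA' := LinearEquiv.finrank_map_eq g (ln F K v)
  have h4 : 0 < finrank F ↥(ln F K v ⊓ (ln F K v).map g.toLinearMap) :=
    lt_of_lt_of_le (finrank_pos_iff_exists_ne_zero.mpr ⟨⟨v, self_mem_ln v, v, self_mem_ln v, htv⟩,
      fun e => hv (congrArg Subtype.val e)⟩) (h3 _ (X.mul_mem (hX t ht) hg₀) h1)
  have h5 : finrank F ↥(ln F K v ⊓ (ln F K v).map g.toLinearMap) + 1 = finrank F K := by
    have h6 := Submodule.finrank_lt_finrank_of_lt (inf_lt_right.mpr fun e =>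
      h2 (Submodule.eq_of_le_of_finrank_eq e hA') : ln F K v ⊓ (ln F K v).map g.toLinearMap < _)
    by_contra h7
    obtain ⟨g', hg', h8, h9⟩ := exists_increase_sp hh hnd hX hr hv hg
      (fun e => by rw [e, finrank_bot] at h4; omega) (by omega)
    exact absurd (h3 g' hg' h8) (by omega)
  have hR := reg_ln hh hB hX v
  have hR' := hR.map hg (hI hg)
  generalize (ln F K v).map g.toLinearMap = A' at *
  obtain ⟨a', ha', ha'D⟩ := exists_notMem_of_finrank_lt (U := ln F K v ⊓ A') (W := A') (by omega)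
  have ha'A : a' ∉ ln F K v := fun e => ha'D ⟨e, ha'⟩
  have hfix : ∀ t : V ≃ₗ[K] V, t v = v → ∀ b ∈ ln F K v, t b = b := fun t ht b hb => by
    obtain ⟨k, rfl⟩ := mem_ln.mp hb
    rw [map_smul, ht]
  by_cases h6 : h a' v = 0
  · obtain ⟨w, hw1, hw0⟩ := Ten.exists_dual_one₂ (F := K) ha'A
    obtain ⟨w, rfl⟩ : ∃ w', h.flip w' = w := by
      obtain ⟨w', e⟩ := exists_eq_flip hnd w
      exact ⟨w', LinearMap.ext e⟩
    obtain ⟨t, ht, ht'⟩ := has_eich hh (u := v) (w := w) (by rw [skew hh, neg_eq_zero]; exact hw0)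
    have h7 : El X B v a' 1 := el_of_perp hBa hBn hR' inf_le_right (by omega) ha' ha'D
      (fun x hx => by
        obtain ⟨d, hd, c, rfl⟩ := decomp_of_codim_one inf_le_right (by omega) ha' ha'D hx
        simp [hR.ti d hd.1 v (self_mem_ln v), hB a' v, h6]) (hX t ht) (iso_of_K hB ht)
      (fun d hd => hfix t (by simpa [ht', hh] using Or.inl hw0) d hd.1)
      (by change t a' = _; simp [ht', h6, show h a' w = 1 from hw1])
    have h8 : ∀ k : K, k ≠ 0 → El X B v (k • a') 1 := fun k hk => by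
      obtain ⟨t, ht, e1, e2⟩ := exists_move_fix hh hnd (v := v) (a := a') (b := k • a') ha'A
        (by rwa [Submodule.smul_mem_iff _ hk]) (by rw [skew hh, h6, neg_zero])
        (by rw [skew hh]; simp [h6])
      have := h7.conj (hX t ht) (iso_of_K hB ht)
      rwa [LinearEquiv.restrictScalars_apply, LinearEquiv.restrictScalars_apply, e1, e2] at this
    obtain ⟨ω, hω⟩ := Ten.exists_notMem_span (F := F) (V := K) hr.two_le 1
    have h9 : ∀ k : K, B (k • a') v = 0 := fun k => by simp [hB, h6]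
    refine hfin v 1 hv one_ne_zero ((((h8 1 one_ne_zero).add hBa
      (h8 ω (Ten.ne_zero_of_notMem' hω)) (h9 _) (h9 _)).congr (add_smul _ _ _).symm rfl).sub hBa
      (h8 (1 + ω) fun e => hω ?_) (h9 _) |>.congr rfl (by simp [hB, hh]))
    rw [eq_neg_of_add_eq_zero_right e]
    exact Submodule.neg_mem _ (Submodule.mem_span_singleton_self _)
  obtain ⟨a, ha, h7⟩ : ∃ a ∈ ln F K v, B a' a = 1 := by
    obtain ⟨k, hk⟩ := exists_B_ne hθ hB (x := v) (y := a') (by rwa [skew hh, neg_ne_zero])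
    exact ⟨(-(B (k • v) a')⁻¹) • k • v, Submodule.smul_mem _ _ (smul_mem_ln _ _), by
      rw [skew hBa]; simp [-map_smul, hk]⟩
  obtain ⟨e, he, he0⟩ := exists_notMem_of_finrank_lt (U := ⊥) (W := ln F K v ⊓ A')
    (by rwa [finrank_bot])
  rw [Submodule.mem_bot] at he0
  have h8 := fun e c => el_of_not_perp hBa hBn hR' hR (by rw [inf_comm]; omega)
    (by rw [inf_comm]; omega) ha' ha h7 (e := e) (c := c)
  have h9 : ∀ b ∈ ln F K v, B b e = 0 := fun b hb => hR.ti b hb e he.1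
  rcases hq with ⟨t, ht0, ht1⟩ | hq | hq
  · refine hfin e (t * t - t) he0 (fun e => ht1 ?_) ((((h8 (t • e) a
      (Submodule.smul_mem _ _ ⟨he.2, he.1⟩) ha).smul).sub hBa (h8 e (t • a) ⟨he.2, he.1⟩
      (Submodule.smul_mem _ _ ha)) (h9 _ (Submodule.smul_mem _ _ ha))).congr rfl (by simp [h7]))
    exact mul_left_cancel₀ ht0 (by linear_combination e)
  · let L : V → Dual F K := fun b => B a' ∘ₗ (LinearMap.toSpanSingleton K V b).restrictScalars F
    obtain ⟨k, hk, hk0⟩ := exists_notMem_of_finrank_lt (U := ⊥)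
      (W := (⊤ ⊓ LinearMap.ker (L e)) ⊓ LinearMap.ker (L a)) (by
        have := finrank_inf_ker_ge ⊤ (L e)
        have := finrank_inf_ker_ge (⊤ ⊓ LinearMap.ker (L e)) (L a)
        rw [finrank_top] at *
        rw [finrank_bot]; omega)
    rw [Submodule.mem_bot] at hk0
    have h10 : ∀ b ∈ ln F K v, B a' b = 0 → b ∈ A' := fun b hb h0 => by
      obtain ⟨d, hd, c, rfl⟩ := decomp_of_codim_one (inf_le_left : ln F K v ⊓ A' ≤ _) (by omega) ha
        (fun e => by simp [hR'.ti a' ha' a e.2] at h7) hb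
      simp only [map_add, hR'.ti a' ha' d hd.2, map_smul, h7, zero_add, smul_eq_mul, mul_one] at h0
      simpa [h0] using hd.2
    obtain ⟨t, ht, ht'⟩ := exists_move hh hnd (smul_ne_zero hk0 hv) hv
    have h11 : ∀ b ∈ ln F K v, t (k • b) = b := fun b hb => by
      obtain ⟨k', rfl⟩ := mem_ln.mp hb
      rw [smul_comm, map_smul, ht']
    have h12 := (h8 (k • e) (k • a) ⟨h10 _ (ln_smul_mem he.1 k) hk.1.2, ln_smul_mem he.1 k⟩
      (ln_smul_mem ha k)).conj (hX t ht) (iso_of_K hB ht)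
    rw [LinearEquiv.restrictScalars_apply, LinearEquiv.restrictScalars_apply, h11 e he.1,
      h11 a ha, show B a' (k • a) = 0 from hk.2] at h12
    exact hfin e 1 he0 one_ne_zero (((h8 e a ⟨he.2, he.1⟩ ha).sub hBa h12 (h9 a ha)).congr rfl
      (by simp [h7]))
  · have h10 : El X B e a' 1 := (el_of_not_perp hBa hBn hR hR' (by omega) (by omega)
      (Submodule.neg_mem _ ha) ha' (by rw [skew hBa]; simp [h7]) he ha').congr rfl
      (by rw [skew hBa]; simp [h7])
    have h11 : ∀ w, h w v = 0 → B w e = 0 := fun w hw => by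
      obtain ⟨k, rfl⟩ := mem_ln.mp he.1
      simp [hB, hw]
    have h12 : ∀ w, h w v = 0 → h w a' = 0 → El X B e w 0 := fun w h1 h2 => by
      obtain ⟨t, ht, ht'⟩ := has_eich hh (u := v) (w := (h a' v)⁻¹ • w) (by simp [h1])
      have h3 := h10.conj (hX t ht) (iso_of_K hB ht)
      rw [LinearEquiv.restrictScalars_apply, LinearEquiv.restrictScalars_apply,
        hfix t (by simp [ht', hh, skew hh v w, h1]) e he.1, ht'] at h3
      have h4 := hR'.ti a' ha' e he.2
      refine (h3.add hBa (h10.neg hBa h4) (by simp [h4, skew hh a' w, h2, h6, smul_smul, h11 w h1])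
        (by simp [h4])).congr (by simp [skew hh a' w, h2, h6, smul_smul]) ?_
      simp [hB, skew hh a' w, h2, hh]
    obtain ⟨u₁, hu₁, hu₁0⟩ := exists_notMem_of_finrank_lt (F := K) (U := ⊥)
      (W := (⊤ ⊓ LinearMap.ker (h.flip v)) ⊓ LinearMap.ker (h.flip a')) (by
        have := finrank_inf_ker_ge ⊤ (h.flip v)
        have := finrank_inf_ker_ge (⊤ ⊓ LinearMap.ker (h.flip v)) (h.flip a')
        rw [finrank_top] at *
        rw [finrank_bot]; omega)
    have b1 : h u₁ v = 0 := hu₁.1.2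
    have b2 : h u₁ a' = 0 := hu₁.2
    obtain ⟨z, hz⟩ : ∃ z, B z u₁ ≠ 0 := by
      by_contra hc
      push Not at hc
      exact hu₁0 (hBn _ hc)
    have b3 : h (z + (h z a' / h a' v) • v - (h z v / h a' v) • a') v = 0 := by simp [hh, h6]
    have b4 : h (z + (h z a' / h a' v) • v - (h z v / h a' v) • a') a' = 0 := by
      simp [hh, skew hh v a', h6]
    refine hfin e (B z u₁) he0 hz ((((h12 _ b1 b2).add hBa (h12 _ b3 b4) (h11 _ b1)
      (h11 _ b3)).sub hBa (h12 _ (by rw [map_add, LinearMap.add_apply, b1, b3, add_zero])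
      (by rw [map_add, LinearMap.add_apply, b2, b4, add_zero]))
      (by rw [map_add, LinearMap.add_apply, h11 _ b1, h11 _ b3, add_zero])).congr rfl ?_)
    simp [hB, skew hh v u₁, skew hh a' u₁, b1, b2]

end

end Cfsg.Agent.H3.Ext
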