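import Mathlib
import Cfsg.Agent.H3.TensorSL

/-!
Overgroups of the stabiliser of a tensor decomposition, continued.
-/

set_option autoImplicit false
set_option linter.unusedSectionVars false

namespace Cfsg.Agent.H3.Ten

open Module Cfsg.Agent.H7 Cfsg.Agent.H3.Ext

variable {F U P : Type*} [Field F] [AddCommGroup U] [Module F U] [AddCommGroup P] [Module F P]
  [FiniteDimensional F U] [FiniteDimensional F P]
  {X : Subgroup ((P →ₗ[F] U) ≃ₗ[F] (P →ₗ[F] U))}

theorem ne_zero_of_notMem {M : Type*} [AddCommGroup M] [Module F M] {a b : M} (h : a ∉ F ∙ b) :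
    a ≠ 0 := fun e => h (e ▸ Submodule.zero_mem _)

theorem symm_eq {M : Type*} [AddCommGroup M] [Module F M] {t : M ≃ₗ[F] M} {n : M → M}
    (ht : ∀ x, t x = x + n x) (hn : ∀ x, n (x - n x) = n x) (x : M) : t.symm x = x - n x := by
  rw [LinearEquiv.symm_apply_eq, ht, hn, sub_add_cancel]

variable (X) in
/-- The endomorphisms of the first factor which occur in the unipotent radical. -/
def Zs (w : Dual F P) : Submodule F (U →ₗ[F] U) where
  carrier := {z | ∀ φ, w φ = 0 → Yq X (St U w) (yz w z φ)}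
  add_mem' ha hb φ h := ((ha φ h).add (hb φ h)).congr fun x => by ext; simp
  zero_mem' φ _ := ⟨Has.id.congr fun x => by ext; simp, fun b _ => by ext; simp,
    fun x => smulRight_mem_St _ _⟩
  smul_mem' c z hz φ h := (hz (c • φ) (by simp [h])).congr fun x => by simp

section

variable (hk : ∀ (w : Dual F P) (φ : P), w φ = 0 → Has X fun x => x + w.smulRight (x φ))
  (hh : ∀ (ψ : Dual F U) (u : U), ψ u = 0 → Has X fun x => x + (ψ ∘ₗ x).smulRight u)

include hk in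
theorem yq_id {w : Dual F P} {φ : P} (h : w φ = 0) : Yq X (St U w) (yz w LinearMap.id φ) :=
  ⟨hk w φ h, by rintro _ ⟨u, rfl⟩; ext; simp [h], fun _ => smulRight_mem_St _ _⟩

include hk in
theorem yq_comm {w w' : Dual F P} {φ : P} (h : w φ = 0) (h' : w' φ = 0)
    {y : (P →ₗ[F] U) →ₗ[F] (P →ₗ[F] U)} (hy : Yq X (St U w) y) :
    Yq X (St U w) (y ∘ₗ yz w' LinearMap.id φ) := by
  obtain ⟨t, ht, ht'⟩ := hk w' φ h'
  have h1 : ∀ x ∈ St U w, t x = x := by
    rintro _ ⟨u, rfl⟩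
    rw [ht']; ext; simp [h]
  have h2 := symm_eq ht' fun x => by simp [h']
  refine (hy.sub (hy.conj ht (A' := St U w) fun x =>
    ((mem_stab_of_forall (W := St U w) (g := t) fun x hx => by rwa [h1 x hx]) x).symm)).congr
    fun x => ?_
  simp [h1 _ (hy.mem _), h2]

include hk in
theorem mem_Zs_of (hb : 3 ≤ finrank F P) {w : Dual F P} {z : U →ₗ[F] U} {φ₀ : P} (h0 : φ₀ ≠ 0)
    (h : Yq X (St U w) (yz w z φ₀)) : z ∈ Zs X w := by
  have key : ∀ φ φ' : P, φ ∉ F ∙ φ' → w φ' = 0 → Yq X (St U w) (yz w z φ) →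
      Yq X (St U w) (yz w z φ') := by
    intro φ φ' h1 h2 h3
    obtain ⟨w', a1, a2⟩ := exists_dual_one₂ h1
    exact (yq_comm hk h2 a2 h3).congr fun x => by simp [a1]
  intro φ hφ
  by_cases h1 : φ₀ ∈ F ∙ φ
  swap
  · exact key _ _ h1 hφ h
  obtain ⟨φ₁, h2, h3⟩ := exists_notMem_of_finrank_lt (U := F ∙ φ) (W := ⊤ ⊓ LinearMap.ker w) (by
    have := finrank_inf_ker_ge ⊤ w
    have := finrank_span_singleton_le (F := F) φ
    rw [finrank_top] at *; omega)
  refine key φ₁ φ h3 hφ (key φ₀ φ₁ (notMem_span_symm h0 fun h4 => h3 ?_) h2.2 h)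
  exact (Submodule.span_singleton_le_iff_mem _ _).mpr h1 h4

include hh in
theorem Zs_conj {w : Dual F P} {z : U →ₗ[F] U} (hz : z ∈ Zs X w) {ψ : Dual F U} {u : U}
    (h : ψ u = 0) : ψ.smulRight u ∘ₗ z - z ∘ₗ ψ.smulRight u -
      ψ.smulRight u ∘ₗ z ∘ₗ ψ.smulRight u ∈ Zs X w := by
  intro φ hφ
  obtain ⟨t, ht, ht'⟩ := hh ψ u h
  have h2 := symm_eq ht' fun x => by ext; simp [h]
  refine (((hz φ hφ).conj ht (A' := St U w) fun x =>
    ((mem_stab_of_forall (W := St U w) (g := t) ?_) x).symm).sub (hz φ hφ)).congr fun x => ?_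
  · rintro _ ⟨v, rfl⟩
    exact ⟨v + ψ v • u, by rw [ht']; ext; simp [smul_smul]⟩
  · ext p
    simp only [LinearMap.sub_apply, LinearMap.comp_apply, LinearEquiv.coe_coe, h2, ht', yz_apply,
      LinearMap.add_apply, LinearMap.smulRight_apply, map_sub, map_smul, smul_eq_mul]
    module

include hk hh in
theorem SLV_le_of_Zs (ha : 2 ≤ finrank F U) (hb : 3 ≤ finrank F P)
    (hq : 3 ≤ finrank F U ∨ ∃ t : F, t ≠ 0 ∧ t ≠ 1) {w : Dual F P} (hw : w ≠ 0) {z : U →ₗ[F] U}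
    (hz : z ∈ Zs X w) (hne : ∀ c : F, z ≠ c • LinearMap.id) : SLV F (P →ₗ[F] U) ≤ X := by
  obtain ⟨u, hu⟩ := exists_not_eigen hne
  have hu0 : u ≠ 0 := fun e => hu (by simp [e])
  obtain ⟨ψ, a1, a2⟩ := exists_dual_one₂ hu
  obtain ⟨ψ₀, h0, h1, h2⟩ : ∃ ψ₀ : Dual F U, ψ₀ ≠ 0 ∧ ψ₀ u = 0 ∧ ψ₀.smulRight u ∈ Zs X w := by
    have h3 := Zs_conj hh hz a2
    rcases hq with hq | ⟨t, ht0, ht1⟩
    · obtain ⟨v, -, hv⟩ := exists_notMem_of_finrank_lt (U := (F ∙ u) ⊔ F ∙ z u) (W := ⊤) (by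
        have := finrank_sup_span_le (F ∙ u) (z u)
        have := finrank_span_singleton_le (F := F) u
        rw [finrank_top]; omega)
      obtain ⟨ψ', b1, b2⟩ := exists_dual_one hv
      have b3 := b2 u (Submodule.mem_sup_left (Submodule.mem_span_singleton_self _))
      have b4 := b2 _ (Submodule.mem_sup_right (Submodule.mem_span_singleton_self _))
      refine ⟨ψ', fun e => by simp [e] at b1, b3, ?_⟩
      convert Submodule.neg_mem _ (Zs_conj hh h3 b3) using 1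
      ext x
      simp [a1, a2, b3, b4]
    · refine ⟨ψ, fun e => by simp [e] at a1, a2, ?_⟩
      have h4 := Zs_conj hh hz (ψ := t • ψ) (u := u) (by simp [a2])
      convert Submodule.smul_mem _ (t * (1 - t))⁻¹
        (Submodule.sub_mem _ h4 (Submodule.smul_mem _ t h3)) using 1
      ext x
      have : 1 - t ≠ 0 := sub_ne_zero.mpr ht1.symm
      simp only [LinearMap.smulRight_apply, LinearMap.smul_apply, LinearMap.sub_apply,
        LinearMap.comp_apply, map_smul, a1, smul_eq_mul]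
      match_scalars <;> field_simp <;> ring
  refine SLV_le_of_good hk hh ha hb (w₀ := w) (u₀ := u) (fun ψ₁ φ b1 b2 => ?_) hw hu0
  have h3 : ψ₁.smulRight u ∈ Zs X w := by
    by_cases h4 : ψ₁ ∈ F ∙ ψ₀
    · obtain ⟨c, rfl⟩ := Submodule.mem_span_singleton.mp h4
      convert Submodule.smul_mem _ c h2 using 1
      ext; simp [smul_smul]
    · obtain ⟨v, c1, c2⟩ := exists_vec_one' (notMem_span_symm h0 h4)
      convert Submodule.neg_mem _ (Zs_conj hh h2 c2) using 1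
      ext x
      simp [b1, c1]
  exact (h3 φ b2).has.congr fun x => by ext; simp [smul_smul, mul_comm]

include hk hh in
theorem exists_eq_yz (ha : 2 ≤ finrank F U) (hb : 3 ≤ finrank F P)
    (hq : 3 ≤ finrank F U ∨ ∃ t : F, t ≠ 0 ∧ t ≠ 1) (hn : ¬ SLV F (P →ₗ[F] U) ≤ X)
    {w : Dual F P} (hw : w ≠ 0) {y : (P →ₗ[F] U) →ₗ[F] (P →ₗ[F] U)} (hy : Yq X (St U w) y) :
    ∃ φ, w φ = 0 ∧ ∀ x, y x = w.smulRight (x φ) := by
  obtain ⟨φ₀, h0, -⟩ := exists_vec_one' (w := 0) (w' := w) (by simpa using hw)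
  have h1 : ∀ x, y x = w.smulRight (y x φ₀) := fun x => by
    obtain ⟨u, hu⟩ := hy.mem x
    rw [← hu]; ext; simp [h0]
  have h2 : ∀ w' : Dual F P, ∃ c : F, ∀ u, y (w'.smulRight u) φ₀ = c • u := by
    intro w'
    by_contra hc
    push Not at hc
    obtain ⟨φ, h3, h4⟩ := exists_notMem_of_finrank_lt (U := ⊥)
      (W := (⊤ ⊓ LinearMap.ker w) ⊓ LinearMap.ker w') (by
        have := finrank_inf_ker_ge ⊤ w
        have := finrank_inf_ker_ge (⊤ ⊓ LinearMap.ker w) w'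
        rw [finrank_top] at *
        rw [finrank_bot]; omega)
    refine hn (SLV_le_of_Zs hk hh ha hb hq hw
      (z := LinearMap.applyₗ φ₀ ∘ₗ y ∘ₗ LinearMap.smulRightₗ w')
      (mem_Zs_of hk hb (by simpa using h4) ((yq_comm hk h3.1.2 h3.2 hy).congr fun x => h1 _))
      fun c e => ?_)
    obtain ⟨u, hu⟩ := hc c
    exact hu (DFunLike.congr_fun e u)
  have : Nontrivial U := Module.nontrivial_of_finrank_pos (R := F) (by omega)
  obtain ⟨u₀, hu₀⟩ := exists_ne (0 : U)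
  obtain ⟨ψ₀, hψ₀⟩ := exists_dual_one' (F := F) hu₀
  obtain ⟨φ, hφ⟩ := (Module.evalEquiv F P).surjective
    (pf ψ₀ φ₀ ∘ₗ y ∘ₗ LinearMap.smulRightₗ.flip u₀)
  have h3 : ∀ w' : Dual F P, w' φ = ψ₀ (y (w'.smulRight u₀) φ₀) := fun w' =>
    DFunLike.congr_fun hφ w'
  refine ⟨φ, by rw [h3, hy.zero _ (smulRight_mem_St _ _)]; simp, fun x => ?_⟩
  rw [h1]
  congr 1
  refine tensor_induction (p := fun x => y x φ₀ = x φ) (by simp) (fun a b ha hb => by
    simp [ha, hb]) (fun w' u => ?_) x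
  obtain ⟨c, hc⟩ := h2 w'
  simp [hc, h3, hψ₀]

include hk in
theorem stuck (hab : finrank F U < finrank F P) {w : Dual F P} (hw : w ≠ 0)
    {g : (P →ₗ[F] U) ≃ₗ[F] (P →ₗ[F] U)} (hg : g ∈ X) (hne : (St U w).map g.toLinearMap ≠ St U w)
    (hmax : ∀ g' ∈ X, (St U w).map g'.toLinearMap ≠ St U w →
      finrank F ↥(St U w ⊓ (St U w).map g'.toLinearMap) ≤
        finrank F ↥(St U w ⊓ (St U w).map g.toLinearMap))
    (h0 : 0 < finrank F ↥(St U w ⊓ (St U w).map g.toLinearMap)) :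
    ∃ φ, φ ≠ 0 ∧ w φ = 0 ∧ ∀ s : P →ₗ[F] U, s ∈ (St U w).map g.toLinearMap →
      w.smulRight (s φ) ∈ (St U w).map g.toLinearMap := by
  have hinc := fun t ht h1 h2 s s' => increase (A := St U w) (t := t) hg ht h1 h2 (s := s) (s' := s')
  have hA := finrank_St (U := U) hw
  have hA' := LinearEquiv.finrank_map_eq g (St U w)
  generalize (St U w).map g.toLinearMap = A' at *
  obtain ⟨s, hs, hsA⟩ : ∃ s ∈ A', s ∉ St U w := by
    by_contra h
    push Not at h
    exact hne (Submodule.eq_of_le_of_finrank_eq h hA')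
  have h1 := finrank_le_comap (LinearMap.smulRightₗ w ∘ₗ s) A' (St U w) fun x =>
    Submodule.mem_sup_right (smulRight_mem_St _ _)
  obtain ⟨φ, hφ, hφ0⟩ := exists_notMem_of_finrank_lt (U := ⊥)
    (W := A'.comap (LinearMap.smulRightₗ w ∘ₗ s) ⊓ LinearMap.ker w) (by
      have := finrank_inf_ker_ge (A'.comap (LinearMap.smulRightₗ w ∘ₗ s)) w
      rw [inf_comm] at h1
      rw [finrank_bot]; omega)
  refine ⟨φ, by simpa using hφ0, hφ.2, fun s' hs' => ?_⟩
  by_contra hcon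
  obtain ⟨⟨t, ht, ht'⟩, h2, -⟩ := yq_id hk hφ.2
  simp only [yz_apply, LinearMap.id_apply] at ht' h2
  obtain ⟨g', hg', h3, h4⟩ := hinc t ht (fun d hd _ => by rwa [ht', h2 d hd, add_zero])
    (fun d hd hd' => by rwa [ht', h2 d hd, add_zero]) s s' hs
    (by rwa [ht', Submodule.add_mem_iff_left _ (smulRight_mem_St _ _)])
    (by rw [ht']; exact A'.add_mem hs hφ.1) hs'
    (by rwa [ht', Submodule.add_mem_iff_right _ hs'])
  exact absurd (hmax g' hg' h3) (by omega)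

include hk hh in
theorem not_max (ha : 2 ≤ finrank F U) (hab : finrank F U < finrank F P)
    (hq : 3 ≤ finrank F U ∨ ∃ t : F, t ≠ 0 ∧ t ≠ 1) (hn : ¬ SLV F (P →ₗ[F] U) ≤ X)
    {w : Dual F P} (hw : w ≠ 0)
    {g : (P →ₗ[F] U) ≃ₗ[F] (P →ₗ[F] U)} (hg : g ∈ X) (hne : (St U w).map g.toLinearMap ≠ St U w)
    (hmax : ∀ g' ∈ X, (St U w).map g'.toLinearMap ≠ St U w →
      finrank F ↥(St U w ⊓ (St U w).map g'.toLinearMap) ≤
        finrank F ↥(St U w ⊓ (St U w).map g.toLinearMap))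
    (h0 : 0 < finrank F ↥(St U w ⊓ (St U w).map g.toLinearMap)) : False := by
  have hmem : ∀ x, x ∈ (St U w).map g⁻¹.toLinearMap ↔ g x ∈ St U w := fun x =>
    Submodule.mem_map_equiv _
  obtain ⟨φ₁, hφ₁, h1, h2⟩ := stuck hk hab hw (X.inv_mem hg) (fun e => hne (mem_stab_iff_map.mp
    fun x => by rw [← hmem, e])) (by rwa [finrank_inf_map_inv]) (by rwa [finrank_inf_map_inv])
  have hy := (yq_id hk h1).conj hg (A' := (St U w).map g.toLinearMap) (by simp)
  have hyA : ∀ x ∈ St U w, (g.toLinearMap ∘ₗ yz w LinearMap.id φ₁ ∘ₗ g.symm.toLinearMap) x ∈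
      St U w := fun x hx => (hmem _).mp (h2 _ ((hmem _).mpr (by simpa using hx)))
  have hys : ∀ b ∈ (St U w).map g.toLinearMap, ∃ x,
      (g.toLinearMap ∘ₗ yz w LinearMap.id φ₁ ∘ₗ g.symm.toLinearMap) x = b := by
    rintro _ ⟨_, ⟨u, rfl⟩, rfl⟩
    obtain ⟨χ, hχ⟩ := exists_dual_one' (F := F) hφ₁
    exact ⟨g (χ.smulRight u), by simp [hχ]⟩
  have hA := finrank_St (U := U) hw
  have hA' := LinearEquiv.finrank_map_eq g (St U w)
  generalize g.toLinearMap ∘ₗ yz w LinearMap.id φ₁ ∘ₗ g.symm.toLinearMap = y at hy hyA hys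
  generalize (St U w).map g.toLinearMap = A' at *
  have hz : ∀ x ∈ St U w, ∀ φ, w φ = 0 → x φ = 0 := by
    rintro _ ⟨u, rfl⟩ φ h
    simp [h]
  obtain ⟨m, hm, hm'⟩ := hy.has
  have key : ∀ φ, φ ≠ 0 → w φ = 0 → ∀ x, y (w.smulRight (x φ)) = w.smulRight (y x φ) := by
    intro φ hφ0 hφ
    obtain ⟨φ', h3, h4⟩ := exists_eq_yz hk hh ha (by omega) hq hn hw ((yq_id hk hφ).conj hm
      (A' := St U w) fun x => ((mem_stab_of_forall (W := St U w) (g := m) fun x hx => by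
        rw [hm']; exact Submodule.add_mem _ hx (hyA x hx)) x).symm)
    have h5 : ∀ x, w.smulRight (x φ) + y (w.smulRight (x φ)) = w.smulRight (x φ' + y x φ') := by
      intro x
      have := h4 (m x)
      simp only [LinearMap.comp_apply, LinearEquiv.coe_coe, LinearEquiv.symm_apply_apply] at this
      rwa [hm', hm'] at this
    have E1 : ∀ w' : Dual F P, ∃ u, u ≠ 0 ∧ y (w'.smulRight u) ∈ St U w := fun w' => by
      have := finrank_le_comap (y ∘ₗ LinearMap.smulRightₗ w') (St U w) A' fun x =>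
        Submodule.mem_sup_right (hy.mem _)
      obtain ⟨u, hu, hu0⟩ := exists_notMem_of_finrank_lt (U := ⊥)
        (W := (St U w).comap (y ∘ₗ LinearMap.smulRightₗ w')) (by rw [finrank_bot]; omega)
      exact ⟨u, by simpa using hu0, hu⟩
    have h6 : φ' = φ := by
      by_cases h7 : φ' ∈ F ∙ φ
      · obtain ⟨c, rfl⟩ := Submodule.mem_span_singleton.mp h7
        obtain ⟨χ, hχ⟩ := exists_dual_one' (F := F) hφ0
        obtain ⟨u, hu0, hu⟩ := E1 χ
        have h8 := h5 (χ.smulRight u)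
        rw [hz _ hu _ h3] at h8
        simp only [LinearMap.smulRight_apply, hχ, one_smul, map_smul, add_zero] at h8
        have h9 : y (w.smulRight u) = w.smulRight ((c - 1) • u) := by
          rw [eq_sub_of_add_eq' h8]; ext; simp [sub_smul, smul_sub]
        have h10 := hy.zero _ (hy.mem (w.smulRight u))
        rw [h9, show w.smulRight ((c - 1) • u) = (c - 1) • w.smulRight u by
          ext; simp [smul_smul, mul_comm], map_smul, h9] at h10
        have h11 : (c - 1) • (c - 1) • u = 0 := smulRight_inj hw (by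
          rw [LinearMap.smulRight_zero, ← h10]; ext; simp [smul_smul]; ring_nf)
        simp only [smul_eq_zero, hu0, or_false, or_self, sub_eq_zero] at h11
        rw [h11, one_smul]
      · obtain ⟨χ, b1, b2⟩ := exists_dual_one₂ h7
        obtain ⟨u, hu0, hu⟩ := E1 χ
        have h8 := h5 (χ.smulRight u)
        rw [hz _ hu _ h3] at h8
        simp only [LinearMap.smulRight_apply, b1, b2, one_smul, zero_smul, add_zero,
          LinearMap.smulRight_zero, map_zero] at h8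
        exact absurd (smulRight_inj hw (h8.symm.trans (LinearMap.smulRight_zero w).symm)) hu0
    intro x
    have := h5 x
    rw [h6] at this
    refine add_left_cancel (this.trans ?_)
    ext; simp
  have key2 : ∀ u, y (w.smulRight u) = 0 := fun u => by
    let L : Dual F P →ₗ[F] (P →ₗ[F] U) := y ∘ₗ LinearMap.smulRightₗ.flip u
    have := finrank_le_comap L (St U w) A' fun x => Submodule.mem_sup_right (hy.mem _)
    obtain ⟨w', hw', hw'0⟩ := exists_notMem_of_finrank_lt (U := F ∙ w) (W := (St U w).comap L) (by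
      have := finrank_span_singleton_le (F := F) w
      rw [Subspace.dual_finrank_eq] at *; omega)
    obtain ⟨φ, b1, b2⟩ := exists_vec_one' hw'0
    have h3 := key φ (fun e => by simp [e] at b1) b2 (w'.smulRight u)
    rw [hz (y (w'.smulRight u)) hw' φ b2] at h3
    simpa [b1] using h3
  refine hne (Submodule.eq_of_le_of_finrank_eq (fun b hb => ?_) hA')
  obtain ⟨x, rfl⟩ := hys b hb
  refine mem_St_of_ker hw fun φ hφ => ?_
  by_cases hφ0 : φ = 0
  · simp [hφ0]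
  · exact smulRight_inj hw (by rw [← key φ hφ0 hφ, key2, LinearMap.smulRight_zero])

include hk in
theorem exists_map_St {w w' : Dual F P} (hw : w ≠ 0) (hw' : w' ≠ 0) :
    ∃ k ∈ X, (St U w).map k.toLinearMap = St U w' := by
  by_cases h : w' ∈ F ∙ w
  · obtain ⟨c, rfl⟩ := Submodule.mem_span_singleton.mp h
    refine ⟨1, X.one_mem, ?_⟩
    rw [LinearEquiv.coe_toLinearMap_one, Submodule.map_id]
    refine (Submodule.eq_of_le_of_finrank_eq ?_ (by rw [finrank_St hw, finrank_St hw'])).symm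
    rintro _ ⟨u, rfl⟩
    exact ⟨c • u, by ext; simp [smul_smul]⟩
  obtain ⟨φ₁, a1, a2⟩ := exists_vec_one' h
  obtain ⟨φ₂, a3, a4⟩ := exists_vec_one' (notMem_span_symm hw h)
  obtain ⟨t, ht, ht'⟩ := hk (w' - w) (φ₁ + φ₂) (by simp [a1, a2, a3, a4])
  refine ⟨t, ht, Submodule.eq_of_le_of_finrank_eq ?_
    (by rw [LinearEquiv.finrank_map_eq, finrank_St hw, finrank_St hw'])⟩
  rintro _ ⟨_, ⟨u, rfl⟩, rfl⟩
  exact ⟨u, by rw [LinearEquiv.coe_coe, ht']; ext; simp [a2, a3, sub_smul]⟩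

include hk hh in
theorem not_spread (ha : 2 ≤ finrank F U) (hab : finrank F U < finrank F P)
    (hq : 3 ≤ finrank F U ∨ ∃ t : F, t ≠ 0 ∧ t ≠ 1) {A : Submodule F (P →ₗ[F] U)}
    (hA : finrank F A = finrank F U)
    (hr : ∀ (w : Dual F P) (u : U), w.smulRight u ∈ A → w.smulRight u = 0)
    (hfix : ∀ t ∈ X, ∀ x ∈ A, x ≠ 0 → t x = x → ∀ x' ∈ A, t x' ∈ A) : False := by
  replace hfix : ∀ T, Has X T → ∀ x ∈ A, x ≠ 0 → T x = x → ∀ x' ∈ A, T x' ∈ A := by
    rintro T ⟨t, ht, ht'⟩ x hx h0 h1 x' hx'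
    exact ht' x' ▸ hfix t ht x hx h0 (by rw [ht', h1]) x' hx'
  have hz : ∀ (w : Dual F P) (u : U), w ≠ 0 → w.smulRight u ∈ A → u = 0 := fun w u h0 h =>
    smulRight_inj h0 (by rw [hr w u h, LinearMap.smulRight_zero])
  have h1 : ∀ x ∈ A, x ≠ 0 → ∀ φ, x φ = 0 → ∀ x' ∈ A, x' φ = 0 := by
    intro x hx h0 φ hφ x' hx'
    obtain ⟨w, hw, hw0⟩ := exists_notMem_of_finrank_lt (U := ⊥)
      (W := ⊤ ⊓ LinearMap.ker (Dual.eval F P φ)) (by
        have := finrank_inf_ker_ge ⊤ (Dual.eval F P φ)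
        rw [finrank_top, Subspace.dual_finrank_eq] at this
        rw [finrank_bot]; omega)
    exact hz w _ (by simpa using hw0)
      ((A.add_mem_iff_right hx').mp (hfix _ (hk w φ hw.2) x hx h0 (by simp [hφ]) x' hx'))
  have h2 : ∀ x ∈ A, ∀ φ, x φ ≠ 0 → ∀ u, ∃ x' ∈ A, x' φ = u := by
    intro x hx φ hφ u
    obtain ⟨x', h⟩ := (LinearMap.injective_iff_surjective_of_finrank_eq_finrank
      (f := LinearMap.applyₗ φ ∘ₗ A.subtype) hA).mp ((injective_iff_map_eq_zero _).mpr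
        fun x' h => by
          by_contra h0
          exact hφ (h1 x' x'.2 (fun e => h0 (Subtype.ext e)) φ h x hx)) u
    exact ⟨x', x'.2, h⟩
  have hker : ∀ u : U, ∃ ψ : Dual F U, ψ ≠ 0 ∧ ψ u = 0 := fun u => by
    obtain ⟨v, hv⟩ := exists_notMem_span ha u
    obtain ⟨ψ, b1, b2⟩ := exists_dual_one₂ hv
    exact ⟨ψ, fun e => by simp [e] at b1, b2⟩
  have h3 : ∀ x ∈ A, x ≠ 0 → ∀ ψ : Dual F U, ψ ≠ 0 → ψ ∘ₗ x ≠ 0 := by
    intro x hx h0 ψ hψ e
    obtain ⟨u, hu, hu0⟩ := exists_notMem_of_finrank_lt (U := ⊥) (W := ⊤ ⊓ LinearMap.ker ψ) (by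
      have := finrank_inf_ker_ge ⊤ ψ
      rw [finrank_top] at this
      rw [finrank_bot]; omega)
    obtain ⟨φ, hφ⟩ := DFunLike.ne_iff.mp h0
    obtain ⟨v, hv⟩ := DFunLike.ne_iff.mp hψ
    obtain ⟨x', hx', rfl⟩ := h2 x hx φ hφ v
    exact hu0 (hz (ψ ∘ₗ x') u (fun e => hv (DFunLike.congr_fun e φ))
      ((A.add_mem_iff_right hx').mp (hfix _ (hh ψ u hu.2) x hx h0 (by simp [e]) x' hx')))
  obtain ⟨x, hx, h0⟩ := exists_notMem_of_finrank_lt (U := ⊥) (W := A) (by rw [finrank_bot]; omega)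
  rw [Submodule.mem_bot] at h0
  obtain ⟨φ, hφ⟩ : ∃ φ, x φ ≠ 0 := DFunLike.ne_iff.mp h0
  obtain ⟨ψ, hψ0, hψ⟩ := hker (x φ)
  have h4 : ∀ t : F, ∀ x' ∈ A, t • (ψ ∘ₗ x').smulRight (x φ) - t • (ψ ∘ₗ x).smulRight (x' φ) -
      (t * t * ψ (x' φ)) • (ψ ∘ₗ x).smulRight (x φ) ∈ A := by
    intro t x' hx'
    have := hfix _ ((hh (t • ψ) (x φ) (by simp [hψ])).comp (hk (ψ ∘ₗ x) (-t • φ) (by simp [hψ])))
      x hx h0 (by ext; simp [hψ, smul_smul, mul_comm]) x' hx'
    convert A.sub_mem this hx' using 1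
    ext
    simp only [LinearMap.sub_apply, LinearMap.add_apply, LinearMap.smul_apply,
      LinearMap.smulRight_apply, LinearMap.comp_apply, map_smul, map_add, smul_eq_mul]
    module
  rcases hq with hq | ⟨t, ht0, ht1⟩
  · obtain ⟨v, hv⟩ := exists_notMem_span ha (x φ)
    obtain ⟨x', hx', rfl⟩ := h2 x hx φ hφ v
    obtain ⟨v', -, hv'⟩ := exists_notMem_of_finrank_lt (U := (F ∙ x φ) ⊔ F ∙ x' φ) (W := ⊤) (by
      have := finrank_sup_span_le (F ∙ x φ) (x' φ)
      have := finrank_span_singleton_le (F := F) (x φ)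
      rw [finrank_top]; omega)
    obtain ⟨ψ', b1, b2⟩ := exists_dual_one hv'
    have b3 := b2 _ (Submodule.mem_sup_left (Submodule.mem_span_singleton_self _))
    have b4 := b2 _ (Submodule.mem_sup_right (Submodule.mem_span_singleton_self _))
    obtain ⟨χ, b5, b6⟩ := exists_dual_one₂ hv
    refine h3 _ (h4 1 x' hx') (fun e => h3 x hx h0 ψ hψ0 ?_) ψ' (fun e => by simp [e] at b1)
      (by ext; simp [b3, b4])
    ext p
    simpa [b5, b6] using congrArg χ (DFunLike.congr_fun e p)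
  · obtain ⟨v, hv⟩ := DFunLike.ne_iff.mp hψ0
    obtain ⟨x', hx', rfl⟩ := h2 x hx φ hφ v
    have := hz (ψ ∘ₗ x) ((t * (1 - t) * ψ (x' φ)) • x φ) (h3 x hx h0 ψ hψ0) (by
      convert A.sub_mem (h4 t x' hx') (A.smul_mem t (h4 1 x' hx')) using 1
      ext
      simp only [LinearMap.sub_apply, LinearMap.smul_apply, LinearMap.smulRight_apply,
        LinearMap.comp_apply]
      module)
    simp only [smul_eq_zero, mul_eq_zero, ht0, hφ, sub_eq_zero, ht1.symm, false_or,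
      or_false] at this
    exact hv this

end

/-- The map normalises the endomorphism algebra of the first tensor factor. -/
def TN (g : (P →ₗ[F] U) ≃ₗ[F] (P →ₗ[F] U)) : Prop :=
  ∀ z : U →ₗ[F] U, ∃ z' : U →ₗ[F] U, ∀ x, g (z ∘ₗ x) = z' ∘ₗ g x

theorem tn_of_St (hb : 0 < finrank F P) {g : (P →ₗ[F] U) ≃ₗ[F] (P →ₗ[F] U)}
    (h : ∀ w : Dual F P, w ≠ 0 → ∃ w' : Dual F P, w' ≠ 0 ∧
      (St U w).map g.toLinearMap = St U w') : TN g := by
  have h1 : ∀ w : Dual F P, w ≠ 0 → ∃ (w' : Dual F P) (k : U ≃ₗ[F] U), w' ≠ 0 ∧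
      (St U w).map g.toLinearMap = St U w' ∧ ∀ u, g (w.smulRight u) = w'.smulRight (k u) := by
    intro w hw
    obtain ⟨w', hw', e⟩ := h w hw
    obtain ⟨φ, b1, -⟩ := exists_vec_one' (w := 0) (w' := w') (by simpa using hw')
    have h2 : ∀ u, g (w.smulRight u) = w'.smulRight (g (w.smulRight u) φ) := fun u => by
      obtain ⟨v, hv⟩ : g (w.smulRight u) ∈ St U w' := e ▸ ⟨_, smulRight_mem_St w u, rfl⟩
      rw [← hv]; ext; simp [b1]
    refine ⟨w', LinearEquiv.ofInjectiveEndo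
      (LinearMap.applyₗ φ ∘ₗ g.toLinearMap ∘ₗ LinearMap.smulRightₗ w) fun u v e => ?_, hw', e, h2⟩
    refine smulRight_inj hw (g.injective ?_)
    rw [h2 u, h2 v]
    exact congrArg _ e
  have : Nontrivial (Dual F P) := Module.nontrivial_of_finrank_pos (R := F)
    (by rwa [Subspace.dual_finrank_eq])
  obtain ⟨w₀, hw₀⟩ := exists_ne (0 : Dual F P)
  obtain ⟨w₀', k₀, a1, a2, a3⟩ := h1 w₀ hw₀
  have h2 : ∀ w : Dual F P, ∃ w' : Dual F P, ∀ u, g (w.smulRight u) = w'.smulRight (k₀ u) := by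
    intro w
    by_cases hw : w ∈ F ∙ w₀
    · obtain ⟨c, rfl⟩ := Submodule.mem_span_singleton.mp hw
      refine ⟨c • w₀', fun u => ?_⟩
      rw [show (c • w₀).smulRight u = w₀.smulRight (c • u) by ext; simp [smul_smul, mul_comm], a3]
      ext; simp [smul_smul, mul_comm]
    obtain ⟨w', k, b1, b2, b3⟩ := h1 w (ne_zero_of_notMem hw)
    obtain ⟨w'', k', c1, -, c3⟩ := h1 (w + w₀) fun e => hw (by
      rw [eq_neg_of_add_eq_zero_left e]
      exact Submodule.neg_mem _ (Submodule.mem_span_singleton_self _))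
    have h3 : ∀ u p, w' p • k u + w₀' p • k₀ u = w'' p • k' u := fun u p => by
      have := c3 u
      rw [show (w + w₀).smulRight u = w.smulRight u + w₀.smulRight u by ext; simp [add_smul],
        map_add, b3, a3] at this
      exact DFunLike.congr_fun this p
    rcases subsingleton_or_nontrivial U with hU | hU
    · exact ⟨0, fun u => Subsingleton.elim _ _⟩
    obtain ⟨u₀, hu₀⟩ := exists_ne (0 : U)
    have h4 : w' ∉ F ∙ w₀' := fun h => by
      obtain ⟨c, rfl⟩ := Submodule.mem_span_singleton.mp h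
      obtain ⟨φ, d1, d2⟩ := exists_vec_one' hw
      have := DFunLike.congr_fun (g.injective ((b3 u₀).trans (Eq.trans (by
        ext; simp [smul_smul, mul_comm]) (a3 (k₀.symm (c • k u₀))).symm))) φ
      simp [d1, d2, hu₀] at this
    obtain ⟨φ₁, d1, d2⟩ := exists_vec_one' h4
    obtain ⟨φ₂, d3, d4⟩ := exists_vec_one' (notMem_span_symm a1 h4)
    have h5 : ∀ u, k u = w'' φ₁ • k' u := fun u => by simpa [d1, d2] using h3 u φ₁
    have h6 : ∀ u, k₀ u = w'' φ₂ • k' u := fun u => by simpa [d3, d4] using h3 u φ₂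
    have h7 : w'' φ₂ ≠ 0 := fun e => hu₀ (by simpa [e] using h6 u₀)
    refine ⟨(w'' φ₁ / w'' φ₂) • w', fun u => ?_⟩
    rw [b3, h5, h6]
    ext
    simp only [LinearMap.smulRight_apply, LinearMap.smul_apply, smul_eq_mul]
    match_scalars
    field_simp
  intro z
  refine ⟨k₀.toLinearMap ∘ₗ z ∘ₗ k₀.symm.toLinearMap, fun x => ?_⟩
  refine tensor_induction (p := fun x => g (z ∘ₗ x) =
    (k₀.toLinearMap ∘ₗ z ∘ₗ k₀.symm.toLinearMap) ∘ₗ g x) (by simp) (fun a b ha hb => by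
      rw [LinearMap.comp_add, map_add, map_add, LinearMap.comp_add, ha, hb]) (fun w u => ?_) x
  obtain ⟨w', hw'⟩ := h2 w
  rw [show z ∘ₗ w.smulRight u = w.smulRight (z u) by ext; simp, hw', hw']
  ext; simp

/-- An overgroup of the tensor product of the two special linear groups which does not normalise
the tensor decomposition contains the special linear group. -/
theorem SLV_le_of_not_TN
    (hk : ∀ (w : Dual F P) (φ : P), w φ = 0 → Has X fun x => x + w.smulRight (x φ))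
    (hh : ∀ (ψ : Dual F U) (u : U), ψ u = 0 → Has X fun x => x + (ψ ∘ₗ x).smulRight u)
    (ha : 2 ≤ finrank F U) (hab : finrank F U < finrank F P)
    (hq : 3 ≤ finrank F U ∨ ∃ t : F, t ≠ 0 ∧ t ≠ 1) {g₀ : (P →ₗ[F] U) ≃ₗ[F] (P →ₗ[F] U)}
    (hg₀ : g₀ ∈ X) (h0 : ¬ TN g₀) : SLV F (P →ₗ[F] U) ≤ X := by
  by_contra hn
  obtain ⟨w₁, hw₁, h1⟩ : ∃ w : Dual F P, w ≠ 0 ∧ ∀ w' : Dual F P, w' ≠ 0 →
      (St U w).map g₀.toLinearMap ≠ St U w' := by
    by_contra h
    push Not at h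
    exact h0 (tn_of_St (by omega) h)
  obtain ⟨g, hg, h2, h3⟩ := exists_max hg₀ (h1 w₁ hw₁)
  have h4 : ∀ g ∈ X, ∀ x ∈ St U w₁, x ≠ 0 → x ∈ (St U w₁).map g.toLinearMap →
      (St U w₁).map g.toLinearMap = St U w₁ := by
    intro g' hg' x hx hx0 hx'
    by_contra hne
    refine not_max hk hh ha hab hq hn hw₁ hg h2 h3 (lt_of_lt_of_le ?_ (h3 g' hg' hne))
    exact finrank_pos_iff_exists_ne_zero.mpr ⟨⟨x, hx, hx'⟩, fun e => hx0 (congrArg Subtype.val e)⟩
  have h5 : ∀ g ∈ X, ∀ x ∈ (St U w₁).map g₀.toLinearMap, x ≠ 0 → x ∈ (St U w₁).map g.toLinearMap →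
      (St U w₁).map g₀.toLinearMap = (St U w₁).map g.toLinearMap := by
    rintro g' hg' _ ⟨x, hx, rfl⟩ hx0 ⟨x', hx', e⟩
    have h6 := h4 (g₀⁻¹ * g') (X.mul_mem (X.inv_mem hg₀) hg') x hx (by simpa using hx0)
      ⟨x', hx', g₀.symm_apply_eq.mpr e⟩
    conv_lhs => rw [← h6, ← Submodule.map_comp]
    congr 1
    ext1 x
    exact g₀.apply_symm_apply _
  refine not_spread hk hh ha hab hq (A := (St U w₁).map g₀.toLinearMap)
    (by rw [LinearEquiv.finrank_map_eq, finrank_St hw₁]) (fun w u h => ?_)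
    fun t ht x hx hx0 h x' hx' => ?_
  · by_contra hne
    have hw : w ≠ 0 := fun e => hne (by simp [e])
    obtain ⟨k, hk', e⟩ := exists_map_St hk hw₁ hw
    exact h1 w hw ((h5 k hk' _ h hne (e ▸ smulRight_mem_St w u)).trans e)
  · obtain ⟨x, hx₁, rfl⟩ := hx
    obtain ⟨x', hx₂, rfl⟩ := hx'
    rw [h5 (t * g₀) (X.mul_mem ht hg₀) _ ⟨x, hx₁, rfl⟩ hx0 ⟨x, hx₁, h⟩]
    exact ⟨x', hx₂, rfl⟩

end Cfsg.Agent.H3.Ten
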