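import Mathlib
import Cfsg.Agent.H3.TensorSL2
import Cfsg.Agent.H5.SLProper

/-!
Maximality of the stabilisers of tensor decompositions with factors of different dimensions in
the special linear group.
-/

set_option autoImplicit false
set_option linter.unusedSectionVars false

namespace Cfsg.Agent.H3.Ten

open Module Cfsg.Agent.H7 Cfsg.Agent.Asch Matrix

section

variable {F V : Type*} [Field F] [AddCommGroup V] [Module F V] [FiniteDimensional F V]

theorem exists_unip {y : V →ₗ[F] V} (hy : ∀ x, y (y x) = 0) :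
    ∃ t ∈ SLV F V, ∀ x, t x = x + y x := by
  refine ⟨LinearEquiv.ofLinearMap (LinearMap.id + y) (LinearMap.id - y) (by ext; simp [hy])
    (by ext; simp [hy]), mem_SLV.mpr ?_, fun _ => rfl⟩
  have h : IsNilpotent (-y) := ⟨2, by ext; simp [pow_two, hy]⟩
  have h1 := LinearMap.eval_charpoly (-y) 1
  rw [h.charpoly_eq_X_pow_finrank] at h1
  rw [map_one, sub_neg_eq_add] at h1
  exact h1.symm.trans (by simp)

end

variable {ι : Type} [Fintype ι] [DecidableEq ι] {F : Type*} [Field F] {a b : ℕ}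

/-- The identification of the space of linear maps with the space of column vectors. -/
noncomputable def vecE (e : ι ≃ Fin a × Fin b) (P : GL ι F) :
    ((Fin b → F) →ₗ[F] (Fin a → F)) ≃ₗ[F] (ι → F) :=
  LinearMap.toMatrix'.trans ((Matrix.ofLinearEquiv F).symm.trans
    ((LinearEquiv.curry F F (Fin a) (Fin b)).symm.trans
      ((LinearEquiv.funCongrLeft F F e).trans (toLE P))))

theorem vecE_apply (e : ι ≃ Fin a × Fin b) (P : GL ι F) (x : (Fin b → F) →ₗ[F] (Fin a → F)) :
    vecE e P x = trv e P fun p => LinearMap.toMatrix' x p.1 p.2 := rfl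

theorem lk_mulVec (e : ι ≃ Fin a × Fin b) (P : GL ι F) (z : Matrix (Fin a) (Fin a) F)
    (x : (Fin b → F) →ₗ[F] (Fin a → F)) :
    tr e P (lk (Fin b) z) *ᵥ vecE e P x = vecE e P (Matrix.toLin' z ∘ₗ x) := by
  rw [vecE_apply, vecE_apply, tr_mulVec, LinearMap.toMatrix'_comp, LinearMap.toMatrix'_toLin']
  congr 1
  ext ⟨i, j⟩
  simp [lk_apply, Matrix.mulVec, dotProduct, Fintype.sum_prod_type, Matrix.mul_apply,
    Matrix.one_apply]

/-- Invertible matrices as automorphisms of the space of linear maps. -/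
noncomputable def tenE (e : ι ≃ Fin a × Fin b) (P : GL ι F) : GL ι F ≃*
    (((Fin b → F) →ₗ[F] (Fin a → F)) ≃ₗ[F] ((Fin b → F) →ₗ[F] (Fin a → F))) :=
  toLE.trans
    { toFun := fun g => ((vecE e P).trans g).trans (vecE e P).symm
      invFun := fun g => ((vecE e P).symm.trans g).trans (vecE e P)
      left_inv := fun g => by ext1; simp
      right_inv := fun g => by ext1; simp
      map_mul' := fun g h => by ext1; simp }

theorem vecE_tenE (e : ι ≃ Fin a × Fin b) (P g : GL ι F) (x : (Fin b → F) →ₗ[F] (Fin a → F)) :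
    vecE e P (tenE e P g x) = (g : Matrix ι ι F) *ᵥ vecE e P x :=
  (vecE e P).apply_symm_apply _

theorem mem_SL_iff (e : ι ≃ Fin a × Fin b) (P g : GL ι F) :
    g ∈ Geo.specialLinear ι F ↔ tenE e P g ∈ SLV F _ := by
  rw [mem_specialLinear_iff, mem_SLV, mem_SLV, ← LinearMap.det_conj _ (vecE e P).symm]
  rfl

theorem mem_of_TN (ha : 0 < a) (hb : 0 < b) (e : ι ≃ Fin a × Fin b) (P : GL ι F) {g : GL ι F}
    (h : TN (tenE e P g)) : g ∈ Geo.tensorProductSubgroup a b e P := by
  refine mem_tensorProductSubgroup_of_norm ha hb e P g fun z => ?_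
  obtain ⟨z', hz'⟩ := h (Matrix.toLin' z)
  refine ⟨LinearMap.toMatrix' z', Matrix.ext_iff_mulVec.mpr fun v => ?_⟩
  obtain ⟨v, rfl⟩ := (toLE g).surjective v
  obtain ⟨x, rfl⟩ := (vecE e P).surjective v
  rw [toLE_apply, cj_mulVec, lk_mulVec, ← vecE_tenE, ← vecE_tenE, lk_mulVec, hz',
    Matrix.toLin'_toMatrix']

/-- Overgroups of the tensor product stabiliser in the special linear group. -/
theorem SL_le_of_tensor (ha : 2 ≤ a) (hab : a < b) (hq : 3 ≤ a ∨ ∃ t : F, t ≠ 0 ∧ t ≠ 1)
    (e : ι ≃ Fin a × Fin b) (P : GL ι F) {X : Subgroup (GL ι F)}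
    (hX : Geo.tensorProductSubgroup a b e P ⊓ Geo.specialLinear ι F ≤ X) {g : GL ι F} (hg : g ∈ X)
    (hgN : g ∉ Geo.tensorProductSubgroup a b e P) : Geo.specialLinear ι F ≤ X := by
  have key : ∀ y : ((Fin b → F) →ₗ[F] (Fin a → F)) →ₗ[F] ((Fin b → F) →ₗ[F] (Fin a → F)),
      (∀ x, y (y x) = 0) → (∀ t : _ ≃ₗ[F] _, (∀ x, t x = x + y x) → TN t) →
      Has (X.map (tenE e P).toMonoidHom) fun x => x + y x := by
    intro y h1 h2
    obtain ⟨t, ht, ht'⟩ := exists_unip h1
    obtain ⟨t, rfl⟩ := (tenE e P).surjective t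
    exact ⟨_, ⟨t, hX ⟨mem_of_TN (by omega) (by omega) e P (h2 _ ht'), (mem_SL_iff e P t).mpr ht⟩,
      rfl⟩, ht'⟩
  intro k hk
  obtain ⟨k', hk', h⟩ := SLV_le_of_not_TN (X := X.map (tenE e P).toMonoidHom)
    (fun w φ h => key (yz w LinearMap.id φ) (fun x => by ext1; simp [h]) fun t ht z => ⟨z, fun x => by
      rw [ht, ht]; refine LinearMap.ext fun p => ?_; simp⟩)
    (fun ψ u h => (key (LinearMap.llcomp F _ _ _ (ψ.smulRight u))
      (fun x => LinearMap.ext fun p => by simp [h]) fun t ht z =>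
        ⟨(LinearMap.id + ψ.smulRight u) ∘ₗ z ∘ₗ (LinearMap.id - ψ.smulRight u), fun x => by
          rw [ht, ht]; refine LinearMap.ext fun p => ?_; simp [h]⟩).congr fun x => rfl)
    (by simpa using ha) (by simpa using hab) (by simpa using hq) (g₀ := tenE e P g) ⟨g, hg, rfl⟩
    (fun h => hgN (mem_of_TN (by omega) (by omega) e P h)) ((mem_SL_iff e P k).mp hk)
  exact (tenE e P).injective h ▸ hk'

theorem exists_ne_zero_one [Fintype F] (h : Fintype.card F ≠ 2) : ∃ t : F, t ≠ 0 ∧ t ≠ 1 := by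
  classical
  by_contra hc
  push Not at hc
  refine h (le_antisymm ?_ Fintype.one_lt_card)
  rw [← Finset.card_univ, ← Finset.card_pair (zero_ne_one (α := F))]
  exact Finset.card_le_card fun t _ => by
    by_cases h0 : t = 0
    · simp [h0]
    · simp [hc t h0]

/-- The stabiliser of a tensor decomposition with factors of different dimensions is maximal in
the special linear group. -/
theorem tensor_maximal [Fintype F] (ha : 2 ≤ a) (hab : a < b) (hex : ¬ (a = 2 ∧ Fintype.card F = 2))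
    (e : ι ≃ Fin a × Fin b) (P : GL ι F) :
    Geo.IsMaximalIn (Geo.specialLinear ι F)
      (Geo.tensorProductSubgroup a b e P ⊓ Geo.specialLinear ι F) := by
  obtain ⟨g₀, h1, h2⟩ := SetLike.not_le_iff_exists.mp
    (H5.SL.not_le_tensorProductSubgroup ha (by omega) e P)
  refine isMaximalIn_of inf_le_right ⟨g₀, h1, fun h => h2 h.1⟩ fun X hX hX' g hg hgN =>
    SL_le_of_tensor ha hab ?_ e P hX hg fun h => hgN ⟨h, hX' hg⟩
  by_cases h : a = 2
  · exact Or.inr (exists_ne_zero_one fun h' => hex ⟨h, h'⟩)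
  · exact Or.inl (by omega)

end Cfsg.Agent.H3.Ten
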