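import Mathlib
import Cfsg.Agent.H3.ExtSp
import Cfsg.Agent.H3.ExtMat
import Cfsg.Agent.H3.TensorMat
import Cfsg.Agent.H7.Inst

/-!
Maximality of the extension-field subgroups of prime degree in the symplectic groups.
-/

set_option autoImplicit false
set_option linter.unusedSectionVars false

namespace Cfsg.Agent.H3.Ext

open Module Cfsg.Agent.H7 Matrix

theorem el_of_tv {F V : Type*} [Field F] [AddCommGroup V] [Module F V] {X : Subgroup (V ≃ₗ[F] V)}
    {B : V →ₗ[F] V →ₗ[F] F} (hB : ∀ x, B x x = 0) (h : ∀ u c, El X B u 0 c) {u w : V}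
    (hw : B w u = 0) (c : F) : El X B u w c :=
  (Has.comp (h (u + w) 1) (Has.comp (h u (c - 1)) (h w (-1)))).congr fun x => by
    simp only [map_add, map_smul, LinearMap.add_apply, LinearMap.smul_apply, smul_eq_mul, hB, hw,
      skew hB u w, map_zero, smul_zero, zero_smul, add_zero]
    module

section

variable {F K V : Type*} [Field F] [Field K] [Algebra F K] [AddCommGroup V] [Module F V]
  [Module K V] [IsScalarTower F K V]

theorem eq_zero_of_dual {θ : K →ₗ[F] F} (hθ : θ ≠ 0) {a : K} (h : ∀ k, θ (k * a) = 0) : a = 0 := by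
  by_contra h0
  obtain ⟨k, hk⟩ := DFunLike.ne_iff.mp hθ
  exact hk (by simpa [h0] using h (k / a))

theorem exists_formK [FiniteDimensional F K] [FiniteDimensional K V] {θ : K →ₗ[F] F} (hθ : θ ≠ 0)
    {B : V →ₗ[F] V →ₗ[F] F} (hB : ∀ (k : K) x y, B (k • x) y = B x (k • y)) :
    ∃ h : V →ₗ[K] V →ₗ[K] K, ∀ x y, B x y = θ (h x y) := by
  choose ψ hψ using fun x => exists_dualK (V := V) hθ (B x)
  have key : ∀ φ φ' : Dual K V, (∀ y, θ (φ y) = θ (φ' y)) → φ = φ' := fun φ φ' h =>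
    LinearMap.ext fun y => sub_eq_zero.mp (eq_zero_of_dual hθ fun k => by
      have := h (k • y)
      simp only [map_smul, smul_eq_mul] at this
      rw [mul_sub, map_sub, this, sub_self])
  refine ⟨⟨⟨ψ, fun x x' => key _ _ fun y => by simp [hψ]⟩, fun k x => key _ _ fun y => ?_⟩,
    fun x y => (hψ x y).symm⟩
  rw [hψ, hB, ← hψ]
  simp

theorem exists_iso_not_semi (hr : 2 ≤ finrank F K) [Nontrivial V] {B : V →ₗ[F] V →ₗ[F] F}
    {h : V →ₗ[K] V →ₗ[K] K} {θ : K →ₗ[F] F} (hh : ∀ x, h x x = 0)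
    (hnd : ∀ y, (∀ x, h x y = 0) → y = 0) (hθ : θ ≠ 0) (hB : ∀ x y, B x y = θ (h x y)) :
    ∃ g ∈ IsoB B, ¬ Semi K g := by
  have : FiniteDimensional F K := Module.finite_of_finrank_pos (by omega)
  obtain ⟨v, hv⟩ := exists_ne (0 : V)
  obtain ⟨w, hw⟩ : ∃ w, h w v ≠ 0 := by
    by_contra hc
    push Not at hc
    exact hv (hnd v hc)
  obtain ⟨k₀, hk₀, hk₀'⟩ := exists_notMem_of_finrank_lt (U := ⊥) (W := ⊤ ⊓ LinearMap.ker θ) (by
    have := finrank_inf_ker_ge ⊤ θ
    rw [finrank_top] at this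
    rw [finrank_bot]; omega)
  rw [Submodule.mem_bot] at hk₀'
  obtain ⟨k₁, hk₁⟩ := DFunLike.ne_iff.mp hθ
  obtain ⟨t, ht, ht'⟩ := has_tv (B := B) (fun x => by rw [hB, hh, map_zero]) v 1
  refine ⟨t, ht, fun hs => ?_⟩
  obtain ⟨m, hm⟩ := hs (k₁ / k₀)
  have h1 := congrArg (h · w) (hm ((k₀ / h w v) • w))
  simp [ht', hB, hh, hw, hk₀', show θ k₀ = 0 from hk₀.2, skew hh v w] at h1
  exact hk₁ h1

end

variable {ι : Type} [Fintype ι] [DecidableEq ι] {F : Type*} [Field F]

/-- The normaliser of a field of prime degree over which the symplectic form is defined is maximal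
in the symplectic group. -/
theorem ext_maximal_sp [Fintype F] [Nonempty ι] {f : (ι → F) → (ι → F) → F}
    (hf : Geo.IsSymplecticForm f) {G : Subgroup (GL ι F)}
    (hG : ∀ g, g ∈ G ↔ toLE g ∈ (spPolar hf).Iso) {r : ℕ} (hr : r.Prime)
    (hex : ¬ (Fintype.card F = 2 ∧ Fintype.card ι = 4)) {K : Subalgebra F (Matrix ι ι F)}
    (hK : Geo.IsFieldSubalgebra r K) (hsa : Geo.IsSelfAdjointFor f K)
    (halt : ∀ k ∈ K, ∀ v, f (k *ᵥ v) v = 0) :
    Geo.IsMaximalIn G (Geo.subalgebraNormalizer K ⊓ G) := by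
  let _ : Field K := (Asch.isField_of_inv hK.comm hK.inv).toField
  have hr' : (finrank F K).Prime := hK.finrank_eq ▸ hr
  have hfin := finrank_mul_finrank F K (ι → F)
  rw [finrank_fintype_fun_eq_card] at hfin
  have h0 : 0 < finrank K (ι → F) := Nat.pos_of_ne_zero fun e => by
    rw [e, mul_zero] at hfin
    exact Fintype.card_ne_zero hfin.symm
  have : FiniteDimensional K (ι → F) := Module.finite_of_finrank_pos h0
  obtain ⟨θ, hθ1⟩ := exists_dual_one' (F := F) (one_ne_zero (α := K))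
  have hθ : θ ≠ 0 := fun e => by simp [e] at hθ1
  obtain ⟨h, hB⟩ := exists_formK (B := bilinOf hf.bilinear) hθ fun k x y => hsa k k.2 x y
  have hh : ∀ x, h x x = 0 := fun x => eq_zero_of_dual hθ fun k => by
    have := hB (k • x) x
    rw [h.map_smul, LinearMap.smul_apply, smul_eq_mul] at this
    exact this.symm.trans (halt k k.2 x)
  have hnd : ∀ y, (∀ x, h x y = 0) → y = 0 := fun y hy =>
    (spPolar hf).nondeg y fun x => (hB x y).trans (by rw [hy, map_zero])
  have hm : 2 ≤ finrank K (ι → F) := by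
    by_contra h2
    obtain ⟨v, hv, hv'⟩ := finrank_eq_one_iff'.mp (by omega : finrank K (ι → F) = 1)
    refine hv (hnd v fun x => ?_)
    obtain ⟨k, rfl⟩ := hv' x
    simp [hh]
  have hG' : ∀ g, g ∈ G ↔ toLE g ∈ IsoB (bilinOf hf.bilinear) := fun g =>
    (hG g).trans (mem_spPolar_Iso hf)
  obtain ⟨g₀, hg₀, hg₀'⟩ := exists_iso_not_semi hr'.two_le hh hnd hθ hB
  obtain ⟨g₀, rfl⟩ := toLE.surjective g₀
  refine isMaximalIn_of inf_le_right ⟨g₀, (hG' g₀).mpr hg₀, fun h =>
    hg₀' ((mem_normalizer_iff g₀).mp h.1)⟩ fun X hX hX' g hg hgN k hk => ?_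
  have key := el_of_not_semi (X := X.map toLE.toMonoidHom) hh hnd hθ hB
    (fun g hg => by
      obtain ⟨g', hg'⟩ := toLE.surjective (g.restrictScalars F)
      exact ⟨g', hX ⟨(mem_normalizer_iff g').mpr fun l => ⟨l, fun x => by
        rw [hg']; exact g.map_smul l x⟩, (hG' g').mpr (hg' ▸ iso_of_K hB hg)⟩, hg'⟩)
    hr' hm (by
      by_cases h2 : Fintype.card F = 2
      · right
        have := hr'.two_le
        by_contra h3
        refine hex ⟨h2, ?_⟩
        rw [← hfin, show finrank F K = 2 by omega, show finrank K (ι → F) = 2 by omega]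
      · exact Or.inl (Ten.exists_ne_zero_one h2))
    (by rintro _ ⟨g, hg, rfl⟩; exact (hG' g).mp (hX' hg)) (g₀ := toLE g) ⟨g, hg, rfl⟩
    fun h => hgN ⟨(mem_normalizer_iff g).mpr h, hX' hg⟩
  obtain ⟨k', hk', e⟩ := Polar.E_le_of_EI (X := X.map toLE.toMonoidHom) (fun u w c _ hw _ =>
    Has.congr (el_of_tv hf.alternating key hw (-c)) fun x => by
      simp only [Polar.eich, spPolar_σ, spPolar_ε, spPolar_B, bilinOf_apply]; module)
    (spPolar_E hf ▸ (hG k).mp hk)
  exact toLE.injective e ▸ hk'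

end Cfsg.Agent.H3.Ext
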