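import Cfsg.Agent.H3.ExtU0

/-!
Extension-field subgroups of unitary groups: the case in which the stabiliser of an isotropic
line over the extension field does not act semilinearly on it.
-/

set_option autoImplicit false
set_option linter.unusedSectionVars false
set_option linter.unusedSimpArgs false

namespace Cfsg.Agent.H3.ExtU

open Module Cfsg.Agent.H7 Cfsg.Agent.H3.Ext Cfsg.Agent.H1.OExt

section unitary

variable {K V : Type*} [Field K] [AddCommGroup V] [Module K V] [FiniteDimensional K V]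
  {Q : Polar K V} (hτ : ∃ a, Q.σ a ≠ a) (hε : Q.ε = 1)
include hτ hε

theorem exists_refl {y : V} (hy : Q.B y y ≠ 0) {ν : K} (hν : ν * Q.σ ν = 1) :
    ∃ g ∈ Q.Iso, LinearMap.det g.toLinearMap = ν ∧
      ∀ x, g x = x + ((ν - 1) * Q.B x y / Q.B y y) • y := by
  by_cases h1 : ν = 1
  · exact ⟨1, Q.Iso.one_mem, by rw [h1]; exact LinearMap.det_id, fun x => by simp [h1]⟩
  have h0 : ν ≠ 0 := fun e => by simp [e] at hν
  have h2 : 1 - ν ≠ 0 := sub_ne_zero.2 (Ne.symm h1)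
  have h3 : ν - 1 ≠ 0 := sub_ne_zero.2 h1
  have h4 : Q.σ (Q.B y y / (1 - ν)) = -(ν * Q.B y y / (1 - ν)) := by
    rw [map_div₀, Polar.σ_B_self hε, map_sub, map_one, eq_inv_of_mul_eq_one_right hν,
      show 1 - ν⁻¹ = (ν - 1) / ν by field_simp]
    field_simp
    ring
  have hc : Q.Val y (Q.B y y / (1 - ν)) := by
    rw [Polar.val_iff_of_unitary hτ hε, h4]
    field_simp
    ring
  refine ⟨Polar.reflE hc (div_ne_zero hy h2), Polar.reflE_mem_Iso _ _, ?_, fun x => ?_⟩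
  · refine (Polar.det_reflE hc (div_ne_zero hy h2)).trans ?_
    rw [h4, hε]
    field_simp
  · rw [Polar.reflE_apply, Polar.refl, sub_eq_add_neg, ← neg_smul]
    congr 2
    field_simp
    ring

omit hτ hε in
theorem exists_partner [Finite K] {u : V} (hu : Q.Val u 0) (h0 : u ≠ 0) :
    ∃ f, Q.Val f 0 ∧ Q.B u f = 1 := by
  obtain ⟨f, -, h1, h2⟩ := Polar.exists_hyperbolic (U := ⊥) hu (by simpa using h0)
    (by simp [Polar.perp_bot]) 1 one_ne_zero
  exact ⟨f, h1, h2⟩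

theorem exists_torus [Finite K] {u : V} (hu : Q.Val u 0) (h0 : u ≠ 0) {μ : K} (hμ : μ ≠ 0) :
    ∃ g ∈ Q.Iso, LinearMap.det g.toLinearMap = μ / Q.σ μ ∧ g u = μ • u := by
  obtain ⟨f, hf, huf⟩ := exists_partner hu h0
  have hfu : Q.B f u = 1 := by rw [Q.herm, huf, hε]; simp
  have huu := Polar.sing_B hu
  have hff := Polar.sing_B hf
  have hσ : Q.σ μ ≠ 0 := by simpa using hμ
  let L : V →ₗ[K] V := LinearMap.transvection (Q.B.flip f) ((μ - 1) • u) ∘ₗ
    LinearMap.transvection (Q.B.flip u) (((Q.σ μ)⁻¹ - 1) • f)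
  have hL : ∀ x, L x = x + Q.B x u • ((Q.σ μ)⁻¹ - 1) • f + Q.B x f • (μ - 1) • u := fun x => by
    simp [L, LinearMap.transvection.apply, hff]
  have hB : ∀ x y, Q.B (L x) (L y) = Q.B x y := fun x y => by
    simp only [hL, map_add, map_smul, LinearMap.add_apply, LinearMap.smul_apply, Polar.B_smul_right,
      smul_eq_mul, huu, hff, huf, hfu, map_sub, map_inv₀, Polar.σσ, map_one, Q.herm y u,
      Q.herm y f, hε]
    field_simp
    ring
  have hinj : Function.Injective L := (injective_iff_map_eq_zero L).2 fun x hx =>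
    Q.nondeg' fun y => by rw [← hB, hx]; simp
  refine ⟨LinearEquiv.ofInjectiveEndo L hinj, Polar.mem_Iso_of_unitary hτ hε hB, ?_, ?_⟩
  · change LinearMap.det L = _
    simp only [L, LinearMap.det_comp, LinearMap.transvection.det, LinearMap.flip_apply, map_smul,
      LinearMap.smul_apply, huf, hfu, smul_eq_mul]
    field_simp
    ring
  · change L u = _
    rw [hL, huu, huf]
    module

end unitary

variable {F K V : Type*} [Field F] [Field K] [Algebra F K] [AddCommGroup V] [Module F V]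
  [Module K V] [IsScalarTower F K V]

/-- The standing hypotheses. -/
structure USetup (P : Polar F V) (Q : Polar K V) (θ : K →ₗ[F] F)
    (X : Subgroup (V ≃ₗ[F] V)) : Prop where
  εP : P.ε = 1
  εQ : Q.ε = 1
  σne : ∃ a, P.σ a ≠ a
  alg : ∀ c, Q.σ (algebraMap F K c) = algebraMap F K (P.σ c)
  θne : θ ≠ 0
  B : ∀ x y, P.B x y = θ (Q.B x y)
  iso : X ≤ P.Iso
  mem : ∀ g ∈ Q.Iso, Algebra.norm F (LinearMap.det g.toLinearMap) = 1 → g.restrictScalars F ∈ X
  prime : (finrank F K).Prime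
  three : 3 ≤ finrank F K
  two : 2 ≤ finrank K V
  nu : 3 ≤ finrank K V ∨
    ∃ ν : K, ν * Q.σ ν = 1 ∧ Algebra.norm F ν = 1 ∧ ν ∉ (algebraMap F K).range

/-- `x ↦ x + f x • u` is an element of `X` in the centre of the unipotent radical of the
stabiliser of the line `K u`. -/
structure Zk (Q : Polar K V) (X : Subgroup (V ≃ₗ[F] V)) (u : V) (f : V →ₗ[F] K) : Prop where
  has : Has X fun x => x + f x • u
  zero : ∀ z, Q.B z u = 0 → f z = 0

/-- A torus element. -/
def Tor (Q : Polar K V) (X : Subgroup (V ≃ₗ[F] V)) (u : V) (μ : K) : Prop :=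
  ∃ g ∈ Q.Iso, g.restrictScalars F ∈ X ∧ g u = μ • u

/-- The map `x ↦ s * f (t • x)`. -/
def tw (f : V →ₗ[F] K) : K →ₗ[F] K →ₗ[F] V →ₗ[F] K :=
  LinearMap.mk₂ F
    (fun s t => LinearMap.mulLeft F s ∘ₗ f ∘ₗ (LinearMap.lsmul K V t).restrictScalars F)
    (fun _ _ _ => by ext; simp [add_mul]) (fun _ _ _ => by ext; simp)
    (fun _ _ _ => by ext; simp [add_smul, mul_add]) (fun _ _ _ => by ext; simp [smul_assoc])

@[simp] theorem tw_apply (f : V →ₗ[F] K) (s t : K) (x : V) : tw f s t x = s * f (t • x) := rfl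

namespace Zk

variable {Q : Polar K V} {X : Subgroup (V ≃ₗ[F] V)} {u : V} {f f' : V →ₗ[F] K}

theorem zero' (u : V) : Zk Q X u 0 := ⟨Has.id.congr fun x => by simp, fun _ _ => rfl⟩

theorem add (h : Zk Q X u f) (h' : Zk Q X u f') (hu : Q.B u u = 0) : Zk Q X u (f + f') :=
  ⟨(h.has.comp h'.has).congr fun x => by
    rw [map_add, h.zero (f' x • u) (by simp [hu]), LinearMap.add_apply]; module,
    fun z hz => by simp [h.zero z hz, h'.zero z hz]⟩

theorem neg (h : Zk Q X u f) (hu : Q.B u u = 0) : Zk Q X u (-f) :=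
  ⟨h.has.inv fun x => by rw [map_add, h.zero (_ • u) (by simp [hu])]; simp,
    fun z hz => by simp [h.zero z hz]⟩

theorem sub (h : Zk Q X u f) (h' : Zk Q X u f') (hu : Q.B u u = 0) : Zk Q X u (f - f') := by
  rw [sub_eq_add_neg]; exact h.add (h'.neg hu) hu

theorem conj (h : Zk Q X u f) {x : V ≃ₗ[F] V} (hx : x ∈ X) {ξ : K →ₗ[F] K}
    (hξ : ∀ k, x (k • u) = ξ k • u) (hp : ∀ z, Q.B (x z) u = 0 → Q.B z u = 0) :
    Zk Q X u (ξ ∘ₗ f ∘ₗ x.symm.toLinearMap) :=
  ⟨h.has.conj hx fun z => by simp [hξ], fun z hz => by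
    obtain ⟨z, rfl⟩ := x.surjective z
    simp [h.zero z (hp z hz)]⟩

theorem tor (h : Zk Q X u f) {μ : K} (ht : Tor Q X u μ) :
    Zk Q X u (tw f μ (Q.σ μ)) := by
  obtain ⟨g, hg, hgX, hgu⟩ := ht
  have h1 : ∀ z, Q.B (g.symm z) u = Q.σ μ * Q.B z u := fun z => by
    rw [← Polar.Iso.B hg, g.apply_symm_apply, hgu, Polar.B_smul_right]
  convert h.conj hgX (ξ := LinearMap.mulLeft F μ)
    (fun k => by simp [hgu, smul_smul, mul_comm]) fun z hz => by
      have := h1 (g z)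
      rwa [g.symm_apply_apply, show Q.B (g z) u = 0 from hz, mul_zero] at this
  ext z
  have := h.zero (Q.σ μ • z - g.symm z) (by simp [h1])
  rw [map_sub, sub_eq_zero] at this
  rw [tw_apply, this]
  rfl

end Zk

/-- All Eichler transformations with both parameters in `K u` lie in `X`. -/
def FullZ (K : Type*) [Field K] [Algebra F K] [Module K V] [IsScalarTower F K V] (P : Polar F V)
    (X : Subgroup (V ≃ₗ[F] V)) (u : V) : Prop :=
  ∀ a ∈ ln F K u, ∀ w ∈ ln F K u, ∀ c, P.Val w c → P.EI X a w c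

namespace USetup

variable {P : Polar F V} {Q : Polar K V} {θ : K →ₗ[F] F} {X : Subgroup (V ≃ₗ[F] V)}
  (S : USetup P Q θ X)
include S

theorem finK : FiniteDimensional F K := Module.finite_of_finrank_pos S.prime.pos

theorem exists_c : ∃ c : F, P.σ c ≠ c ∧ Q.σ (algebraMap F K c) ≠ algebraMap F K c := by
  obtain ⟨c, hc⟩ := S.σne
  exact ⟨c, hc, by rw [S.alg]; simpa using hc⟩

theorem τne : ∃ a, Q.σ a ≠ a := by
  obtain ⟨c, -, hc⟩ := S.exists_c
  exact ⟨_, hc⟩

theorem eq_zero_of_θ {a : K} (h : ∀ k, θ (k * a) = 0) : a = 0 := by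
  by_contra h0
  apply S.θne
  ext k
  simpa [h0] using h (k / a)

theorem B_smul (x y : V) (k : K) : P.B (k • x) y = θ (k * Q.B x y) := by simp [S.B]

theorem mem_perp_ln {u z : V} : z ∈ P.perp (ln F K u) ↔ Q.B z u = 0 := by
  constructor
  · intro h
    exact Q.B_symm (S.eq_zero_of_θ fun k => by
      rw [← S.B_smul]; exact P.B_symm (h _ (smul_mem_ln k u)))
  · intro h a ha
    obtain ⟨k, rfl⟩ := mem_ln.1 ha
    simp [S.B, h]

theorem B_ln {u a b : V} (hu : Q.Val u 0) (ha : a ∈ ln F K u) (hb : b ∈ ln F K u) :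
    P.B a b = 0 := by
  obtain ⟨k, rfl⟩ := mem_ln.1 ha
  exact S.mem_perp_ln.2 (by simp [Polar.sing_B hu]) b hb

theorem singF {u a : V} (hu : Q.Val u 0) (ha : a ∈ ln F K u) : P.Val a 0 :=
  (Polar.sing_iff_of_unitary S.σne S.εP).2 (S.B_ln hu ha ha)

theorem exists_fixed : ∃ a : K, Q.σ a = a ∧ a ∉ (algebraMap F K).range := by
  have := S.finK
  obtain ⟨k, -, hk⟩ := exists_notMem_of_finrank_lt (U := F ∙ (1 : K)) (W := ⊤) (by
    have := finrank_span_singleton_le (F := F) (1 : K)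
    have := S.three
    rw [finrank_top]; omega)
  obtain ⟨c, -, hc⟩ := S.exists_c
  obtain ⟨a, b, ha, hb, rfl⟩ := exists_decomp_fixed Q.σσ hc k
  by_contra! hcon
  obtain ⟨a, rfl⟩ := hcon a ha
  obtain ⟨b, rfl⟩ := hcon b hb
  exact hk (Submodule.mem_span_singleton.2 ⟨a + c * b, by simp [Algebra.smul_def]⟩)

variable [Finite K] [FiniteDimensional K V]

theorem finF : Finite F := Finite.of_injective _ (algebraMap F K).injective

theorem finV : FiniteDimensional F V := by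
  have := S.finK
  exact Module.Finite.trans K V

theorem eich_mem {u w : V} {c : K} (hu : Q.Val u 0) (hw : Q.B w u = 0) (hc : Q.Val w c) :
    (Polar.eichE hu hw hc).restrictScalars F ∈ X :=
  S.mem _ (Polar.eichE_mem_Iso hu hw hc) (by rw [Polar.det_eichE, map_one])

theorem zk_tv {u : V} (hu : Q.Val u 0) {l : K} (hl : Q.σ l = -l) :
    Zk Q X u ((l • Q.B.flip u).restrictScalars F) :=
  ⟨⟨_, S.eich_mem (w := 0) (c := l) hu (by simp)
    ((Polar.val_iff_of_unitary S.τne S.εQ).2 (by simp [hl])), fun x => by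
      simp [Polar.eich, hl]⟩, fun z hz => by simp [hz]⟩

theorem tor_of_norm {u : V} (hu : Q.Val u 0) (h0 : u ≠ 0) {μ : K} (hμ : μ ≠ 0)
    (h : Algebra.norm F (μ / Q.σ μ) = 1) : Tor Q X u μ := by
  obtain ⟨g, hg, h1, h2⟩ := exists_torus S.τne S.εQ hu h0 hμ
  exact ⟨g, hg, S.mem g hg (h1 ▸ h), h2⟩

theorem tor_fixed {u : V} (hu : Q.Val u 0) (h0 : u ≠ 0) {a : K} (ha0 : a ≠ 0) (ha : Q.σ a = a) :
    Tor Q X u a :=
  S.tor_of_norm hu h0 ha0 (by rw [ha, div_self ha0, map_one])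

theorem tor_of_three (hm : 3 ≤ finrank K V) {u : V} (hu : Q.Val u 0) (h0 : u ≠ 0) {μ : K}
    (hμ : μ ≠ 0) : Tor Q X u μ := by
  obtain ⟨g, hg, h1, h2⟩ := exists_torus S.τne S.εQ hu h0 hμ
  obtain ⟨y, hy, hyy⟩ : ∃ y ∈ Q.perp (K ∙ u), Q.B y y ≠ 0 := by
    by_contra! hcon
    have h3 : Q.perp (K ∙ u) ≤ K ∙ u := fun z hz => Polar.perp_perp (P := Q) (K ∙ u) ▸
      fun w hw => Polar.B_eq_zero_of_forall_isotropic S.τne hcon hz hw
    have := Submodule.finrank_mono h3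
    have := Q.finrank_perp (K ∙ u)
    have := finrank_span_singleton_le (F := K) u
    omega
  have hσ : Q.σ μ ≠ 0 := by simpa using hμ
  obtain ⟨t, ht, h3, h4⟩ := exists_refl S.τne S.εQ hyy (ν := Q.σ μ / μ) (by
    rw [map_div₀, Polar.σσ]; field_simp)
  refine ⟨t * g, Q.Iso.mul_mem ht hg, S.mem _ (Q.Iso.mul_mem ht hg) ?_, ?_⟩
  · rw [LinearEquiv.coe_toLinearMap_mul, map_mul, h1, h3, div_mul_div_comm, mul_comm μ, div_self,
      map_one]
    simp [hμ]
  · rw [LinearEquiv.mul_apply, h2, h4]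
    simp [Q.B_symm (hy u (Submodule.mem_span_singleton_self u))]

theorem exists_tor {u : V} (hu : Q.Val u 0) (h0 : u ≠ 0) : ∃ μ : K, μ ≠ 0 ∧
    μ / Q.σ μ ∉ (algebraMap F K).range ∧ ∀ a, a ≠ 0 → Q.σ a = a → Tor Q X u (μ * a) := by
  rcases S.nu with h | ⟨ν, h1, h2, h3⟩
  · obtain ⟨a, ha, ha'⟩ := S.exists_fixed
    obtain ⟨c, hc, -⟩ := S.exists_c
    have h1 : ∀ c : F, a + algebraMap F K c ≠ 0 := fun c e =>
      ha' ⟨-c, by rw [map_neg]; linear_combination -e⟩
    refine ⟨a + algebraMap F K c, h1 c, ?_,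
      fun b hb _ => S.tor_of_three h hu h0 (mul_ne_zero (h1 c) hb)⟩
    rintro ⟨d, hd⟩
    rw [map_add, ha, S.alg, eq_div_iff (h1 _)] at hd
    by_cases h2 : d = 1
    · rw [h2, map_one, one_mul, add_right_inj] at hd
      exact hc ((algebraMap F K).injective hd)
    · refine ha' ⟨(c - d * P.σ c) / (d - 1), ?_⟩
      have : algebraMap F K d - 1 ≠ 0 := sub_ne_zero.2 (by simpa using h2)
      simp only [map_div₀, map_sub, map_mul, map_one]
      field_simp
      linear_combination -hd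
  · obtain ⟨μ, hμ, hμ'⟩ := exists_div_conj Q.σ Q.σσ S.τne h1
    have h4 : μ / Q.σ μ = ν := by rw [div_eq_iff (by simpa using hμ)]; exact hμ'
    refine ⟨μ, hμ, h4 ▸ h3, fun a ha ha' => S.tor_of_norm hu h0 (mul_ne_zero hμ ha) ?_⟩
    rw [map_mul, ha', mul_div_mul_right _ _ ha, h4, h2]

theorem zk_sq {u : V} (hu : Q.Val u 0) (h0 : u ≠ 0) {f : V →ₗ[F] K} (h : Zk Q X u f) {a : K}
    (ha : Q.σ a = a) : Zk Q X u (tw f a a) := by
  by_cases ha0 : a = 0
  · simpa [ha0] using Zk.zero' u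
  · simpa [ha] using h.tor (S.tor_fixed hu h0 ha0 ha)

theorem zk_smul {u : V} (hu : Q.Val u 0) (h0 : u ≠ 0) {f : V →ₗ[F] K} (h : Zk Q X u f) {t : F}
    (ht : P.σ t = t) : Zk Q X u (t • f) := by
  have := S.finF
  refine mem_of_sq P.σ (S := fun t => Zk Q X u (t • f))
    (fun a b ha hb => by rw [sub_smul a b f]; exact ha.sub hb (Polar.sing_B hu)) (fun a ha => ?_) ht
  convert S.zk_sq hu h0 h (a := algebraMap F K a) (by rw [S.alg, ha]) using 1
  ext x
  simp [Algebra.smul_def, mul_assoc]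

theorem mul_mem_span {u : V} (hu : Q.Val u 0) (h0 : u ≠ 0) (k : K) {f : V →ₗ[F] K}
    (h : f ∈ Submodule.span F {f | Zk Q X u f}) :
    LinearMap.mulLeft F k ∘ₗ f ∈ Submodule.span F {f | Zk Q X u f} := by
  induction h using Submodule.span_induction with
  | zero => simp
  | add a b _ _ ha hb => rw [LinearMap.comp_add]; exact Submodule.add_mem _ ha hb
  | smul c a _ ha => rw [LinearMap.comp_smul]; exact Submodule.smul_mem _ c ha
  | mem f hf =>
    obtain ⟨μ, hμ, hμ', ht⟩ := S.exists_tor hu h0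
    obtain ⟨c, -, hc⟩ := S.exists_c
    have := bilin_zero S.prime Q.σσ hc hμ hμ'
      ((tw f).compr₂ (Submodule.span F {f | Zk Q X u f}).mkQ)
      (fun a ha => (Submodule.Quotient.mk_eq_zero _).2 (Submodule.subset_span (S.zk_sq hu h0 hf ha)))
      (fun a ha => (Submodule.Quotient.mk_eq_zero _).2 (by
        by_cases ha0 : a = 0
        · simp [ha0]
        · have := Zk.tor hf (ht a ha0 ha)
          rw [map_mul Q.σ, ha] at this
          exact Submodule.subset_span this)) k 1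
    convert (Submodule.Quotient.mk_eq_zero _).1 this using 1
    ext x
    simp

theorem perp_of_map {u : V} {x : V ≃ₗ[F] V} (hx : x ∈ X)
    (hxu : (ln F K u).map (x : V →ₗ[F] V) = ln F K u) (z : V) :
    Q.B (x z) u = 0 ↔ Q.B z u = 0 := by
  rw [← S.mem_perp_ln, ← S.mem_perp_ln]
  exact (Polar.Iso.mem_perp_iff (S.iso hx) (mem_stab_iff_map.2 hxu) z).symm

omit S in
theorem conj_mem_span {u : V} {x : V ≃ₗ[F] V} (hx : x ∈ X) {ξ : K →ₗ[F] K}
    (hξ : ∀ k, x (k • u) = ξ k • u) (hp : ∀ z, Q.B (x z) u = 0 → Q.B z u = 0) {f : V →ₗ[F] K}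
    (h : f ∈ Submodule.span F {f | Zk Q X u f}) :
    ξ ∘ₗ f ∘ₗ x.symm.toLinearMap ∈ Submodule.span F {f | Zk Q X u f} := by
  induction h using Submodule.span_induction with
  | zero => simp
  | add a b _ _ ha hb => rw [LinearMap.add_comp, LinearMap.comp_add]; exact Submodule.add_mem _ ha hb
  | smul c a _ ha => rw [LinearMap.smul_comp, LinearMap.comp_smul]; exact Submodule.smul_mem _ c ha
  | mem f hf => exact Submodule.subset_span (Zk.conj hf hx hξ hp)

theorem comp_mem_span {u : V} (hu : Q.Val u 0) (h0 : u ≠ 0) {x : V ≃ₗ[F] V} (hx : x ∈ X)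
    (hxu : (ln F K u).map (x : V →ₗ[F] V) = ln F K u) {l : K}
    (hl : ¬ ∃ l' : K, ∀ k : K, x ((l * k) • u) = l' • x (k • u)) (a : End F K) {f : V →ₗ[F] K}
    (h : f ∈ Submodule.span F {f | Zk Q X u f}) : a ∘ₗ f ∈ Submodule.span F {f | Zk Q X u f} := by
  have := S.finK
  let A : Subalgebra F (End F K) :=
    { carrier := {a | ∀ f ∈ Submodule.span F {f | Zk Q X u f},
        a ∘ₗ f ∈ Submodule.span F {f | Zk Q X u f}}
      mul_mem' := fun ha hb f hf => ha _ (hb f hf)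
      add_mem' := fun ha hb f hf => Submodule.add_mem _ (ha f hf) (hb f hf)
      algebraMap_mem' := fun c f hf => Submodule.smul_mem _ c hf }
  obtain ⟨ξ, hξ, -⟩ := Setup.exists_ξ h0 hxu
  have hxu' : (ln F K u).map ((x⁻¹ : V ≃ₗ[F] V) : V →ₗ[F] V) = ln F K u :=
    mem_stab_iff_map.1 ((stab _).inv_mem (mem_stab_iff_map.2 hxu))
  obtain ⟨η, hη, -⟩ := Setup.exists_ξ h0 hxu'
  have hηξ : ∀ k, η (ξ k) = k := fun k => smul_left_injective K h0 (by
    simp only [← hη, ← hξ]; exact x.symm_apply_apply _)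
  have h1 : ξ ∘ₗ LinearMap.mulLeft F l ∘ₗ η ∈ A := fun f hf => by
    convert conj_mem_span hx hξ (fun z => (S.perp_of_map hx hxu z).1) (S.mul_mem_span hu h0 l
      (conj_mem_span (X.inv_mem hx) hη (fun z => (S.perp_of_map (X.inv_mem hx) hxu' z).1) hf))
      using 1
    ext z
    simp [show ∀ y, (x⁻¹).symm y = x y from fun _ => rfl]
  have h2 := eq_top_of_mul S.prime A (fun k f hf => S.mul_mem_span hu h0 k hf) h1 (by
    rintro ⟨l', hl'⟩
    refine hl ⟨l', fun k => ?_⟩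
    have := hl' (ξ k)
    simp only [LinearMap.comp_apply, hηξ, LinearMap.mulLeft_apply] at this
    rw [hξ, hξ, this, mul_smul])
  exact (h2 ▸ Algebra.mem_top : a ∈ A) f h

theorem exists_pair {u : V} (hu : Q.Val u 0) (h0 : u ≠ 0) {c : F} (hc : P.σ c ≠ c)
    {f : V →ₗ[F] K} (h : f ∈ Submodule.span F {f | Zk Q X u f}) :
    ∃ f₁ f₂, Zk Q X u f₁ ∧ Zk Q X u f₂ ∧ f = f₁ + c • f₂ := by
  have huu := Polar.sing_B hu
  induction h using Submodule.span_induction with
  | zero => exact ⟨0, 0, Zk.zero' u, Zk.zero' u, by simp⟩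
  | add a b _ _ ha hb =>
    obtain ⟨a₁, a₂, h1, h2, rfl⟩ := ha
    obtain ⟨b₁, b₂, h3, h4, rfl⟩ := hb
    exact ⟨_, _, h1.add h3 huu, h2.add h4 huu, by module⟩
  | smul d a _ ha =>
    obtain ⟨a₁, a₂, h1, h2, rfl⟩ := ha
    obtain ⟨s, t, hs, ht, rfl⟩ := exists_decomp_fixed P.σσ hc d
    exact ⟨_, _, (S.zk_smul hu h0 h1 hs).sub (S.zk_smul hu h0 h2 (t := t * (c * P.σ c))
      (by simp [ht, mul_comm])) huu, ((S.zk_smul hu h0 h1 ht).add (S.zk_smul hu h0 h2 hs) huu).add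
      (S.zk_smul hu h0 h2 (t := t * (c + P.σ c)) (by simp [ht, add_comm])) huu, by module⟩
  | mem f hf => exact ⟨f, 0, hf, Zk.zero' u, by simp⟩

theorem skew_of_iso {u : V} (hu : Q.Val u 0) {f : V →ₗ[F] K}
    (h : ∀ x y, P.B (x + f x • u) (y + f y • u) = P.B x y) (x y : V) :
    P.B x (f y • u) = -P.B (f x • u) y := by
  have := h x y
  simp only [map_add, LinearMap.add_apply,
    S.B_ln hu (smul_mem_ln (f x) u) (smul_mem_ln (f y) u)] at this
  linear_combination this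

theorem skew_of_zk {u : V} (hu : Q.Val u 0) {f : V →ₗ[F] K} (h : Zk Q X u f) (x y : V) :
    P.B x (f y • u) = -P.B (f x • u) y := by
  obtain ⟨g, hg, hg'⟩ := h.has
  exact S.skew_of_iso hu (fun x y => by rw [← Polar.Iso.B (S.iso hg) x y, hg', hg']) x y

theorem fullZ_of_span {u : V} (hu : Q.Val u 0) (h0 : u ≠ 0)
    (h : ∀ (a : End F K), ∀ f ∈ Submodule.span F {f | Zk Q X u f},
      a ∘ₗ f ∈ Submodule.span F {f | Zk Q X u f}) : FullZ K P X u := by
  intro a ha w hw d hd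
  obtain ⟨k, hk⟩ := mem_ln.1 ha
  obtain ⟨l, hl⟩ := mem_ln.1 hw
  let f : V →ₗ[F] K :=
    (P.B.flip a).smulRight l - (P.B.flip w + P.σ d • P.B.flip a).smulRight k
  have hf : ∀ x, x + f x • u = P.eich a w d x := fun x => by
    simp only [f, Polar.eich, S.εP, LinearMap.sub_apply, LinearMap.smulRight_apply,
      LinearMap.flip_apply, LinearMap.add_apply, LinearMap.smul_apply, sub_smul, smul_assoc, hk, hl,
      smul_eq_mul]
    module
  have hf0 : ∀ z, Q.B z u = 0 → f z = 0 := fun z hz => by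
    simp [f, S.mem_perp_ln.2 hz a ha, S.mem_perp_ln.2 hz w hw]
  obtain ⟨δ, hδ0, hδ⟩ := exists_skew Q.σ Q.σσ S.τne
  obtain ⟨e, -, he⟩ := Polar.exists_sep' (P := Q) (U := ⊥) (v := u) (by simpa using h0) δ⁻¹
  have h1 := h (f ∘ₗ (LinearMap.toSpanSingleton K V e).restrictScalars F) _
    (Submodule.subset_span (S.zk_tv hu hδ))
  rw [show (f ∘ₗ (LinearMap.toSpanSingleton K V e).restrictScalars F) ∘ₗ
      (δ • Q.B.flip u).restrictScalars F = f from LinearMap.ext fun x => by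
    have := hf0 ((δ * Q.B x u) • e - x) (by simp [he]; field_simp; ring)
    rw [map_sub, sub_eq_zero] at this
    simpa using this] at h1
  obtain ⟨c, hc⟩ := S.σne
  obtain ⟨f₁, f₂, h2, h3, h4⟩ := S.exists_pair hu h0 hc h1
  have h5 : f₂ = 0 := LinearMap.ext fun x => (smul_eq_zero.1 (P.nondeg' fun y => by
    have h6 := S.skew_of_iso hu (f := f) (fun x y => by
      rw [hf, hf, Polar.eich_B (S.B_ln hu ha ha) (S.B_ln hu hw ha) hd]) x y
    simp only [h4, LinearMap.add_apply, LinearMap.smul_apply, add_smul, smul_assoc, map_add,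
      map_smul, Polar.B_smul_right, S.skew_of_zk hu h2, S.skew_of_zk hu h3, smul_eq_mul] at h6
    exact (mul_eq_zero.1 (show (P.σ c - c) * P.B (f₂ x • u) y = 0 by
      linear_combination -h6)).resolve_left (sub_ne_zero.2 hc))).resolve_right h0
  rw [h5, smul_zero, add_zero] at h4
  exact (h4 ▸ h2).has.congr hf

theorem fullZ_of_ne {u v : V} (hu : Q.Val u 0) (hv : Q.Val v 0) (huv : Q.B u v ≠ 0)
    (h : FullZ K P X u) : FullZ K P X v := by
  obtain ⟨δ, hδ0, hδ⟩ := exists_skew Q.σ Q.σσ S.τne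
  obtain ⟨s, hs⟩ : ∃ s, s = Q.σ (δ / Q.B u v) := ⟨_, rfl⟩
  have hs0 : s ≠ 0 := by simp [hs, hδ0, huv]
  have h1 : Q.B u (s • v - u) = δ := by simp [hs, Polar.sing_B hu, huv]
  have h2 : Q.Val (s • v - u) 0 := by
    rw [Polar.sing_iff_of_unitary S.τne S.εQ, LinearMap.map_sub₂, h1, map_sub, Q.herm u (s • v)]
    simp [Polar.sing_B hv, hs, huv, hδ, S.εQ]
  have h3 : Q.Val 0 δ⁻¹ := (Polar.val_iff_of_unitary S.τne S.εQ).2 (by simp [hδ])
  have hg := S.eich_mem (w := 0) h2 (by simp) h3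
  have h4 : ∀ a ∈ ln F K v, ∃ b ∈ ln F K u,
      (Polar.eichE (w := 0) h2 (by simp) h3).restrictScalars F b = a := by
    intro a ha
    obtain ⟨k, rfl⟩ := mem_ln.1 ha
    refine ⟨(k / s) • u, smul_mem_ln _ _, ?_⟩
    rw [LinearEquiv.restrictScalars_apply, map_smul, Polar.eichE_apply, Polar.eich, h1]
    simp [hδ, hδ0, smul_smul, hs0]
  intro a ha w hw c hc
  obtain ⟨a', ha', rfl⟩ := h4 a ha
  obtain ⟨w', hw', rfl⟩ := h4 w hw
  exact (h a' ha' w' hw' c ((Polar.Iso.val_iff (S.iso hg)).1 hc)).conj hg (S.iso hg)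

theorem fullA_of_fullZ {v : V} (hv : Q.Val v 0) (h0 : v ≠ 0) (h : FullZ K P X v) :
    P.FullA X v := by
  have := S.finF
  have := S.finV
  have := S.finK
  have hvF := S.singF hv (self_mem_ln v)
  have h1 : ∀ z ∈ ln F K v, z ∈ P.eSub X hvF := fun z hz =>
    Polar.mem_eSub_of_sub hvF (M := ln F K v) (fun w hw c _ hc => h v (self_mem_ln v) w hw c hc) hz
      (S.B_ln hv hz (self_mem_ln v))
  have h2 : ∀ u, P.B u v = 0 → Q.B u v ≠ 0 → u ∈ P.eSub X hvF := by
    intro w hw hw'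
    obtain ⟨s, hs⟩ := Polar.exists_val_add_sing hv hw' 0
    rw [← Submodule.add_mem_iff_left _ (h1 _ (smul_mem_ln s v))]
    have h3 : P.B (w + s • v) v = 0 := by
      simp [hw, S.B_ln hv (smul_mem_ln s v) (self_mem_ln v)]
    have h4 : Q.B v (w + s • v) ≠ 0 := by simpa [Polar.sing_B hv] using Q.B_ne_symm hw'
    generalize w + s • v = u at *
    obtain ⟨δ, hδ0, hδ⟩ := exists_skew P.σ P.σσ S.σne
    obtain ⟨g, hg, hg'⟩ := S.fullZ_of_ne hv hs h4 h u (self_mem_ln u) 0 (Submodule.zero_mem _) δ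
      ((Polar.val_iff_of_unitary S.σne S.εP).2 (by simp [hδ]))
    obtain ⟨k, hk⟩ : ∃ k, θ (k * Q.B v u) ≠ 0 := by
      by_contra! hcon
      exact h4 (S.eq_zero_of_θ hcon)
    have h5 := Polar.apply_mem_eSub hvF hg (S.iso hg)
      (by rw [hg', Polar.eich_fix _ (P.B_symm h3) (by simp)]) (h1 _ (smul_mem_ln k v))
    rw [hg', Polar.eich, S.B_smul v u] at h5
    simp only [smul_zero, add_zero, map_zero, mul_zero, zero_add, sub_eq_add_neg] at h5
    rwa [Submodule.add_mem_iff_right _ (h1 _ (smul_mem_ln k v)), neg_mem_iff,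
      Submodule.smul_mem_iff _ (by simp [hδ0, hk])] at h5
  refine Polar.fullA_of_eSub hvF
    (fun c hc => h v (self_mem_ln v) 0 (Submodule.zero_mem _) c hc) fun w hw => ?_
  by_cases hw' : Q.B w v = 0
  swap
  · exact h2 w hw hw'
  obtain ⟨k, hk, hk0⟩ := exists_notMem_of_finrank_lt (U := ⊥) (W := ⊤ ⊓ LinearMap.ker θ) (by
    have := finrank_inf_ker_ge ⊤ θ
    have := S.three
    rw [finrank_top] at *
    rw [finrank_bot]; omega)
  obtain ⟨e, -, he⟩ := Polar.exists_sep' (P := Q) (U := ⊥) (v := v) (by simpa using h0) k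
  have h3 : P.B e v = 0 := by rw [S.B, he]; exact hk.2
  have h4 : Q.B e v ≠ 0 := by simpa [he] using hk0
  simpa using Submodule.sub_mem _ (h2 (w + e) (by simp [h3, show P.B w v = 0 from hw])
    (by simpa [hw'] using h4)) (h2 e h3 h4)

theorem E_le_of_not_bad (hb : ¬ Bad Q X) : P.E ≤ X := by
  have := S.finF
  have := S.finV
  simp only [Bad, not_forall] at hb
  obtain ⟨u, h0, hu, x, hx, hxu, l, hl⟩ := hb
  have h1 := S.fullZ_of_span hu h0 fun a f hf => S.comp_mem_span hu h0 hx hxu hl a hf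
  obtain ⟨k, hk⟩ := DFunLike.ne_iff.1 S.θne
  obtain ⟨f, -, hf, huf⟩ := Polar.exists_hyperbolic (U := ⊥) hu (by simpa using h0)
    (by simp [Polar.perp_bot]) k fun e => by simp [e] at hk
  have h2 : Q.B u f ≠ 0 := fun e => by simp [← huf, e] at hk
  exact Polar.E_le_of_fullA (S.singF hf (self_mem_ln f)) (S.singF hu (self_mem_ln u))
    (S.fullA_of_fullZ hf (fun e => by simp [e] at h2) (S.fullZ_of_ne hu hf h2 h1))
    (S.fullA_of_fullZ hu h0 h1) (by rw [S.B, huf]; exact hk)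

end USetup

end Cfsg.Agent.H3.ExtU
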