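import Mathlib
import Cfsg.Agent.H1.OExtB

/-!
Tools for extension-field subgroups of unitary groups: singular combinations of hermitian
matrices, bilinear maps vanishing on norms, and semilinear stabilisers.
-/

set_option autoImplicit false
set_option linter.unusedSectionVars false

namespace Cfsg.Agent.H3.ExtU

open Module Cfsg.Agent.H7 Cfsg.Agent.H3.Ext Cfsg.Agent.H1.OExt

/-- More than `c` hermitian matrices of size `c` have a singular non-trivial combination with
coefficients in the fixed field. -/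
theorem exists_det_zero {F : Type*} [Field F] [Finite F] (σ : F →+* F) (hσσ : ∀ a, σ (σ a) = a)
    (hσ : ∃ a, σ a ≠ a) {ι κ : Type*} [Fintype ι] [DecidableEq ι] [Nonempty ι] [Fintype κ]
    (hc : Fintype.card ι < Fintype.card κ) (M : κ → Matrix ι ι F)
    (hM : ∀ k i j, σ (M k i j) = M k j i) :
    ∃ x : κ → F, (∀ k, σ (x k) = x k) ∧ x ≠ 0 ∧ (∑ k, x k • M k).det = 0 := by
  classical
  let F₀ : Subfield F := RingHom.eqLocusField σ (RingHom.id F)
  have := Fintype.ofFinite F₀
  obtain ⟨p, hp⟩ := CharP.exists F₀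
  have hpp : p.Prime := CharP.char_is_prime F₀ p
  obtain ⟨ϑ, hϑ⟩ := exists_trace_one σ hσσ hσ
  let π : F → F₀ := fun a => ⟨ϑ * a + σ (ϑ * a), by
    change σ _ = _
    rw [map_add, hσσ, add_comm]; rfl⟩
  let f : MvPolynomial κ F :=
    (Matrix.of fun i j => ∑ k, MvPolynomial.C (M k i j) * MvPolynomial.X k).det
  have hf : f.totalDegree ≤ Fintype.card ι := by
    simp only [f, Matrix.det_apply']
    refine (MvPolynomial.totalDegree_finsetSum _ _).trans (Finset.sup_le fun s _ => ?_)
    refine (MvPolynomial.totalDegree_mul _ _).trans ?_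
    rw [← map_intCast (MvPolynomial.C : F →+* MvPolynomial κ F), MvPolynomial.totalDegree_C,
      zero_add]
    refine (MvPolynomial.totalDegree_finsetProd _ _).trans ?_
    rw [← Finset.card_univ, Finset.card_eq_sum_ones]
    refine Finset.sum_le_sum fun i _ => ?_
    refine (MvPolynomial.totalDegree_finsetSum _ _).trans (Finset.sup_le fun k _ => ?_)
    refine (MvPolynomial.totalDegree_mul _ _).trans ?_
    simp
  have hev : ∀ x : κ → F, MvPolynomial.eval x f = (∑ k, x k • M k).det := fun x => by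
    simp only [f]
    rw [RingHom.map_det]
    congr 1
    ext i j
    simp [Matrix.sum_apply, mul_comm]
  let f₀ : MvPolynomial κ F₀ := ∑ m ∈ f.support, MvPolynomial.monomial m (π (f.coeff m))
  have hf₀ : f₀.totalDegree < Fintype.card κ := by
    refine lt_of_le_of_lt ((MvPolynomial.totalDegree_finsetSum _ _).trans
      (Finset.sup_le fun m hm => ?_)) (hf.trans_lt hc)
    exact (MvPolynomial.totalDegree_monomial_le _ _).trans (MvPolynomial.le_totalDegree hm)
  have hev₀ : ∀ x : κ → F₀, ((MvPolynomial.eval x f₀ : F₀) : F) =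
      (∑ k, (x k : F) • M k).det := fun x => by
    have h1 : ∀ k, σ (x k) = x k := fun k => (x k).2
    have h2 : σ (∑ k, (x k : F) • M k).det = (∑ k, (x k : F) • M k).det := by
      rw [RingHom.map_det, ← Matrix.det_transpose]
      congr 1
      ext i j
      simp [Matrix.sum_apply, h1, hM]
    have h3 : ((MvPolynomial.eval x f₀ : F₀) : F) = ϑ * MvPolynomial.eval (fun k => (x k : F)) f +
        σ (ϑ * MvPolynomial.eval (fun k => (x k : F)) f) := by
      rw [MvPolynomial.eval_eq' _ f]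
      simp only [f₀, map_sum, MvPolynomial.eval_monomial, Finset.mul_sum, ← Finset.sum_add_distrib,
        AddSubmonoidClass.coe_finsetSum, π, map_mul, map_prod, map_pow, h1]
      refine Finset.sum_congr rfl fun m _ => ?_
      rw [Finsupp.prod_fintype _ _ (by simp)]
      simp only [Subfield.coe_mul, SubmonoidClass.coe_finsetProd, SubmonoidClass.coe_pow]
      ring
    rw [h3, hev, map_mul, h2, ← add_mul, hϑ, one_mul]
  have hdvd := char_dvd_card_solutions p hf₀
  by_contra! hcon
  have : Fintype.card { x : κ → F₀ // MvPolynomial.eval x f₀ = 0 } = 1 := by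
    rw [Fintype.card_eq_one_iff]
    refine ⟨⟨0, Subtype.ext (by rw [hev₀]; simp)⟩, fun ⟨x, hx⟩ => Subtype.ext ?_⟩
    by_contra hne
    refine hcon (fun k => x k) (fun k => (x k).2) (fun h => hne ?_) (by rw [← hev₀, hx]; rfl)
    ext k
    exact congrFun h k
  rw [this] at hdvd
  exact hpp.one_lt.ne' (Nat.dvd_one.1 hdvd)

/-- An additive subgroup containing all squares of the fixed field contains the fixed field. -/
theorem mem_of_sq {F : Type*} [Field F] [Finite F] (σ : F →+* F) {S : F → Prop}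
    (hs : ∀ a b, S a → S b → S (a - b)) (h : ∀ a, σ a = a → S (a * a)) {t : F} (ht : σ t = t) :
    S t := by
  by_cases h2 : (2 : F) = 0
  · have : CharP F 2 := CharTwo.of_one_ne_zero_of_two_eq_zero one_ne_zero h2
    obtain ⟨a, rfl⟩ := (frobeniusEquiv F 2).surjective t
    have h1 : σ a = a := (frobeniusEquiv F 2).injective (by
      simpa [frobenius_def] using ht)
    simpa [frobenius_def, sq] using h a h1
  · have := hs _ _ (h ((t + 1) / 2) (by simp [ht, map_ofNat])) (h ((t - 1) / 2) (by simp [ht, map_ofNat]))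
    convert this using 1
    field_simp
    ring

section

variable {F K : Type*} [Field F] [Field K] [Algebra F K]

theorem exists_decomp_fixed {τ : K →+* K} (hττ : ∀ a, τ (τ a) = a) {c : K} (hc : τ c ≠ c) (k : K) :
    ∃ a b, τ a = a ∧ τ b = b ∧ k = a + c * b := by
  have h1 : c - τ c ≠ 0 := sub_ne_zero.2 hc.symm
  have h2 : τ c - c ≠ 0 := sub_ne_zero.2 hc
  refine ⟨k - c * ((k - τ k) / (c - τ c)), (k - τ k) / (c - τ c), ?_, ?_, by ring⟩
  · simp only [map_sub, map_mul, map_div₀, hττ]
    field_simp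
    ring
  · simp only [map_sub, map_div₀, hττ]
    field_simp
    ring

theorem bilin_zero [Finite K] {M : Type*} [AddCommGroup M] [Module F M]
    (hr : (finrank F K).Prime) {τ : K →+* K} (hττ : ∀ a, τ (τ a) = a) {c : F}
    (hc : τ (algebraMap F K c) ≠ algebraMap F K c) {μ : K} (hμ0 : μ ≠ 0)
    (hμ : μ / τ μ ∉ (algebraMap F K).range) (β : K →ₗ[F] K →ₗ[F] M)
    (h1 : ∀ a, τ a = a → β a a = 0) (h2 : ∀ a, τ a = a → β (μ * a) (τ μ * a) = 0) (s t : K) :
    β s t = 0 := by
  have alt : ∀ β : K →ₗ[F] K →ₗ[F] M, (∀ a, τ a = a → β a a = 0) → ∀ k, β k k = 0 := by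
    intro β h k
    obtain ⟨a, b, ha, hb, rfl⟩ := exists_decomp_fixed hττ hc k
    have := h (a + b) (by rw [map_add, ha, hb])
    simp only [map_add, LinearMap.add_apply, h a ha, h b hb, zero_add, add_zero] at this
    simp only [← Algebra.smul_def, map_add, LinearMap.add_apply, map_smul, LinearMap.smul_apply,
      h a ha, h b hb]
    linear_combination (norm := module) c • this
  have skew : ∀ β : K →ₗ[F] K →ₗ[F] M, (∀ k, β k k = 0) → ∀ k l, β k l = -β l k := by
    intro β h k l
    have := h (k + l)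
    simp only [map_add, LinearMap.add_apply, h, zero_add, add_zero] at this
    linear_combination (norm := module) this
  have h3 := alt β h1
  have h4 := skew _ (alt (β.compl₁₂ (LinearMap.mulLeft F μ) (LinearMap.mulLeft F (τ μ))) h2)
  simp only [LinearMap.compl₁₂_apply, LinearMap.mulLeft_apply] at h4
  have hτ : τ μ ≠ 0 := by simpa using hμ0
  let C : Subalgebra F K :=
    { carrier := {k | ∀ x y, β (k * x) y = β x (k * y)}
      mul_mem' := fun {a b} ha hb x y => by rw [mul_assoc, ha, hb, ← mul_assoc, mul_comm a b]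
      add_mem' := fun ha hb x y => by
        rw [add_mul, add_mul, map_add, map_add, LinearMap.add_apply, ha, hb]
      algebraMap_mem' := fun c x y => by simp [← Algebra.smul_def] }
  have h5 : μ / τ μ ∈ C := fun x y => by
    have := h4 (x / τ μ) (y / τ μ)
    rw [← skew β h3, mul_div_cancel₀ _ hτ, mul_div_cancel₀ _ hτ] at this
    rwa [div_mul_eq_mul_div, div_mul_eq_mul_div, mul_div_assoc, mul_div_assoc]
  have := Subalgebra.isSimpleOrder_of_finrank_prime F K hr
  rcases eq_bot_or_eq_top C with h | h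
  · exact absurd (Algebra.mem_bot.mp (h ▸ h5)) hμ
  have h6 : ∀ x y, β x y = β 1 (x * y) := fun x y => by
    simpa using (h ▸ Algebra.mem_top : x ∈ C) 1 y
  rw [h6]
  exact mem_of_sq (RingHom.id K) (S := fun k => β 1 k = 0)
    (fun a b ha hb => by rw [map_sub, ha, hb, sub_zero]) (fun a _ => by rw [← h6, h3]) rfl

theorem norm_conj [Finite K] {σ : F →+* F} {τ : K →+* K}
    (h : ∀ c, τ (algebraMap F K c) = algebraMap F K (σ c)) (k : K) :
    Algebra.norm F (τ k) = σ (Algebra.norm F k) := by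
  apply (algebraMap F K).injective
  rw [← h, FiniteField.algebraMap_norm_eq_pow, FiniteField.algebraMap_norm_eq_pow, map_pow]

theorem exists_nu [Finite K] {σ : F →+* F} {τ : K →+* K} (hττ : ∀ a, τ (τ a) = a)
    (hτ : ∃ a, τ a ≠ a) (h : ∀ c, τ (algebraMap F K c) = algebraMap F K (σ c)) {q : ℕ}
    (hq : ∀ c, σ c = c ^ q) (hF : Nat.card F = q ^ 2)
    (hr : finrank F K * (q + 1) ≤ q ^ finrank F K) (hr0 : 0 < finrank F K) :
    ∃ ν : K, ν * τ ν = 1 ∧ Algebra.norm F ν = 1 ∧ ν ∉ (algebraMap F K).range := by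
  by_contra! hcon
  have : FiniteDimensional F K := Module.finite_of_finrank_pos hr0
  let K₀ : Subfield K := RingHom.eqLocusField τ (RingHom.id K)
  have := Fintype.ofFinite K₀
  have h1 : Nat.card K₀ * Nat.card K₀ ≤ Nat.card K := card_sq_le (P := K₀.toSubring) fun e => by
    obtain ⟨a, ha⟩ := hτ
    exact ha (e ▸ Subring.mem_top a : a ∈ K₀.toSubring)
  have h2 : Nat.card K = q ^ finrank F K * q ^ finrank F K := by
    rw [Module.natCard_eq_pow_finrank (K := F) (V := K), hF, sq, mul_pow]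
  have h3 : Nat.card K₀ ≤ q ^ finrank F K := Nat.mul_self_le_mul_self_iff.1 (h2 ▸ h1)
  obtain ⟨g, hg⟩ := IsCyclic.exists_ofOrder_eq_natCard (α := Kˣ)
  have hg0 : τ g ≠ 0 := by simp
  have h4 : ((g : K) / τ g) ^ (q + 1) * τ (((g : K) / τ g) ^ (q + 1)) = 1 := by
    rw [map_pow, ← mul_pow, map_div₀, hττ, div_mul_div_comm, mul_comm (g : K), div_self, one_pow]
    simp
  have h5 : Algebra.norm F (((g : K) / τ g) ^ (q + 1)) = 1 := by
    rw [map_pow, pow_succ, ← hq, ← norm_conj h, ← map_mul, map_div₀, hττ, div_mul_div_comm,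
      mul_comm (g : K), div_self, map_one]
    simp
  obtain ⟨c, hc⟩ := hcon _ h4 h5
  have h6 : ((g : K) / τ g) ^ ((q + 1) * finrank F K) = 1 := by
    rw [pow_mul, ← hc, ← map_pow, ← Algebra.norm_algebraMap, hc, h5, map_one]
  have h7 : (g : K) ^ ((q + 1) * finrank F K) ∈ K₀ := by
    change τ _ = _
    rw [div_pow, div_eq_one_iff_eq (pow_ne_zero _ hg0)] at h6
    rw [map_pow, ← h6]; rfl
  have h8 := FiniteField.pow_card_sub_one_eq_one (⟨_, h7⟩ : K₀) (by simp [Subtype.ext_iff])
  have h9 : g ^ ((q + 1) * finrank F K * (Fintype.card K₀ - 1)) = 1 := by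
    rw [pow_mul]
    exact Units.ext (by simpa [Subtype.ext_iff] using h8)
  have h10 : 1 < Fintype.card K₀ := Fintype.one_lt_card
  have h11 := Nat.le_of_dvd (Nat.mul_pos (Nat.mul_pos q.succ_pos hr0) (by omega))
    (orderOf_dvd_of_pow_eq_one h9)
  rw [hg, Nat.card_units, h2, mul_comm (q + 1)] at h11
  rw [Nat.card_eq_fintype_card] at h3
  generalize q ^ finrank F K = n at *
  have h12 := h11.trans (Nat.mul_le_mul hr (Nat.sub_le_sub_right h3 1))
  obtain ⟨n, rfl⟩ : ∃ m, n = m + 2 := ⟨n - 2, by omega⟩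
  have : (n + 2) * (n + 2) - 1 = n * n + 4 * n + 3 := by
    rw [Nat.sub_eq_iff_eq_add (by nlinarith)]; ring
  rw [this, show n + 2 - 1 = n + 1 from rfl] at h12
  nlinarith

theorem mul_succ_le_pow {q r : ℕ} (hq : 2 ≤ q) (hr : 3 ≤ r) (h : ¬ (q = 2 ∧ r = 3)) :
    r * (q + 1) ≤ q ^ r := by
  have key : ∀ r₀, r₀ * (q + 1) ≤ q ^ r₀ → 1 ≤ r₀ → ∀ r, r₀ ≤ r → r * (q + 1) ≤ q ^ r := by
    intro r₀ h0 h1 r hr
    induction r, hr using Nat.le_induction with
    | base => exact h0
    | succ r hr ih =>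
      rw [pow_succ]
      nlinarith [Nat.mul_le_mul ih hq, Nat.mul_le_mul_right (q + 1) (h1.trans hr)]
  by_cases h2 : q = 2
  · exact key 4 (by subst h2; norm_num) (by omega) r (by omega)
  · refine key 3 ?_ (by omega) r hr
    obtain ⟨q, rfl⟩ : ∃ m, q = m + 3 := ⟨q - 3, by omega⟩
    ring_nf
    omega

end

section Bad

variable {F K V : Type*} [Field F] [Field K] [Algebra F K] [AddCommGroup V] [Module F V]
  [Module K V] [IsScalarTower F K V] {PK : Polar K V} {X : Subgroup (V ≃ₗ[F] V)}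

theorem exists_aut' (hb : Bad PK X) {A : Submodule F V} (h : Mem PK X A) {d : V} (hd : d ∈ A)
    (hd0 : d ≠ 0) : ∃ e : K →ₗ[F] V, Function.Injective e ∧ e 1 = d ∧
      (∀ a, a ∈ A ↔ ∃ k, e k = a) ∧ ∀ y ∈ X, A.map (y : V →ₗ[F] V) = A → y d = d →
        ∃ σ : K →ₐ[F] K, ∀ k, y (e k) = e (σ k) := by
  obtain ⟨g, hg, u, h0, hu, rfl⟩ := h
  obtain ⟨u', hu', rfl⟩ := hd
  have h0' : u' ≠ 0 := fun e => hd0 (by simp [e])
  have hu1 : PK.Val u' 0 := by
    obtain ⟨k, rfl⟩ := mem_ln.1 hu'
    exact Polar.sing_smul hu k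
  rw [← ln_eq hu' h0']
  let e : K →ₗ[F] V := (g : V →ₗ[F] V) ∘ₗ (LinearMap.toSpanSingleton K V u').restrictScalars F
  have he : ∀ k, e k = g (k • u') := fun _ => rfl
  have hinj : Function.Injective e := g.injective.comp (smul_left_injective K h0')
  refine ⟨e, hinj, by rw [he, one_smul]; rfl, fun a => ?_, fun y hy hyA hyd => ?_⟩
  · constructor
    · rintro ⟨_, hv, rfl⟩
      obtain ⟨k, rfl⟩ := mem_ln.1 hv
      exact ⟨k, rfl⟩
    · rintro ⟨k, rfl⟩
      exact ⟨_, smul_mem_ln k u', rfl⟩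
  have h1 := hb u' h0' hu1 (g⁻¹ * y * g) (X.mul_mem (X.mul_mem (X.inv_mem hg) hy) hg) (by
    apply Submodule.map_injective_of_injective (f := (g : V →ₗ[F] V)) g.injective
    rw [← Submodule.map_comp, ← hyA, ← Submodule.map_comp]
    congr 1
    ext x
    exact g.apply_symm_apply _)
  choose σ hσ using h1
  have h2 : ∀ k, (g⁻¹ * y * g) (k • u') = g.symm (y (e k)) := fun _ => rfl
  have h3 : ∀ k, y (e k) = e (σ k) := fun k => by
    have := hσ k 1
    rw [mul_one, h2, h2, he 1, one_smul, show y (g u') = g u' from hyd, g.symm_apply_apply,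
      LinearEquiv.symm_apply_eq] at this
    exact this
  exact ⟨{  toFun := σ
            map_one' := hinj (by rw [← h3, he, one_smul]; exact hyd)
            map_mul' := fun a b => hinj (by
              have := hσ a b
              rw [h2, h2, h3 b, he (σ b), g.symm_apply_apply, LinearEquiv.symm_apply_eq,
                smul_smul] at this
              rw [← h3, this, he])
            map_zero' := hinj (by rw [← h3]; simp)
            map_add' := fun a b => hinj (by simp only [map_add, ← h3])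
            commutes' := fun c => hinj (by
              rw [← h3, Algebra.algebraMap_eq_smul_one, map_smul, map_smul, he, one_smul]
              exact congrArg _ hyd) }, h3⟩

/-- A vector cannot be shifted by all multiples of a fixed vector. -/
theorem no_shift_all [Finite F] (hb : Bad PK X) (hr : (finrank F K).Prime) {σ : F →+* F}
    (hσ : ∃ a, σ a ≠ a) {A : Submodule F V} (h : Mem PK X A) {d s : V} (hd : d ∈ A) (hd0 : d ≠ 0)
    (hs : s ∈ A) (hy : ∀ c : F, ∃ y ∈ X, A.map (y : V →ₗ[F] V) = A ∧ y d = d ∧ y s = s + c • d) :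
    False := by
  obtain ⟨e, hinj, rfl, hA, he⟩ := exists_aut' hb h hd hd0
  obtain ⟨k, rfl⟩ := (hA s).1 hs
  have h1 : ∀ c : F, ∃ ρ : K →ₐ[F] K, ρ k = k + algebraMap F K c := fun c => by
    obtain ⟨y, hy, h1, h2, h3⟩ := hy c
    obtain ⟨ρ, hρ⟩ := he y hy h1 h2
    exact ⟨ρ, hinj (by rw [← hρ, h3, map_add, Algebra.algebraMap_eq_smul_one, map_smul])⟩
  obtain ⟨p, hp⟩ := CharP.exists F
  have : Fact p.Prime := ⟨CharP.char_is_prime F p⟩
  have : CharP K p := charP_of_injective_algebraMap (algebraMap F K).injective p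
  obtain ⟨ρ, hρ⟩ := h1 1
  have := Subalgebra.isSimpleOrder_of_finrank_prime F K hr
  rcases eq_bot_or_eq_top (AlgHom.equalizer ρ (AlgHom.id F K)) with h2 | h2
  · have h3 : k ^ p - k ∈ AlgHom.equalizer ρ (AlgHom.id F K) := by
      simp [AlgHom.mem_equalizer, hρ, add_pow_char]
    obtain ⟨b, hb⟩ := Algebra.mem_bot.mp (h2 ▸ h3)
    obtain ⟨c, hc⟩ := hσ
    obtain ⟨ρ', hρ'⟩ := h1 c
    have h4 := ρ'.commutes b
    rw [hb, map_sub, map_pow, hρ', add_pow_char, ← map_pow] at h4
    have h5 : c ^ p = c := (algebraMap F K).injective (by linear_combination h4)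
    obtain ⟨n, rfl⟩ := (mem_bot_iff_intCast p F).1 ((Subfield.mem_bot_iff_pow_eq_self F p).2 h5)
    exact hc (map_intCast σ n)
  · have h3 : ρ k = k := (h2 ▸ Algebra.mem_top : k ∈ AlgHom.equalizer ρ (AlgHom.id F K))
    simp [hρ] at h3

/-- A quadratic element cannot act non-trivially. -/
theorem no_quad [FiniteDimensional F V] (hb : Bad PK X) (hr : (finrank F K).Prime)
    (h3 : 3 ≤ finrank F K) {A : Submodule F V} (h : Mem PK X A) {y : V ≃ₗ[F] V} (hy : y ∈ X)
    (hyA : A.map (y : V →ₗ[F] V) = A) {d s : V} (hd : d ∈ A) (hd0 : d ≠ 0) (hyd : y d = d)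
    (hs : s ∈ A) (hys : y s = s + d) (hq : ∀ a ∈ A, y (y a - a) = y a - a) : False := by
  have key : ∀ a ∈ A, y a = a → a ∈ F ∙ d := fun a ha h1 => by
    by_contra h2
    exact hd0 (by simpa [hys] using hb.fix_two hr h hy hyA hd hd0 hyd ha h2 h1 hs)
  obtain ⟨a, ha, ha'⟩ := exists_notMem_of_finrank_lt (U := (F ∙ d) ⊔ F ∙ s) (W := A) (by
    have := finrank_span_pair_le (F := F) d s
    rw [h.finrank_eq]; omega)
  obtain ⟨c, hc⟩ := Submodule.mem_span_singleton.1
    (key _ (A.sub_mem (hyA.le ⟨a, ha, rfl⟩) ha) (hq a ha))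
  refine ha' (mem_sup_span_singleton.2 ⟨a - c • s, key _ (A.sub_mem ha (A.smul_mem c hs)) ?_, c,
    by simp⟩)
  rw [map_sub, map_smul, hys]
  linear_combination (norm := module) -hc

end Bad

end Cfsg.Agent.H3.ExtU
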