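import Cfsg.Agent.H3.ExtU

/-!
Extension-field subgroups of unitary groups: the orbit of the isotropic lines over the extension
field.
-/

set_option autoImplicit false
set_option linter.unusedSectionVars false
set_option linter.unusedSimpArgs false

namespace Cfsg.Agent.H3.ExtU

open Module Cfsg.Agent.H7 Cfsg.Agent.H3.Ext Cfsg.Agent.H1.OExt

theorem exists_sing_ne {K V : Type*} [Field K] [AddCommGroup V] [Module K V] {Q : Polar K V}
    {N : Submodule K V} {z e : V} (he : e ∈ N) (hes : Q.Val e 0) (heN : e ∉ Q.perp N)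
    (hz : z ∉ Q.perp N) : ∃ e ∈ N, Q.Val e 0 ∧ Q.B z e ≠ 0 := by
  by_contra! hcon
  have h1 : ∀ y ∈ N, Q.B y e ≠ 0 → Q.B z y = 0 := fun y hy hye => by
    obtain ⟨a, ha⟩ := Polar.exists_val_add_sing hes hye 0
    simpa [hcon e he hes] using hcon _ (N.add_mem hy (N.smul_mem a he)) ha
  obtain ⟨y, hy, hy'⟩ : ∃ y ∈ N, Q.B y e ≠ 0 := by
    by_contra! h; exact heN (Polar.mem_perp'.2 h)
  refine hz fun w hw => ?_
  by_cases h : Q.B w e = 0
  · simpa [h1 y hy hy'] using h1 _ (N.add_mem hw hy) (by simpa [h] using hy')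
  · exact h1 w hw h

variable {F K V : Type*} [Field F] [Field K] [Algebra F K] [AddCommGroup V] [Module F V]
  [Module K V] [IsScalarTower F K V]

theorem map_eq_of_shift [FiniteDimensional F V] {Q : Polar K V} {X : Subgroup (V ≃ₗ[F] V)} {j : ℕ}
    (hmax : ∀ A₁ A₂, Mem Q X A₁ → Mem Q X A₂ → A₁ ≠ A₂ → finrank F ↥(A₁ ⊓ A₂) ≤ j)
    {L A : Submodule F V} (h : Mem Q X A) (hj : j ≤ finrank F ↥(L ⊓ A))
    {s : V} (hs : s ∈ A) (hsL : s ∉ L) {y : V ≃ₗ[F] V} (hy : y ∈ X)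
    (hyD : ∀ d ∈ L ⊓ A, y d = d) (hys : y s - s ∈ L ⊓ A) : A.map (y : V →ₗ[F] V) = A := by
  refine map_eq_of_inv hmax h hy (N := (L ⊓ A) ⊔ F ∙ s) (sup_le inf_le_right (by simpa using hs))
    (by rw [Submodule.finrank_sup_span_singleton (p := L ⊓ A) (fun h => hsL h.1)]; omega)
    fun n hn => ?_
  obtain ⟨d, hd, c, rfl⟩ := mem_sup_span_singleton.1 hn
  refine mem_sup_span_singleton.2 ⟨d + c • (y s - s), Submodule.add_mem _ hd
    (Submodule.smul_mem _ _ hys), c, ?_⟩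
  rw [map_add, map_smul, hyD d hd]; module

namespace USetup

variable {P : Polar F V} {Q : Polar K V} {θ : K →ₗ[F] F} {X : Subgroup (V ≃ₗ[F] V)}
  (S : USetup P Q θ X) [Finite K] [FiniteDimensional K V]
include S

theorem mem_B {A : Submodule F V} (h : Mem Q X A) {a b : V} (ha : a ∈ A) (hb : b ∈ A) :
    P.B a b = 0 := by
  obtain ⟨g, hg, u, h0, hu, rfl⟩ := h
  obtain ⟨a, ha, rfl⟩ := ha
  obtain ⟨b, hb, rfl⟩ := hb
  rw [LinearEquiv.coe_coe, Polar.Iso.B (S.iso hg), S.B_ln hu ha hb]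

theorem scalar_of_sing (f : V →ₗ[F] V) (hf : ∀ u, Q.Val u 0 → ∃ k : K, f u = k • u) :
    ∃ k : K, ∀ x, f x = k • x := by
  obtain ⟨e, -, he0, he⟩ := Polar.wild_two_of_unitary S.τne S.εQ ⊤ (by rw [finrank_top]; exact S.two)
  obtain ⟨k₀, hk₀⟩ := hf e he
  obtain ⟨δ, hδ0, hδ⟩ := exists_skew Q.σ Q.σσ S.τne
  obtain ⟨c, -, hc⟩ := S.exists_c
  have key : ∀ x y, Q.Val x 0 → Q.Val y 0 → Q.B x y ≠ 0 → f y = k₀ • y →
      ∀ k : K, f (k • x) = k₀ • k • x := by
    intro x y hx hy hxy hfy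
    have h1 : ∀ a : K, Q.σ a = a → f ((a * δ / Q.B x y) • x) = k₀ • (a * δ / Q.B x y) • x := by
      intro a ha
      by_cases h0 : a = 0
      · simp [h0]
      have h2 : Q.B ((a * δ / Q.B x y) • x) y = a * δ := by simp [hxy]
      have h3 := Polar.sing_smul hx (a * δ / Q.B x y)
      generalize (a * δ / Q.B x y) • x = z at *
      obtain ⟨k₁, hk₁⟩ := hf z h3
      obtain ⟨k₂, hk₂⟩ := hf (z + y) ((Polar.sing_iff_of_unitary S.τne S.εQ).2 (by
        simp [Polar.sing_B h3, Polar.sing_B hy, Q.herm z y, h2, S.εQ, ha, hδ]))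
      rw [map_add, hk₁, hfy] at hk₂
      have h4 := congrArg (Q.B · y) hk₂
      have h5 := congrArg (Q.B · z) hk₂
      simp [Polar.sing_B h3, Polar.sing_B hy, Q.herm z y, h2, h0, hδ0] at h4 h5
      rw [hk₁, h4, h5]
    intro k
    obtain ⟨a, b, ha, hb, hab⟩ := exists_decomp_fixed Q.σσ hc (k * Q.B x y / δ)
    have h2 : k • x = (a * δ / Q.B x y) • x + c • (b * δ / Q.B x y) • x := by
      rw [← algebraMap_smul K c, smul_smul, ← add_smul]
      congr 1
      field_simp at hab ⊢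
      linear_combination hab
    rw [h2, map_add, f.map_smul c, h1 a ha, h1 b hb, smul_add, smul_comm c k₀]
  obtain ⟨e', he', hee⟩ := exists_partner he he0
  have h1 := key e' e he' he (Q.B_ne_symm (by simp [hee])) hk₀
  have h2 := key e e' he he' (by simp [hee]) (by simpa using h1 1)
  have h3 : ∀ w, Q.B w e ≠ 0 → f w = k₀ • w := fun w hw => by
    obtain ⟨a, ha⟩ := Polar.exists_val_add_sing he hw 0
    have := key _ e ha he (by simpa [Polar.sing_B he] using hw) hk₀ 1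
    rwa [one_smul, map_add, h2, smul_add, add_left_inj] at this
  refine ⟨k₀, fun w => ?_⟩
  by_cases hw : Q.B w e = 0
  · have h4 : Q.B e' e ≠ 0 := Q.B_ne_symm (by simp [hee])
    have := h3 (w + e') (by simpa [hw] using h4)
    rwa [map_add, h3 e' h4, smul_add, add_left_inj] at this
  · exact h3 w hw

theorem semi_of_mem (h : ∀ A, Mem Q X A → ∃ u, A = ln F K u) {g : V ≃ₗ[F] V} (hg : g ∈ X) :
    Semi K g := by
  intro l
  obtain ⟨k, hk⟩ := S.scalar_of_sing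
    (g.toLinearMap ∘ₗ (LinearMap.lsmul K V l).restrictScalars F ∘ₗ g.symm.toLinearMap)
    fun u hu => by
      by_cases h0 : u = 0
      · exact ⟨0, by simp [h0]⟩
      obtain ⟨u', hu'⟩ := h _ ((mem_of_sing h0 hu).map (X.inv_mem hg))
      obtain ⟨a, ha, ha'⟩ := hu'.ge (ln_smul_mem (hu'.le ⟨u, self_mem_ln u, rfl⟩) l)
      obtain ⟨k, rfl⟩ := mem_ln.1 ha
      exact ⟨k, (g.symm_apply_eq.1 ha').symm⟩
  exact ⟨k, fun x => by simpa using hk (g x)⟩

theorem eq_ln_of_disjoint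
    (hmax : ∀ A₁ A₂, Mem Q X A₁ → Mem Q X A₂ → A₁ ≠ A₂ → finrank F ↥(A₁ ⊓ A₂) ≤ 0)
    {A : Submodule F V} (h : Mem Q X A) : ∃ u, A = ln F K u := by
  have := S.finV
  have := S.finK
  have key : ∀ e ∈ A, e ≠ 0 → Q.Val e 0 → A = ln F K e := fun e he h0 hes => by
    by_contra hne
    have h1 := hmax _ _ h (mem_of_sing h0 hes) hne
    rw [Nat.le_zero, Submodule.finrank_eq_zero] at h1
    exact h0 (h1.le ⟨he, self_mem_ln e⟩)
  have key2 : ∀ x ∈ A, Q.B x x ≠ 0 → ¬ ln F K x ≤ A := fun x hx hxx hle =>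
    hxx (S.eq_zero_of_θ fun k => by rw [← S.B_smul]; exact S.mem_B h (hle (smul_mem_ln k x)) hx)
  obtain ⟨x, hx, hx0⟩ := exists_notMem_of_finrank_lt (U := ⊥) (W := A) (by
    rw [h.finrank_eq, finrank_bot]; exact S.prime.pos)
  replace hx0 : x ≠ 0 := by simpa using hx0
  by_cases hxx : Q.B x x = 0
  · exact ⟨x, key x hx hx0 ((Polar.sing_iff_of_unitary S.τne S.εQ).2 hxx)⟩
  exfalso
  obtain ⟨a, ha, hax⟩ : ∃ a ∈ A, a ∉ K ∙ x := by
    by_contra! hcon
    exact key2 x hx hxx (Submodule.eq_of_le_of_finrank_eq (S₁ := A) hcon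
      (by rw [h.finrank_eq, finrank_ln hx0])).ge
  have hst : ∀ g : V ≃ₗ[K] V, g.restrictScalars F ∈ X → g x = x → ∀ a ∈ A, g a ∈ A :=
    fun g hg hgx a ha => (map_eq_of_inv hmax h hg (N := F ∙ x) (by simpa using hx)
      (by rw [finrank_span_singleton hx0]; omega) fun n hn => by
        obtain ⟨t, rfl⟩ := Submodule.mem_span_singleton.1 hn
        rwa [map_smul, LinearEquiv.restrictScalars_apply, hgx]).le ⟨a, ha, rfl⟩
  obtain ⟨N, hN⟩ : ∃ N, N = Q.perp (K ∙ x) := ⟨_, rfl⟩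
  have hN1 : Q.perp N = K ∙ x := by rw [hN, Polar.perp_perp]
  have hN2 : ∀ z, z ∈ N ↔ Q.B z x = 0 := fun z => by rw [hN, Polar.perp_span_singleton]; rfl
  have hN3 : ∀ z ∈ N, z ≠ 0 → z ∉ Q.perp N := fun z h1 h0 h2 => by
    obtain ⟨k, rfl⟩ := Submodule.mem_span_singleton.1 (hN1 ▸ h2)
    have := (hN2 _).1 h1
    simp only [map_smul, LinearMap.smul_apply, smul_eq_mul, mul_eq_zero, hxx, or_false] at this
    simp [this] at h0
  have hsing : ∀ e ∈ N, e ≠ 0 → ¬ Q.Val e 0 := fun e0 he0 he0' he0s => by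
    obtain ⟨e, he, hes, hae⟩ := exists_sing_ne he0 he0s (hN3 e0 he0 he0') (z := a) (hN1 ▸ hax)
    obtain ⟨δ, hδ0, hδ⟩ := exists_skew Q.σ Q.σσ S.τne
    obtain ⟨g, hg, hg'⟩ := (S.zk_tv hes hδ).has
    have h1 := A.sub_mem (hst (Polar.eichE (w := 0) (c := δ) hes (by simp)
      ((Polar.val_iff_of_unitary S.τne S.εQ).2 (by simp [hδ]))) (S.eich_mem _ _ _)
      (Polar.eich_fix _ (Q.B_symm ((hN2 e).1 he)) (by simp)) a ha) ha
    simp only [Polar.eichE_apply, Polar.eich, smul_zero, add_zero, map_zero, mul_zero, zero_add,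
      sub_sub_cancel_left, neg_mem_iff] at h1
    have h2 := key _ h1 (smul_ne_zero (by simp [hδ0, hae]) fun e => hae (by simp [e]))
      (Polar.sing_smul hes _)
    obtain ⟨k, rfl⟩ := mem_ln.1 (h2 ▸ hx)
    exact hxx (by simp [Polar.sing_B hes])
  rcases S.nu with hm | ⟨ν, h1, h2, h3⟩
  · obtain ⟨e, he, he0, hes⟩ := Polar.wild_two_of_unitary S.τne S.εQ N (by
      have := Q.finrank_perp (K ∙ x)
      have := finrank_span_singleton_le (F := K) x
      rw [hN]; omega)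
    exact hsing e he he0 hes
  obtain ⟨y, hy⟩ : ∃ y, y = a - (Q.B a x / Q.B x x) • x := ⟨_, rfl⟩
  have hyx : Q.B y x = 0 := by simp [hy, hxx]
  have hyy : Q.B y y ≠ 0 := fun e => hsing y ((hN2 y).2 hyx) (fun e => hax
    (Submodule.mem_span_singleton.2 ⟨_, (sub_eq_zero.1 (hy ▸ e)).symm⟩))
    ((Polar.sing_iff_of_unitary S.τne S.εQ).2 e)
  have hay : Q.B a y = Q.B y y := by
    nth_rewrite 2 [hy]
    simp [Q.B_symm hyx]
  obtain ⟨g, hg, hdet, hg'⟩ := exists_refl S.τne S.εQ hyy h1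
  have h4 := hst g (S.mem g hg (hdet ▸ h2)) (by simp [hg', Q.B_symm hyx])
  have h5 : ν - 1 ≠ 0 := sub_ne_zero.2 fun e => h3 ⟨1, by simp [e]⟩
  have h6 : (ν - 1) • y ∈ A ⊓ ln F K y := ⟨by simpa [hg', hay, hyy] using A.sub_mem (h4 a ha) ha,
    smul_mem_ln _ _⟩
  have h7 : ∀ k : K, k • y ∈ A := fun k => by
    simpa [smul_smul, h5] using (smul_mem_of_prime S.prime h3 (D := A ⊓ ln F K y) (fun d hd => by
      refine ⟨?_, ln_smul_mem hd.2 ν⟩
      obtain ⟨t, rfl⟩ := mem_ln.1 hd.2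
      have h8 : g (t • y) = ν • t • y := by
        rw [hg']
        simp only [map_smul, LinearMap.smul_apply, smul_eq_mul, ← mul_assoc,
          mul_div_cancel_right₀ _ hyy]
        module
      exact h8 ▸ h4 _ hd.1) (k / (ν - 1)) h6).1
  refine key2 y (by simpa using h7 1) hyy fun z hz => ?_
  obtain ⟨k, rfl⟩ := mem_ln.1 hz
  exact h7 k

variable {j : ℕ}
  (hmax : ∀ A₁ A₂, Mem Q X A₁ → Mem Q X A₂ → A₁ ≠ A₂ → finrank F ↥(A₁ ⊓ A₂) ≤ j)
include hmax

theorem caseA (hb : Bad Q X) (hj0 : 0 < j) {u : V} (hu : Q.Val u 0) {A : Submodule F V}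
    (h : Mem Q X A) (hj : j ≤ finrank F ↥(ln F K u ⊓ A)) {s : V} (hs : s ∈ A)
    (hsL : s ∉ ln F K u) (hsu : Q.B s u = 0) : False := by
  have := S.finV
  have := S.finF
  obtain ⟨d, hd, hd0⟩ := exists_notMem_of_finrank_lt (U := ⊥) (W := ln F K u ⊓ A) (by
    rw [finrank_bot]; omega)
  refine no_shift_all hb S.prime S.σne h hd.2 (by simpa using hd0) hs fun c => ?_
  obtain ⟨k, hk⟩ := mem_ln.1 (Submodule.smul_mem _ c hd.1)
  obtain ⟨w, hw, hsw⟩ := Polar.exists_sep (P := Q) (U := K ∙ u) hsL (-k)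
  rw [Polar.perp_span_singleton, Polar.mem_pp] at hw
  obtain ⟨e, he⟩ := Q.val_ex w
  have hfix : ∀ d ∈ ln F K u, Q.eich u w e d = d := fun d hd => by
    obtain ⟨k, rfl⟩ := mem_ln.1 hd
    exact Polar.eich_fix _ (by simp [Polar.sing_B hu]) (by simp [Q.B_symm hw])
  have hρ := S.eich_mem hu hw he
  have h2 : Q.eich u w e s = s + c • d := by simp [Polar.eich, hsu, hsw, S.εQ, hk]
  exact ⟨_, hρ, map_eq_of_shift hmax h hj hs hsL hρ (fun d hd => hfix d hd.1)
    (by simpa [h2] using Submodule.smul_mem _ c hd), hfix d hd.1, h2⟩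

theorem caseA' (hb : Bad Q X) (hj0 : 0 < j) {A₁ A₂ : Submodule F V}
    (h₁ : Mem Q X A₁) (h₂ : Mem Q X A₂) (hj : j ≤ finrank F ↥(A₁ ⊓ A₂))
    {s : V} (hs : s ∈ A₂) (hsL : s ∉ A₁) (hsu : ∀ a ∈ A₁, P.B s a = 0) : False := by
  obtain ⟨g, hg, u, h0, hu, rfl⟩ := h₁
  obtain ⟨s, rfl⟩ := g.surjective s
  refine S.caseA hmax hb hj0 hu (h₂.map (X.inv_mem hg)) (finrank_map_inf g _ _ ▸ hj) (s := s)
    ⟨_, hs, g.symm_apply_apply s⟩ (fun h => hsL ⟨s, h, rfl⟩) (S.mem_perp_ln.1 fun a ha => ?_)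
  rw [← Polar.Iso.B (S.iso hg)]
  exact hsu _ ⟨a, ha, rfl⟩

theorem caseB (hb : Bad Q X) (hj0 : 0 < j) {u : V} (h0 : u ≠ 0) (hu : Q.Val u 0)
    {A : Submodule F V} (h : Mem Q X A) (hne : A ≠ ln F K u)
    (hj : j ≤ finrank F ↥(ln F K u ⊓ A)) : False := by
  have := S.finV
  have := S.finF
  have := S.finK
  have huu := Polar.sing_B hu
  obtain ⟨C, hC, hC'⟩ := IsModularLattice.exists_disjoint_and_sup_eq
    (inf_le_right : ln F K u ⊓ A ≤ A)
  have hCA : C ≤ A := hC' ▸ le_sup_right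
  have h1 := Submodule.finrank_sup_add_finrank_inf_eq (ln F K u ⊓ A) C
  rw [hC', hC.eq_bot, finrank_bot, h.finrank_eq] at h1
  have h2 : 0 < finrank F C := Nat.pos_of_ne_zero fun e => hne
    (Submodule.eq_of_le_of_finrank_eq (by
      rw [← hC', Submodule.finrank_eq_zero.1 e, sup_bot_eq]; exact inf_le_left)
      (by rw [h.finrank_eq, finrank_ln h0]))
  have : Nonempty (Fin (finrank F C)) := ⟨⟨0, h2⟩⟩
  let b := Module.finBasis F C
  obtain ⟨a, ha, ha'⟩ := S.exists_fixed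
  have h3 : (minpoly F a).natDegree = finrank F K :=
    ((Nat.dvd_prime S.prime).1 (minpoly.degree_dvd (Algebra.IsIntegral.isIntegral a))).resolve_left
      fun e => ha' (minpoly.natDegree_eq_one_iff.1 e)
  obtain ⟨x, hx, hx0, hdet⟩ := exists_det_zero P.σ P.σσ S.σne (ι := Fin (finrank F C))
    (κ := Fin (minpoly F a).natDegree) (by simp only [Fintype.card_fin]; omega)
    (fun k => Matrix.of fun i l => P.B ((a ^ (k : ℕ) * Q.B (b i) u) • u) (b l)) fun k i l => by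
      simp only [Matrix.of_apply, Polar.σ_herm, S.εP, one_mul]
      simp only [S.B, map_smul, LinearMap.smul_apply, Polar.B_smul_right, map_mul, map_pow, ha,
        Polar.σ_herm, S.εQ, smul_eq_mul]
      congr 1
      ring
  obtain ⟨a₀, ha₀⟩ : ∃ a₀, a₀ = ∑ k, x k • a ^ (k : ℕ) := ⟨_, rfl⟩
  have h4 : a₀ ≠ 0 := fun e => hx0 (funext
    (Fintype.linearIndependent_iff.1 (linearIndependent_pow a) x (ha₀ ▸ e)))
  have h5 : Q.σ a₀ = a₀ := by simp [ha₀, Algebra.smul_def, S.alg, hx, ha]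
  obtain ⟨v, hv0, hv⟩ := Matrix.exists_vecMul_eq_zero_iff.2 hdet
  obtain ⟨s, hs⟩ : ∃ s : C, s = ∑ i, v i • b i := ⟨_, rfl⟩
  have hs0 : s ≠ 0 := fun e => hv0 (funext
    (Fintype.linearIndependent_iff.1 b.linearIndependent v (hs ▸ e)))
  have hsL : (s : V) ∉ ln F K u := fun e =>
    hs0 (Subtype.ext (hC.le_bot ⟨⟨e, hCA s.2⟩, s.2⟩))
  have h6 : Q.B s u ≠ 0 := S.caseA hmax hb hj0 hu h hj (hCA s.2) hsL
  have h7 : ∀ l, P.B ((a₀ * Q.B s u) • u) (b l) = 0 := fun l => by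
    rw [← show _ = (0 : F) from congrFun hv l]
    simp only [Matrix.vecMul, dotProduct, Matrix.sum_apply, Matrix.smul_apply, Matrix.of_apply,
      S.B_smul, hs, ha₀, Submodule.coe_sum, Submodule.coe_smul, map_sum, LinearMap.sum_apply,
      Finset.sum_mul, Finset.mul_sum, smul_eq_mul]
    refine Finset.sum_congr rfl fun i _ => Finset.sum_congr rfl fun k _ => ?_
    rw [← algebraMap_smul K (v i), Q.B.map_smul, ← mul_assoc (v i), ← smul_eq_mul (_ * _) (θ _),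
      ← θ.map_smul, Algebra.smul_def, Algebra.smul_def, LinearMap.smul_apply, smul_eq_mul,
      map_mul (algebraMap F K)]
    congr 1
    ring
  have h8 : (a₀ * Q.B s u) • u ∈ A := by
    by_contra hn
    refine S.caseA' hmax hb hj0 h (mem_of_sing h0 hu) (inf_comm A _ ▸ hj) (smul_mem_ln _ u) hn
      fun y hy => ?_
    obtain ⟨d, hd, c, hc, rfl⟩ := Submodule.mem_sup.1 (hC'.ge hy)
    rw [map_add, S.B_ln hu (smul_mem_ln _ u) hd.1, zero_add,
      show c = ∑ i, b.repr ⟨c, hc⟩ i • (b i : V) from by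
        simpa only [Submodule.coe_sum, Submodule.coe_smul] using
          congrArg Subtype.val (b.sum_repr ⟨c, hc⟩).symm, map_sum]
    simp only [Polar.B_smul_right, h7, mul_zero, Finset.sum_const_zero]
  obtain ⟨δ, hδ0, hδ⟩ := exists_skew P.σ P.σσ S.σne
  obtain ⟨g, hg, hg'⟩ := (S.zk_tv hu (l := algebraMap F K δ * a₀) (by simp [S.alg, hδ, h5])).has
  simp only [LinearMap.coe_restrictScalars, LinearMap.smul_apply, LinearMap.flip_apply,
    smul_eq_mul] at hg'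
  have hfix : ∀ d ∈ ln F K u, g d = d := fun d hd => by
    obtain ⟨k, rfl⟩ := mem_ln.1 hd
    simp [hg', huu]
  have h9 : g s = s + δ • (a₀ * Q.B s u) • u := by
    rw [hg', mul_assoc, mul_smul, algebraMap_smul]
  have h10 : δ • (a₀ * Q.B s u) • u ∈ ln F K u ⊓ A :=
    Submodule.smul_mem _ δ ⟨smul_mem_ln _ u, h8⟩
  exact no_quad hb S.prime S.three h hg (map_eq_of_shift hmax h hj (hCA s.2) hsL hg
    (fun d hd => hfix d hd.1) (by simpa [h9] using h10)) h10.2 (by simp [hδ0, h4, h6, h0])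
    (hfix _ h10.1) (hCA s.2) h9 fun a _ => hfix _ (by simp [hg', smul_mem_ln])

omit hmax in
theorem E_le_or_semi : P.E ≤ X ∨ ∀ g ∈ X, Semi K g := by
  have := S.finV
  by_cases hb : Bad Q X
  · rcases exists_max_pair Q X with h | ⟨j, hj, hmax, u, A, h0, hu, hA, hne, hj'⟩
    · exact Or.inr fun g hg => S.semi_of_mem (fun A => S.eq_ln_of_disjoint h) hg
    · exact (S.caseB hmax hb hj h0 hu hA hne hj').elim
  · exact Or.inl (S.E_le_of_not_bad hb)

end USetup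

end Cfsg.Agent.H3.ExtU
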