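import Cfsg.Agent.H3.ExtU2
import Cfsg.Agent.H3.ExtMat
import Cfsg.Agent.H8.Proper

/-!
Maximality of the extension-field subgroups of odd prime degree in the special unitary groups.
-/

set_option autoImplicit false
set_option linter.unusedSectionVars false

namespace Cfsg.Agent.H3.ExtU

open Module Cfsg.Agent.H7 Cfsg.Agent.H3.Ext

/-- The polar space of a non-degenerate hermitian form. -/
def hermPolar {K V : Type*} [Field K] [AddCommGroup V] [Module K V] (τ : K →+* K)
    (hττ : ∀ a, τ (τ a) = a) (hτ : ∃ a, τ a ≠ a) (ψ : V → Dual K V)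
    (hs : ∀ x y, ψ x y = τ (ψ y x)) (hn : ∀ y, (∀ x, ψ y x = 0) → y = 0) : Polar K V where
  σ := τ
  ε := 1
  B := LinearMap.mk₂'ₛₗ (RingHom.id K) τ (fun x y => ψ y x) (fun _ _ _ => map_add _ _ _)
    (fun _ _ _ => map_smul _ _ _) (fun x y z => by rw [hs, map_add, map_add, ← hs, ← hs])
    (fun c x y => by rw [hs, map_smul, smul_eq_mul, map_mul, ← hs]; rfl)
  Val x c := ψ x x = c + τ c
  σσ := hττ
  εε := Or.inl rfl
  herm x y := by simp [hs x y]
  nondeg := hn
  val_ex x := by
    obtain ⟨θ, hθ⟩ := exists_trace_one τ hττ hτ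
    refine ⟨θ * ψ x x, ?_⟩
    rw [map_mul, ← hs]
    linear_combination (-ψ x x) * hθ
  val_add {x y c d} hx hy := by
    rw [map_add, hs _ x, hs _ y]
    simp only [map_add, hx, hy, LinearMap.mk₂'ₛₗ_apply, hττ, hs x y]
    ring
  val_smul {x c} a hx := by
    rw [map_smul, hs, map_smul, hx]
    simp only [map_mul, map_add, hττ, smul_eq_mul]
    ring
  val_self hx := by simpa using hx
  val_min a := by simp [hττ]

variable {F K V : Type*} [Field F] [Field K] [Algebra F K] [AddCommGroup V] [Module F V]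
  [Module K V] [IsScalarTower F K V]

theorem exists_polarK [FiniteDimensional F K] [FiniteDimensional K V] [Nontrivial V]
    {P : Polar F V} (hε : P.ε = 1) (hσ : ∃ a, P.σ a ≠ a)
    (hadj : ∀ k : K, ∃ k' : K, ∀ x y, P.B (k • x) y = P.B x (k' • y)) :
    ∃ (Q : Polar K V) (θ : K →ₗ[F] F), Q.ε = 1 ∧
      (∀ c, Q.σ (algebraMap F K c) = algebraMap F K (P.σ c)) ∧ θ ≠ 0 ∧
      ∀ x y, P.B x y = θ (Q.B x y) := by
  choose τ₀ hτ₀ using hadj
  have uniq : ∀ k l : K, (∀ x y, P.B x (k • y) = P.B x (l • y)) → k = l := fun k l h => by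
    obtain ⟨y, hy⟩ := exists_ne (0 : V)
    exact smul_left_injective K hy (sub_eq_zero.1 (P.nondeg _ fun x => by
      rw [map_sub, h, sub_self]))
  let τ : K →+* K :=
    { toFun := τ₀
      map_one' := uniq _ _ fun x y => by rw [← hτ₀, one_smul, one_smul]
      map_mul' := fun a b => uniq _ _ fun x y => by
        rw [← hτ₀, mul_smul, hτ₀, hτ₀, smul_smul, mul_comm]
      map_zero' := uniq _ _ fun x y => by rw [← hτ₀]; simp
      map_add' := fun a b => uniq _ _ fun x y => by
        rw [← hτ₀, add_smul, add_smul, map_add, map_add, LinearMap.add_apply, hτ₀, hτ₀] }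
  have hτ : ∀ k x y, P.B (k • x) y = P.B x (τ k • y) := hτ₀
  have hττ : ∀ k, τ (τ k) = k := fun k => uniq _ _ fun x y => by
    rw [← hτ, P.herm, ← hτ, ← P.herm]
  have halg : ∀ c, τ (algebraMap F K c) = algebraMap F K (P.σ c) := fun c => uniq _ _ fun x y => by
    rw [← hτ]; simp
  obtain ⟨θ, hθ, hθ'⟩ : ∃ θ : K →ₗ[F] F, θ ≠ 0 ∧ ∀ k, θ (τ k) = P.σ (θ k) := by
    obtain ⟨θ, hθ1⟩ := exists_dual_one' (F := F) (one_ne_zero : (1 : K) ≠ 0)
    let θ' : K →ₗ[F] F :=
      { toFun := fun k => P.σ (θ (τ k))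
        map_add' := fun a b => by simp
        map_smul' := fun c a => by
          rw [Algebra.smul_def, map_mul, halg, ← Algebra.smul_def]; simp }
    by_contra! hcon
    have h1 : ∀ c : F, c • θ + P.σ c • θ' = 0 := fun c => by
      by_contra h
      obtain ⟨k, hk⟩ := hcon _ h
      exact hk (by simp [θ', hττ, add_comm])
    obtain ⟨c, hc⟩ := hσ
    have h2 := DFunLike.congr_fun (h1 c) 1
    have h3 := DFunLike.congr_fun (h1 1) 1
    simp only [LinearMap.add_apply, LinearMap.smul_apply, hθ1, smul_eq_mul, map_one,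
      LinearMap.zero_apply] at h2 h3
    exact hc (by linear_combination P.σ c * h3 - h2)
  have hinj : ∀ a b : K, (∀ k, θ (k * a) = θ (k * b)) → a = b := fun a b h => by
    by_contra hne
    refine hθ (LinearMap.ext fun k => ?_)
    have := h (k / (a - b))
    rwa [← sub_eq_zero, ← map_sub, ← mul_sub, div_mul_cancel₀ _ (sub_ne_zero.2 hne)] at this
  choose ψ hψ using fun y => exists_dualK (K := K) hθ (P.B.flip y)
  have h1 : ∀ k x y, θ (k * ψ y x) = P.B (k • x) y := fun k x y => by
    rw [← smul_eq_mul, ← map_smul, hψ]; rfl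
  have hs : ∀ x y, ψ x y = τ (ψ y x) := fun x y => hinj _ _ fun k => by
    rw [h1, P.herm, ← hττ k, ← hτ, ← map_mul, hθ', h1, hε, one_mul]
  obtain ⟨c, hc⟩ := hσ
  exact ⟨hermPolar τ hττ ⟨algebraMap F K c, by rw [halg]; simpa using hc⟩ ψ hs
    (fun y hy => P.nondeg y fun x => by
      have := hψ y x
      rw [hy x, map_zero] at this
      exact this.symm), θ, rfl, halg, hθ, fun x y => (hψ y x).symm⟩

open Matrix in
/-- The normaliser of an adjoint-closed field of odd prime degree `r < n` is maximal in the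
special unitary group, except in `SU₆(2)`. -/
theorem ext_maximal_su {F : Type*} [Field F] [Fintype F] {q : ℕ} (hF : Fintype.card F = q ^ 2)
    {n r : ℕ} (hr : r.Prime) (h3 : 3 ≤ r) (hlt : r < n) (hex : ¬ (q = 2 ∧ n = 6))
    {K : Subalgebra F (Matrix (Fin n) (Fin n) F)} (hK : Geo.IsFieldSubalgebra r K)
    (had : Geo.IsAdjointClosedFor (hermForm n F q) K) :
    Geo.IsMaximalIn (GU n F q ⊓ Geo.specialLinear (Fin n) F)
      (Geo.subalgebraNormalizer K ⊓ (GU n F q ⊓ Geo.specialLinear (Fin n) F)) := by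
  have : Nonempty (Fin n) := ⟨⟨0, by omega⟩⟩
  let _ : Field K := (Asch.isField_of_inv hK.comm hK.inv).toField
  have hm := finrank_mul_finrank F K (Fin n → F)
  rw [hK.finrank_eq, finrank_fintype_fun_eq_card, Fintype.card_fin] at hm
  have hm2 : 2 ≤ finrank K (Fin n → F) := by
    by_contra h
    have := Nat.mul_le_mul_left r (by omega : finrank K (Fin n → F) ≤ 1)
    omega
  have hn : 6 ≤ n := hm ▸ Nat.mul_le_mul h3 hm2
  have : FiniteDimensional K (Fin n → F) := Module.finite_of_finrank_pos (by omega)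
  obtain ⟨Q, θ, hε, halg, hθ, hB⟩ := exists_polarK (K := K) (P := uStd hF n) rfl
    (unitPowPolar_ne _ _) fun k => by
      obtain ⟨k', hk', h⟩ := had k k.2
      exact ⟨⟨k', hk'⟩, h⟩
  refine isMaximalIn_of inf_le_right ?_ fun X hX hX' g hg hgN => ?_
  · by_contra! hcon
    exact (H8.hasE_SU hF hn).not_le_subalgebraNormalizer hr.two_le hK
      fun g hg => (hcon g hg).1
  have S : USetup (uStd hF n) Q θ (X.map toLE.toMonoidHom) :=
    { εP := rfl
      εQ := hε
      σne := unitPowPolar_ne _ _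
      alg := halg
      θne := hθ
      B := hB
      iso := by
        rintro _ ⟨g, hg, rfl⟩
        exact (mem_GU_iff hF n g).1 (hX' hg).1
      mem := fun g hg hd => by
        obtain ⟨g', hg'⟩ := toLE.surjective (g.restrictScalars F)
        refine ⟨g', hX ⟨(mem_normalizer_iff g').mpr fun l => ⟨l, fun x => by
          rw [hg']; exact g.map_smul l x⟩, (mem_GU_iff hF n g').2 ?_,
          (mem_specialLinear_iff g').2 ?_⟩, hg'⟩
        · rw [hg']
          exact Polar.mem_Iso_of_unitary (unitPowPolar_ne _ _) rfl fun x y => by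
            rw [hB, hB]; exact congrArg θ (Polar.Iso.B hg x y)
        · rw [hg', mem_SLV, ← hd]
          exact LinearMap.det_restrictScalars (f := g.toLinearMap)
      prime := hK.finrank_eq ▸ hr
      three := hK.finrank_eq ▸ h3
      two := hm2
      nu := by
        by_cases h : 3 ≤ finrank K (Fin n → F)
        · exact Or.inl h
        obtain ⟨c, hc⟩ := unitPowPolar_ne hF (isUnitaryFormPow_hermForm hF n)
        refine Or.inr (exists_nu Q.σσ ⟨algebraMap F K c, by rw [halg]; simpa using hc⟩ halg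
          (q := q) (fun _ => rfl) (by rw [Nat.card_eq_fintype_card, hF]) ?_
          (by rw [hK.finrank_eq]; omega))
        rw [hK.finrank_eq]
        refine mul_succ_le_pow (one_lt_q hF) h3 fun e => hex ⟨e.1, ?_⟩
        rw [← hm, e.2, show finrank K (Fin n → F) = 2 by omega] }
  rcases S.E_le_or_semi with h | h
  · intro k hk
    obtain ⟨k', hk', e⟩ := h ((mem_SU_iff hF hn k).1 hk)
    exact toLE.injective e ▸ hk'
  · exact absurd ⟨(mem_normalizer_iff g).mpr (h _ ⟨g, hg, rfl⟩), hX' hg⟩ hgN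

end Cfsg.Agent.H3.ExtU
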