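import Mathlib
import Cfsg.Agent.H3.NormalMulti

/-!
Generously transitive permutation groups.
-/

set_option autoImplicit false

namespace Cfsg.Agent.H3.Generous

open MulAction Cfsg.Agent.H3.Multi Cfsg.Agent.H3.NormalMulti
open scoped Pointwise

variable {α : Type*}

/-- Every permutation stabilising a `(k + 1)`-set agrees on it with an element of `G`. -/
def Gen (G : Subgroup (Equiv.Perm α)) (k : ℕ) : Prop :=
  ∀ s : Finset α, s.card = k + 1 → ∀ τ : Equiv.Perm α, (∀ x ∈ s, τ x ∈ s) →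
    ∃ g ∈ G, ∀ x ∈ s, g x = τ x

theorem gen_of_hgen [DecidableEq α] (G : Subgroup (Equiv.Perm α)) {k : ℕ}
    (hgen : ∀ s : Finset α, s.card = k + 1 → ∀ σ : Equiv.Perm ↥s,
      ∃ g ∈ G, ∀ x : ↥s, g (x : α) = σ x) : Gen G k := by
  intro s hs τ hτ
  obtain ⟨g, hg, h⟩ := hgen s hs (τ.subtypePermOfFintype hτ)
  exact ⟨g, hg, fun x hx => h ⟨x, hx⟩⟩

theorem Gen.multiply [Finite α] {G : Subgroup (Equiv.Perm α)} {k : ℕ} (h : Gen G k)
    (hk : k < Nat.card α) : IsMultiplyPretransitive G α k := by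
  classical
  have := Fintype.ofFinite α
  have hswap : ∀ (a b : α) (s : Finset α), s.card = k →
      ∃ g ∈ G, ∀ x ∈ s, g x = Equiv.swap a b x := by
    have aux : ∀ (a b : α) (s : Finset α), s.card = k → a ∈ s →
        ∃ g ∈ G, ∀ x ∈ s, g x = Equiv.swap a b x := by
      intro a b s hs ha
      obtain ⟨t, hst, -, ht⟩ := Finset.exists_subsuperset_card_eq (n := k + 1)
        (Finset.subset_univ (insert b s)) (by have := Finset.card_insert_le b s; omega)
        (by rw [Finset.card_univ, ← Nat.card_eq_fintype_card]; omega)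
      obtain ⟨g, hg, h1⟩ := h t ht (Equiv.swap a b) (fun x hx => by
        rw [Equiv.swap_apply_def]
        split_ifs
        · exact hst (by simp)
        · exact hst (by simp [ha])
        · exact hx)
      exact ⟨g, hg, fun x hx => h1 x (hst (by simp [hx]))⟩
    intro a b s hs
    by_cases ha : a ∈ s
    · exact aux a b s hs ha
    by_cases hb : b ∈ s
    · rw [Equiv.swap_comm]; exact aux b a s hs hb
    refine ⟨1, G.one_mem, fun x hx => ?_⟩
    rw [Equiv.swap_apply_of_ne_of_ne (fun e : x = a => ha (e ▸ hx))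
      (fun e : x = b => hb (e ▸ hx))]
    rfl
  have hall : ∀ τ : Equiv.Perm α, ∀ s : Finset α, s.card = k → ∃ g ∈ G, ∀ x ∈ s, g x = τ x := by
    intro τ
    induction τ using Equiv.Perm.swap_induction_on with
    | one => exact fun s _ => ⟨1, G.one_mem, fun _ _ => rfl⟩
    | swap_mul f a b _ ih =>
      intro s hs
      obtain ⟨g, hg, h1⟩ := ih s hs
      obtain ⟨g', hg', h2⟩ := hswap a b (s.image f)
        (by rw [Finset.card_image_of_injective _ f.injective, hs])
      refine ⟨g' * g, G.mul_mem hg' hg, fun x hx => ?_⟩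
      rw [Equiv.Perm.mul_apply, Equiv.Perm.mul_apply, h1 x hx, h2 _ (Finset.mem_image_of_mem _ hx)]
  refine ⟨fun x y => ?_⟩
  obtain ⟨τ, hτ⟩ := Equiv.Perm.exists_smul_eq_embedding x y
  obtain ⟨g, hg, h1⟩ := hall τ (Finset.univ.map x) (by simp)
  refine ⟨⟨g, hg⟩, Function.Embedding.ext fun i => ?_⟩
  rw [← hτ]
  exact h1 (x i) (by simp)

/-- In a generously `k`-transitive group, a permutation of a `k`-set is induced by an element
fixing any prescribed further point. -/
theorem Gen.exists_fix {G : Subgroup (Equiv.Perm α)} {k : ℕ} (h : Gen G k) (s : Finset α)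
    (hs : s.card = k) (τ : Equiv.Perm α) (hτ : ∀ x ∈ s, τ x ∈ s) {c : α} (hc : c ∉ s) :
    ∃ g ∈ G, (∀ x ∈ s, g x = τ x) ∧ g c = c := by
  classical
  let σ : Equiv.Perm α := Equiv.Perm.ofSubtype (τ.subtypePermOfFintype hτ)
  have h1 : ∀ x ∈ s, σ x = τ x := fun x hx => by
    rw [Equiv.Perm.ofSubtype_apply_of_mem _ hx]; rfl
  have h2 : σ c = c := Equiv.Perm.ofSubtype_apply_of_not_mem _ hc
  obtain ⟨g, hg, h3⟩ := h (insert c s) (by rw [Finset.card_insert_of_notMem hc, hs]) σ (by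
    intro x hx
    rcases Finset.mem_insert.mp hx with rfl | hx
    · rw [h2]; simp
    · rw [h1 x hx]; simp [hτ x hx])
  exact ⟨g, hg, fun x hx => (h3 x (by simp [hx])).trans (h1 x hx), (h3 c (by simp)).trans h2⟩

theorem Gen.orbit_fix {G : Subgroup (Equiv.Perm α)} {k : ℕ} (h : Gen G k) (s : Finset α)
    (hs : s.card = k) {g : Equiv.Perm α} (hg : g ∈ G) (hgs : ∀ x ∈ s, g x ∈ s) {a : α}
    (ha : a ∉ s) : ∃ g' ∈ G, (∀ x ∈ s, g' x = x) ∧ g' a = g a := by
  obtain ⟨u, hu, h1, h2⟩ := h.exists_fix s hs g hgs ha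
  refine ⟨g * u⁻¹, G.mul_mem hg (G.inv_mem hu), fun x hx => ?_, ?_⟩
  · have hsurj : ∃ y ∈ s, g y = x := by
      have := Finset.surj_on_of_inj_on_of_card_le (s := s) (t := s) (fun y _ => g y)
        (fun y hy => hgs y hy) (fun _ _ _ _ e => g.injective e) le_rfl x hx
      obtain ⟨y, hy, e⟩ := this
      exact ⟨y, hy, e.symm⟩
    obtain ⟨y, hy, rfl⟩ := hsurj
    rw [Equiv.Perm.mul_apply]
    congr 1
    rw [Equiv.Perm.inv_eq_iff_eq, h1 y hy]
  · rw [Equiv.Perm.mul_apply]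
    congr 1
    rw [Equiv.Perm.inv_eq_iff_eq, h2]

/-- Neumann's lemma. -/
theorem Gen.exists_dvd [Finite α] {G : Subgroup (Equiv.Perm α)} {k : ℕ} (h : Gen G k)
    (hk : k < Nat.card α) {p : ℕ} (hp : p.Prime) (hpk : p ≤ k) (Γ : Finset α) (hΓ : Γ.card = k)
    (f : Fin p → α) (hf : ∀ i, f i ∉ Γ)
    (hdist : ∀ i j, i ≠ j → f j ∉ orbit (fixingSubgroup G (Γ : Set α)) (f i)) :
    ∃ i, p ∣ Nat.card (orbit (fixingSubgroup G (Γ : Set α)) (f i)) := by
  classical
  have := Fintype.ofFinite α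
  have : Fact p.Prime := ⟨hp⟩
  by_contra hcon
  push Not at hcon
  obtain ⟨Γ', hΓ', hΓ'c⟩ := Finset.exists_subset_card_eq (s := Γ) (n := p) (by omega)
  obtain ⟨σ, hσc, hσs⟩ : ∃ σ : Equiv.Perm α, σ.IsCycle ∧ σ.support = Γ' := by
    have h2 := hp.two_le
    refine ⟨Γ'.toList.formPerm, List.isCycle_formPerm Γ'.nodup_toList (by simpa [hΓ'c]), ?_⟩
    rw [List.support_formPerm_of_nodup _ Γ'.nodup_toList, Finset.toList_toFinset]
    intro x e
    have := congrArg List.length e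
    simp [hΓ'c] at this
    omega
  have hσo : orderOf σ = p := by rw [hσc.orderOf, hσs, hΓ'c]
  have hσΓ : ∀ (j : ℤ), ∀ y ∈ Γ, (σ ^ j) y ∈ Γ := by
    intro j y hy
    by_cases hy' : y ∈ σ.support
    · exact hΓ' (hσs ▸ Equiv.Perm.zpow_apply_mem_support.mpr hy')
    · rw [Equiv.Perm.zpow_apply_eq_self_of_apply_eq_self (Equiv.Perm.notMem_support.mp hy')]
      exact hy
  set H := fixingSubgroup G (Γ : Set α) with hH
  let K : Subgroup G :=
    { carrier := {x | ∃ j : ℤ, ∀ y ∈ Γ, x • y = (σ ^ j) y}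
      one_mem' := ⟨0, fun y _ => by simp⟩
      mul_mem' := by
        rintro x x' ⟨j, hj⟩ ⟨j', hj'⟩
        refine ⟨j + j', fun y hy => ?_⟩
        rw [mul_smul, hj' y hy, hj _ (hσΓ j' y hy), zpow_add, Equiv.Perm.mul_apply]
      inv_mem' := by
        rintro x ⟨j, hj⟩
        refine ⟨-j, fun y hy => ?_⟩
        rw [inv_smul_eq_iff, hj _ (hσΓ _ y hy), ← Equiv.Perm.mul_apply, ← zpow_add]
        simp }
  have hKmem : ∀ x : G, x ∈ K ↔ ∃ j : ℤ, ∀ y ∈ Γ, x • y = (σ ^ j) y := fun _ => Iff.rfl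
  have hHK : H ≤ K := fun x hx => ⟨0, fun y hy => by
    simpa using (mem_fixingSubgroup_iff G).mp hx y hy⟩
  have horb : ∀ c, c ∉ Γ → orbit K c = orbit H c := by
    intro c hc
    apply Set.Subset.antisymm
    · rintro _ ⟨x, rfl⟩
      obtain ⟨j, hj⟩ := x.2
      obtain ⟨g', hg', h1, h2⟩ := h.orbit_fix Γ hΓ (x : G).2
        (fun y hy => by
          have h1 : ((x : G) : Equiv.Perm α) y = (σ ^ j) y := hj y hy
          rw [h1]; exact hσΓ j y hy) hc
      exact ⟨⟨⟨g', hg'⟩, (mem_fixingSubgroup_iff G).mpr h1⟩, h2⟩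
    · rintro _ ⟨x, rfl⟩
      exact ⟨⟨x, hHK x.2⟩, rfl⟩
  obtain ⟨Q⟩ : Nonempty (Sylow p K) := inferInstance
  have hfixpt : ∀ i, ∃ c ∈ orbit H (f i), ∀ q ∈ (Q : Subgroup K), ((q : K) : G) • c = c := by
    intro i
    obtain ⟨c, hc⟩ := Q.isPGroup'.nonempty_fixed_point_of_prime_not_dvd_card (orbit K (f i))
      (by rw [horb _ (hf i)]; exact hcon i)
    refine ⟨c, horb _ (hf i) ▸ c.2, fun q hq => ?_⟩
    exact congrArg Subtype.val (hc ⟨q, hq⟩)
  choose c hc hcq using hfixpt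
  have hcΓ : ∀ i, c i ∉ Γ := fun i => by
    obtain ⟨x, hx⟩ := hc i
    rw [← hx]
    exact smul_notMem_of_fix (s := (Γ : Set α)) ((mem_fixingSubgroup_iff G).mp x.2) (hf i)
  have hcinj : Function.Injective c := by
    intro i j hij
    by_contra hne
    apply hdist i j hne
    have h1 := (orbit_eq_iff.mpr (hc i)).symm.trans (hij ▸ orbit_eq_iff.mpr (hc j))
    rw [h1]
    exact mem_orbit_self _
  let Δ : Finset α := (Γ \ Γ') ∪ Finset.univ.image c
  have hΔ : Δ.card = k := by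
    rw [Finset.card_union_of_disjoint, Finset.card_sdiff_of_subset hΓ',
      Finset.card_image_of_injective _ hcinj]
    · simp only [Finset.card_univ, Fintype.card_fin]; omega
    · rw [Finset.disjoint_left]
      intro x hx hx'
      obtain ⟨i, -, rfl⟩ := Finset.mem_image.mp hx'
      exact hcΓ i (Finset.mem_sdiff.mp hx).1
  have hQΔ : (Q : Subgroup K).map K.subtype ≤ fixingSubgroup G (Δ : Set α) := by
    rintro _ ⟨q, hq, rfl⟩
    rw [mem_fixingSubgroup_iff]
    intro y hy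
    rcases Finset.mem_union.mp hy with hy | hy
    · obtain ⟨j, hj⟩ := q.2
      obtain ⟨h1, h2⟩ := Finset.mem_sdiff.mp hy
      refine (hj y h1).trans ?_
      exact Equiv.Perm.zpow_apply_eq_self_of_apply_eq_self
        (Equiv.Perm.notMem_support.mp (hσs ▸ h2)) j
    · obtain ⟨i, -, rfl⟩ := Finset.mem_image.mp hy
      exact hcq i q hq
  have hmul := h.multiply hk
  have hcardΔ : Nat.card (fixingSubgroup G (Δ : Set α)) = Nat.card H := by
    have h1 := hmul.index_of_fixingSubgroup_mul (s := (Δ : Set α)) (by simp [hΔ])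
    have h2 := hmul.index_of_fixingSubgroup_mul (s := (Γ : Set α)) (by simp [hΓ])
    have h3 := Nat.eq_of_mul_eq_mul_right (Nat.factorial_pos _) (h1.trans h2.symm)
    have h4 := (fixingSubgroup G (Δ : Set α)).card_mul_index
    have h5 := H.card_mul_index
    rw [h3] at h4
    exact Nat.eq_of_mul_eq_mul_right (Nat.pos_of_ne_zero Subgroup.index_ne_zero_of_finite)
      (h4.trans h5.symm)
  have hQH : Nat.card (Q : Subgroup K) ∣ Nat.card H := by
    rw [← hcardΔ, ← Subgroup.card_map_of_injective K.subtype_injective]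
    exact Subgroup.card_dvd_of_le hQΔ
  have hidx : p ∣ (H.subgroupOf K).index := by
    obtain ⟨y0, hy0⟩ : Γ'.Nonempty := Finset.card_pos.mp (by rw [hΓ'c]; exact hp.pos)
    have hy0' : σ y0 ≠ y0 := Equiv.Perm.mem_support.mp (hσs ▸ hy0)
    have hst : H.subgroupOf K = stabilizer K y0 := by
      ext x
      rw [Subgroup.mem_subgroupOf, mem_stabilizer_iff, hH, mem_fixingSubgroup_iff]
      constructor
      · intro hx
        exact hx y0 (hΓ' hy0)
      · intro hx y hy
        obtain ⟨j, hj⟩ := x.2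
        have h1 : (σ ^ j) y0 = y0 := (hj y0 (hΓ' hy0)).symm.trans hx
        have h2 : (σ ^ j) y = y := by
          by_cases hy' : σ y = y
          · exact Equiv.Perm.zpow_apply_eq_self_of_apply_eq_self hy' j
          · obtain ⟨l, rfl⟩ := hσc.sameCycle hy0' hy'
            rw [← Equiv.Perm.mul_apply, ← zpow_add, add_comm, zpow_add, Equiv.Perm.mul_apply, h1]
        exact (hj y hy).trans h2
    rw [hst, index_stabilizer]
    have : orbit K y0 = (Γ' : Set α) := by
      apply Set.Subset.antisymm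
      · rintro _ ⟨x, rfl⟩
        obtain ⟨j, hj⟩ := x.2
        have h1 : x • y0 = (σ ^ j) y0 := hj y0 (hΓ' hy0)
        change x • y0 ∈ _
        rw [h1, ← hσs]
        exact Equiv.Perm.zpow_apply_mem_support.mpr (hσs ▸ hy0)
      · intro y hy
        have hy' : σ y ≠ y := Equiv.Perm.mem_support.mp (hσs ▸ hy)
        obtain ⟨j, hj⟩ := hσc.sameCycle hy0' hy'
        obtain ⟨g, hg, h1, -⟩ := h.exists_fix Γ hΓ (σ ^ j) (hσΓ j) (hf ⟨0, hp.pos⟩)
        exact ⟨⟨⟨g, hg⟩, j, h1⟩, (h1 y0 (hΓ' hy0)).trans hj⟩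
    rw [this, Set.ncard_coe_finset, hΓ'c]
  have h1 := (H.subgroupOf K).card_mul_index
  rw [Nat.card_congr (Subgroup.subgroupOfEquivOfLe hHK).toEquiv] at h1
  have h2 := (Q : Subgroup K).card_mul_index
  obtain ⟨u, hu⟩ := hQH
  obtain ⟨v, hv⟩ := hidx
  apply Q.not_dvd_index
  rw [← h1, hu, hv, mul_assoc] at h2
  rw [Nat.eq_of_mul_eq_mul_left Nat.card_pos h2]
  exact Dvd.intro (u * v) (by ring)

end Cfsg.Agent.H3.Generous
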