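import Mathlib
import Cfsg.Agent.H3.Support

/-!
Jordan's theorem on primitive groups containing a cycle of prime length.
-/

set_option autoImplicit false

namespace Cfsg.Agent.H3.JordanCycle

open MulAction Cfsg.Agent.H3.Multi Cfsg.Agent.H3.NormalMulti Cfsg.Agent.H3.Support Equiv Equiv.Perm
open scoped Pointwise

variable {α : Type*} [Fintype α] [DecidableEq α]

theorem prime_dvd_card_support {p e : ℕ} (hp : p.Prime) {v : Perm α} (hv : v ^ p ^ e = 1) :
    p ∣ v.support.card := by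
  have : Fact p.Prime := ⟨hp⟩
  have h1 := card_compl_support_modEq hv
  have h2 := Finset.card_add_card_compl v.support
  rw [← h2] at h1
  have h3 := (Nat.modEq_iff_dvd' (Nat.le_add_left _ _)).mp h1
  rwa [Nat.add_sub_cancel] at h3

/-- Jordan's theorem: a primitive group of degree `n` containing a cycle of prime length
`p ≤ n - 3` contains the alternating group. -/
theorem alt_le_of_prime_cycle (G : Subgroup (Perm α)) (hG : IsPreprimitive G α) {p : ℕ}
    (hp : p.Prime) (hpn : p + 3 ≤ Nat.card α) {g : Perm α} (hgc : g.IsCycle)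
    (hgp : g.support.card = p) (hg : g ∈ G) : alternatingGroup α ≤ G := by
  have : Fact p.Prime := ⟨hp⟩
  have hp2 := hp.two_le
  set Γ : Finset α := g.supportᶜ with hΓ
  have hΓc : Γ.card + p = Nat.card α := by
    rw [← hgp, add_comm, hΓ, Finset.card_add_card_compl, Nat.card_eq_fintype_card]
  have hmemΓ : ∀ x, x ∈ Γ ↔ g x = x := fun x => by simp [hΓ]
  obtain ⟨n, hn⟩ : ∃ n, Γ.card = n + 1 := ⟨Γ.card - 1, by omega⟩
  have hmul : IsMultiplyPretransitive G α (n + 2) := by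
    refine (hG.isMultiplyPreprimitive (s := (g.support : Set α)ᶜ) (n := n) ?_ (by omega)
      ?_).isMultiplyPretransitive
    · rw [← hn, hΓ, ← Set.ncard_coe_finset, Finset.coe_compl]
    · have := isPretransitive_of_isCycle_mem hgc hg
      apply IsPreprimitive.of_prime_card
      have : Nat.card (SubMulAction.ofFixingSubgroup G ((g.support : Set α)ᶜ)) =
          ((g.support : Set α)ᶜ)ᶜ.ncard := Nat.card_coe_set_eq _
      rw [this, compl_compl, Set.ncard_coe_finset, hgp]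
      exact hp
  set H := fixingSubgroup G (Γ : Set α) with hH
  have hHmem : ∀ x : G, x ∈ H ↔ ∀ y ∈ Γ, (x : Perm α) y = y := fun x =>
    mem_fixingSubgroup_iff G
  have hgo : g ^ p = 1 := by rw [← hgp, ← hgc.orderOf, pow_orderOf_eq_one]
  have hpg : ∀ c : H, c ^ p = 1 → IsPGroup p (Subgroup.zpowers c) := by
    rintro c hc ⟨_, l, rfl⟩
    refine ⟨1, Subtype.ext ?_⟩
    change (c ^ l) ^ p ^ 1 = 1
    rw [pow_one, ← zpow_natCast, ← zpow_mul, mul_comm, zpow_mul, zpow_natCast, hc, one_zpow]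
  let g' : H := ⟨⟨g, hg⟩, (hHmem _).mpr fun y hy => (hmemΓ y).mp hy⟩
  obtain ⟨P, hP⟩ := (hpg g' (Subtype.ext (Subtype.ext hgo))).exists_le_sylow
  obtain ⟨y0, hy0, -⟩ := id hgc
  have hpres : ∀ h : Perm α, (∀ y ∈ Γ, h y ∈ Γ) → ∀ y ∈ Γ, h⁻¹ y ∈ Γ := by
    intro h hh y hy
    obtain ⟨z, hz, e⟩ := Finset.surj_on_of_inj_on_of_card_le (s := Γ) (t := Γ) (fun y _ => h y)
        (fun y hy => hh y hy) (fun _ _ _ _ e => h.injective e) le_rfl y hy
    rw [e]; simpa using hz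
  have hmove : ∀ h : Perm α, (∀ y ∈ Γ, h y ∈ Γ) → ∃ i : ℤ, (g ^ i) y0 = h y0 := by
    intro h hh
    apply hgc.exists_zpow_eq hy0
    intro e
    have := hpres h hh _ ((hmemΓ _).mpr e)
    exact hy0 ((hmemΓ _).mp (by simpa using this))
  have hPg : ∀ w ∈ (P : Subgroup H), ∃ i : ℤ, g ^ i = ((w : G) : Perm α) := by
    intro w hw
    obtain ⟨i, hi⟩ := hmove (w : G) (fun y hy => by rw [(hHmem _).mp w.2 y hy]; exact hy)
    have hv : (g' ^ i)⁻¹ * w ∈ (P : Subgroup H) :=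
      Subgroup.mul_mem _ (Subgroup.inv_mem _ (hP ⟨i, rfl⟩)) hw
    obtain ⟨e, he⟩ := P.isPGroup' ⟨_, hv⟩
    have he' : ((g ^ i)⁻¹ * ((w : G) : Perm α)) ^ p ^ e = 1 :=
      congrArg (fun x : (P : Subgroup H) => (((x : H) : G) : Perm α)) he
    have hd := prime_dvd_card_support hp he'
    have hlt : ((g ^ i)⁻¹ * ((w : G) : Perm α)).support.card < p := by
      rw [← hgp]
      apply Finset.card_lt_card
      constructor
      · intro y hy
        by_contra hy'
        have hyΓ : y ∈ Γ := by simpa [hΓ] using hy'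
        exact mem_support.mp hy ((hHmem _).mp ((g' ^ i)⁻¹ * w).2 y hyΓ)
      · intro h
        apply mem_support.mp (h (mem_support.mpr hy0))
        rw [Perm.mul_apply, ← hi, Perm.inv_eq_iff_eq]
    have h0 := Nat.eq_zero_of_dvd_of_lt hd hlt
    rw [Finset.card_eq_zero, support_eq_empty_iff, inv_mul_eq_one] at h0
    exact ⟨i, h0⟩
  have hnorm : ∀ a ∈ Γ, ∀ b ∈ Γ, ∃ h ∈ G, (∀ y ∈ Γ, h y = swap a b y) ∧
      ∃ i : ℤ, g ^ i = h * g * h⁻¹ := by
    intro a ha b hb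
    have hsw : ∀ y ∈ Γ, swap a b y ∈ Γ := fun y hy => by
      rw [swap_apply_def]; split_ifs <;> assumption
    obtain ⟨h, hh⟩ := exists_smul_eq_on hmul (by omega) Γ (by omega) (swap a b)
      (swap a b).injective.injOn
    have hh' : ∀ y ∈ Γ, (h : Perm α) y = swap a b y := hh
    let c : H := ⟨h * ⟨g, hg⟩ * h⁻¹, (hHmem _).mpr fun y hy => by
      change (h : Perm α) (g ((h : Perm α)⁻¹ y)) = y
      rw [(hmemΓ _).mp (hpres h (fun z hz => by rw [hh' z hz]; exact hsw z hz) y hy)]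
      simp⟩
    have hc : c ^ p = 1 := by
      apply Subtype.ext
      change (h * ⟨g, hg⟩ * h⁻¹) ^ p = 1
      rw [conj_pow, show (⟨g, hg⟩ : G) ^ p = 1 from Subtype.ext hgo]
      simp
    obtain ⟨Q, hQ⟩ := (hpg c hc).exists_le_sylow
    obtain ⟨u, hu⟩ := exists_smul_eq H Q P
    have h1 : u * c * u⁻¹ ∈ (P : Subgroup H) := by
      rw [← hu, Sylow.coe_subgroup_smul]
      exact Subgroup.smul_mem_pointwise_smul _ _ _ (hQ (Subgroup.mem_zpowers c))
    obtain ⟨i, hi⟩ := hPg _ h1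
    refine ⟨(u : G) * h, G.mul_mem (u : G).2 h.2, fun y hy => ?_, i, ?_⟩
    · rw [Perm.mul_apply, hh' y hy, (hHmem _).mp u.2 _ (hsw y hy)]
    · rw [hi]
      change ((u : G) : Perm α) * ((h : Perm α) * g * (h : Perm α)⁻¹) * ((u : G) : Perm α)⁻¹ = _
      group
  obtain ⟨a, b, c, ha, hb, hc, hab, hac, hbc⟩ := Finset.two_lt_card_iff.mp
    (show 2 < Γ.card by omega)
  obtain ⟨s, hs, hs1, i, hi⟩ := hnorm a ha b hb
  obtain ⟨t, ht, ht1, j, hj⟩ := hnorm b hb c hc
  have hcomm : (s * t) * g * (s * t)⁻¹ = (t * s) * g * (t * s)⁻¹ := by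
    calc (s * t) * g * (s * t)⁻¹ = s * (t * g * t⁻¹) * s⁻¹ := by group
      _ = (s * g * s⁻¹) ^ j := by rw [← hj, conj_zpow]
      _ = (t * g * t⁻¹) ^ i := by rw [← hi, ← hj, ← zpow_mul, ← zpow_mul, mul_comm]
      _ = t * (s * g * s⁻¹) * t⁻¹ := by rw [← hi, conj_zpow]
      _ = (t * s) * g * (t * s)⁻¹ := by group
  have hcomm' : Commute ((t * s)⁻¹ * (s * t)) g := by
    have : (t * s)⁻¹ * (s * t) * g = (t * s)⁻¹ * ((s * t) * g * (s * t)⁻¹) * (s * t) := by group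
    rw [Commute, SemiconjBy, this, hcomm]
    group
  have hsΓ : ∀ y ∈ Γ, s y ∈ Γ := fun y hy => by
    rw [hs1 y hy, swap_apply_def]; split_ifs <;> assumption
  have htΓ : ∀ y ∈ Γ, t y ∈ Γ := fun y hy => by
    rw [ht1 y hy, swap_apply_def]; split_ifs <;> assumption
  set w := (t * s)⁻¹ * (s * t) with hw
  have hwΓ : ∀ y ∈ Γ, w y ∈ Γ := fun y hy =>
    hpres (t * s) (fun z hz => htΓ _ (hsΓ z hz)) _ (hsΓ _ (htΓ y hy))
  obtain ⟨l, hl⟩ := hmove w hwΓ
  have hgl : ∀ y ∈ Γ, (g ^ l)⁻¹ y = y := fun y hy => by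
    rw [Perm.inv_eq_iff_eq, zpow_apply_eq_self_of_apply_eq_self ((hmemΓ y).mp hy)]
  refine alt_le_of_support_le_three G hG (h := (g ^ l)⁻¹ * w)
    (G.mul_mem (G.inv_mem (G.zpow_mem hg l))
      (G.mul_mem (G.inv_mem (G.mul_mem ht hs)) (G.mul_mem hs ht))) ?_ ?_
  · intro e
    have h1 : ((g ^ l)⁻¹ * w) a = a := by rw [e]; rfl
    rw [Perm.mul_apply, hgl _ (hwΓ a ha), hw, Perm.mul_apply, Perm.inv_eq_iff_eq,
      Perm.mul_apply, Perm.mul_apply, ht1 a ha, swap_apply_of_ne_of_ne hab hac, hs1 a ha,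
      swap_apply_left, ht1 b hb, swap_apply_left] at h1
    exact hbc h1
  · refine (Finset.card_le_card (t := {a, b, c}) ?_).trans Finset.card_le_three
    intro y hy
    by_contra hn
    simp only [Finset.mem_insert, Finset.mem_singleton, not_or] at hn
    apply mem_support.mp hy
    by_cases hyΓ : y ∈ Γ
    · rw [Perm.mul_apply, hgl _ (hwΓ y hyΓ), hw, Perm.mul_apply, Perm.inv_eq_iff_eq,
        Perm.mul_apply, Perm.mul_apply, ht1 y hyΓ, swap_apply_of_ne_of_ne hn.2.1 hn.2.2,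
        hs1 y hyΓ, swap_apply_of_ne_of_ne hn.1 hn.2.1, ht1 y hyΓ,
        swap_apply_of_ne_of_ne hn.2.1 hn.2.2]
    · obtain ⟨m, rfl⟩ := hgc.exists_zpow_eq hy0 (fun e => hyΓ ((hmemΓ y).mpr e))
      rw [Perm.mul_apply, ← Perm.mul_apply w, (hcomm'.zpow_right m).eq, Perm.mul_apply, ← hl,
        Perm.inv_eq_iff_eq, ← Perm.mul_apply, ← Perm.mul_apply, ← zpow_add, ← zpow_add, add_comm]

end Cfsg.Agent.H3.JordanCycle
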