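import Mathlib
import Cfsg.Agent.H1.OExtMat

/-!
Extension-field subgroups of orthogonal groups: dimension three over the extension field.
-/

set_option autoImplicit false
set_option linter.unusedSectionVars false
set_option linter.unusedSimpArgs false

namespace Cfsg.Agent.H3.OExt3

open Module Cfsg.Agent.H7 Cfsg.Agent.H3.Ext Cfsg.Agent.H1 Cfsg.Agent.H1.OExt

/-- A sum over a free set vanishes if all the orbit sums vanish. -/
theorem sum_eq_zero_of_free {G α M : Type*} [AddGroup G] [Fintype G] [AddCommMonoid M]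
    (act : G → α → α) (h0 : ∀ s, act 0 s = s) (hadd : ∀ g h s, act (g + h) s = act g (act h s))
    (Φ : α → M) (S : Finset α) (hS : ∀ g, ∀ s ∈ S, act g s ∈ S)
    (hf : ∀ g, ∀ s ∈ S, act g s = s → g = 0) (h : ∀ s ∈ S, ∑ g, Φ (act g s) = 0) :
    ∑ s ∈ S, Φ s = 0 := by
  classical
  induction S using Finset.strongInduction with
  | H S ih =>
    rcases S.eq_empty_or_nonempty with rfl | ⟨s, hs⟩
    · simp
    have h1 : Finset.univ.image (act · s) ⊆ S := fun t ht => by
      obtain ⟨g, -, rfl⟩ := Finset.mem_image.1 ht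
      exact hS g s hs
    rw [← Finset.sum_sdiff h1, Finset.sum_image fun g _ g' _ e => ?_, h s hs, add_zero]
    · refine ih _ (Finset.sdiff_ssubset h1 ⟨s, Finset.mem_image.2 ⟨0, by simp, h0 s⟩⟩)
        (fun g t ht => Finset.mem_sdiff.2 ⟨hS g t (Finset.mem_sdiff.1 ht).1, fun e => ?_⟩)
        (fun g t ht => hf g t (Finset.mem_sdiff.1 ht).1) fun t ht => h t (Finset.mem_sdiff.1 ht).1
      obtain ⟨g', -, e⟩ := Finset.mem_image.1 e
      exact (Finset.mem_sdiff.1 ht).2 (Finset.mem_image.2 ⟨-g + g', by simp, by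
        rw [hadd, e, ← hadd, neg_add_cancel, h0]⟩)
    · have := hf (-g + g') s hs (by rw [hadd, ← show act g s = act g' s from e, ← hadd,
        neg_add_cancel, h0])
      exact neg_add_eq_zero.1 this

variable {F K V : Type*} [Field F] [Field K] [Algebra F K] [AddCommGroup V] [Module F V]
  [Module K V] [IsScalarTower F K V]

/-- A quadratic family of elements of `X` with fixed space `B`. -/
structure Fam {κ : Type} (X : Subgroup (V ≃ₗ[F] V)) (B : Submodule F V)
    (T : (κ → F) → V ≃ₗ[F] V) : Prop where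
  mem : ∀ x, T x ∈ X
  zero : ∀ v, T 0 v = v
  add : ∀ x y v, T (x + y) v = T x (T y v)
  fix : ∀ x, ∀ b ∈ B, T x b = b
  free : ∀ x, x ≠ 0 → ∀ v, T x v = v → v ∈ B
  poly : ∀ (v : V) (ψ : Dual F V), ∃ p : MvPolynomial κ F, p.totalDegree ≤ 2 ∧
    ∀ x, MvPolynomial.eval x p = ψ (T x v)

/-- The parametrisations of the members through `d`. -/
def Par (PK : Polar K V) (X : Subgroup (V ≃ₗ[F] V)) (d : V) (e : K →ₗ[F] V) : Prop :=
  ∃ g ∈ X, ∃ u, u ≠ 0 ∧ PK.Val u 0 ∧ g u = d ∧ ∀ k, e k = g (k • u)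

theorem Fam.conj {κ : Type} {X : Subgroup (V ≃ₗ[F] V)} {B : Submodule F V}
    {T : (κ → F) → V ≃ₗ[F] V} (h : Fam X B T) {g : V ≃ₗ[F] V} (hg : g ∈ X) :
    Fam X (B.map (g : V →ₗ[F] V)) fun x => g * T x * g⁻¹ := by
  have h1 : ∀ x v, (g * T x * g⁻¹) v = g (T x (g.symm v)) := fun _ _ => rfl
  refine ⟨fun x => X.mul_mem (X.mul_mem hg (h.mem x)) (X.inv_mem hg), fun v => by simp [h1, h.zero],
    fun x y v => by simp [h1, h.add], ?_, fun x hx v hv => ⟨g.symm v, h.free x hx _ ?_, by simp⟩,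
    fun v ψ => h.poly (g.symm v) (ψ ∘ₗ g.toLinearMap)⟩
  · rintro x _ ⟨b, hb, rfl⟩
    simp [h1, h.fix x b hb]
  · rw [h1] at hv
    exact g.injective (by simpa using hv)

open Classical in
theorem Fam.sum_eq [Fintype F] [Fintype (K →ₗ[F] V)] {κ : Type} [Fintype κ]
    (hκ : 4 < (Fintype.card F - 1) * Fintype.card κ) (PK : Polar K V)
    {X : Subgroup (V ≃ₗ[F] V)} {B : Submodule F V} {T : (κ → F) → V ≃ₗ[F] V} (h : Fam X B T)
    {d : V} (hd : d ∈ B) (ψ : Dual F V) (k l : K) :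
    ∑ e with Par PK X d e, ψ (e k) • e l =
      ∑ e with Par PK X d e ∧ ∀ k, e k ∈ B, ψ (e k) • e l := by
  rw [← Finset.sum_filter_add_sum_filter_not _ fun e : K →ₗ[F] V => ∀ k, e k ∈ B,
    Finset.filter_filter, add_eq_left, Finset.filter_filter]
  refine sum_eq_zero_of_free (fun x e => (T x).toLinearMap ∘ₗ e)
    (fun e => LinearMap.ext fun k => h.zero _) (fun x y e => LinearMap.ext fun k => h.add _ _ _)
    _ _ (fun x e he => ?_) (fun x e he e' => ?_) fun e _ => ?_
  · simp only [Finset.mem_filter, Finset.mem_univ, true_and] at he ⊢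
    obtain ⟨⟨g, hg, u, h0, hu, h1, h2⟩, h3⟩ := he
    refine ⟨⟨T x * g, X.mul_mem (h.mem x) hg, u, h0, hu, by simp [h1, h.fix x d hd],
      fun k => by simp [h2]⟩, fun h4 => h3 fun k => ?_⟩
    have := h.fix (-x) _ (h4 k)
    rw [LinearMap.comp_apply, LinearEquiv.coe_coe, ← h.add, neg_add_cancel, h.zero] at this
    exact this ▸ h4 k
  · by_contra hx
    exact (Finset.mem_filter.1 he).2.2 fun k => h.free x hx _ (DFunLike.congr_fun e' k)
  · refine (Module.forall_dual_apply_eq_zero_iff F _).1 fun φ => ?_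
    obtain ⟨p, hp, hp'⟩ := h.poly (e k) ψ
    obtain ⟨p', hq, hq'⟩ := h.poly (e l) φ
    rw [← MvPolynomial.sum_eval_eq_zero (p * p')
      (((MvPolynomial.totalDegree_mul _ _).trans (by omega)).trans_lt hκ), map_sum]
    simp [hp', hq']

variable {PF : Polar F V} {PK : Polar K V} {θ : K →ₗ[F] F} {X : Subgroup (V ≃ₗ[F] V)}
  (S : Setup PF PK θ X) [Finite K] [FiniteDimensional K V]
include S

theorem exists_fam (hm : finrank K V = 3) {B : Submodule F V} (h : Mem PK X B) :
    ∃ T : (Fin (finrank F K) → F) → V ≃ₗ[F] V, Fam X B T := by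
  obtain ⟨g, hg, u, h0, hu, rfl⟩ := h
  suffices h : ∃ T : (Fin (finrank F K) → F) → V ≃ₗ[F] V, Fam X (ln F K u) T from
    ⟨_, h.choose_spec.conj hg⟩
  have := S.finK
  have huu := Polar.sing_B hu
  obtain ⟨w, hw, hw'⟩ := S.exists_perp_notMem hm.ge u
  obtain ⟨c, hc⟩ := PK.val_ex w
  let b := Module.finBasis F K
  have h1 : ∀ t : K, PK.B (t • w) u = 0 := fun t => by simp [hw]
  have h2 : ∀ (t : K) v, PK.eich u (t • w) (t * t * c) v =
      v + t • (PK.B v u • w - PK.B v w • u) + (t * t) • (-(c * PK.B v u) • u) := fun t v => by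
    rw [S.oK.eich_eq, S.oK.smul_right]; module
  have h3 : (K ∙ u) ⊔ K ∙ w = PK.perp (K ∙ u) := Submodule.eq_of_le_of_finrank_eq
    (by simp [Polar.perp_span_singleton, hw, huu]) (by
      have := PK.finrank_perp (K ∙ u)
      rw [Submodule.finrank_sup_span_singleton hw']
      rw [finrank_span_singleton h0] at *
      omega)
  refine ⟨fun x => (Polar.eichE hu (h1 (b.equivFun.symm x))
    (S.oK.val_smul _ hc)).restrictScalars F, fun x => S.eich_mem _ _ _, fun v => by simp,
    fun x y v => ?_, fun x a ha => ?_, fun x hx v hv => ?_, fun v ψ => ?_⟩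
  · simp only [LinearEquiv.restrictScalars_apply, Polar.eichE_apply, map_add b.equivFun.symm]
    rw [Polar.eich_comp _ _ huu (h1 _) (h1 _), add_smul]
    congr 1
    simp only [map_smul, LinearMap.smul_apply, S.oK.smul_right, S.oK.self hc, smul_eq_mul]
    ring
  · obtain ⟨k, rfl⟩ := mem_ln.1 ha
    exact Polar.eich_fix _ (by simp [huu]) (by simp [PK.B_symm hw])
  · replace hx : b.equivFun.symm x ≠ 0 := fun e => hx (b.equivFun.symm.map_eq_zero_iff.1 e)
    rw [LinearEquiv.restrictScalars_apply, Polar.eichE_apply, h2] at hv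
    generalize b.equivFun.symm x = t at hx hv
    have h4 : PK.B v u = 0 := by
      by_contra h4
      refine hw' ((Submodule.smul_mem_iff _ (mul_ne_zero hx h4)).1
        (Submodule.mem_span_singleton.2 ⟨t * PK.B v w + t * t * (c * PK.B v u), ?_⟩))
      linear_combination (norm := module) -hv
    have h5 : PK.B v w = 0 := by simpa [h4, hx, h0] using hv
    change v ∈ K ∙ u
    rw [← Polar.perp_perp (P := PK) (K ∙ u), ← h3, Polar.perp_sup, Polar.perp_span_singleton,
      Polar.perp_span_singleton]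
    exact ⟨h4, h5⟩
  · refine ⟨MvPolynomial.C (ψ v) + ∑ i, MvPolynomial.X i *
      MvPolynomial.C (ψ (b i • (PK.B v u • w - PK.B v w • u))) + ∑ i, ∑ j, MvPolynomial.X i *
      MvPolynomial.X j * MvPolynomial.C (ψ ((b i * b j) • (-(c * PK.B v u) • u))), ?_, fun x => ?_⟩
    · refine (MvPolynomial.totalDegree_add _ _).trans (max_le
        ((MvPolynomial.totalDegree_add _ _).trans (max_le (by simp) ?_)) ?_)
      · refine (MvPolynomial.totalDegree_finsetSum _ _).trans (Finset.sup_le fun i _ => ?_)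
        refine (MvPolynomial.totalDegree_mul _ _).trans ?_
        simp
      · refine (MvPolynomial.totalDegree_finsetSum _ _).trans (Finset.sup_le fun i _ => ?_)
        refine (MvPolynomial.totalDegree_finsetSum _ _).trans (Finset.sup_le fun j _ => ?_)
        refine (MvPolynomial.totalDegree_mul _ _).trans ?_
        rw [MvPolynomial.totalDegree_C, add_zero]
        refine (MvPolynomial.totalDegree_mul _ _).trans ?_
        simp
    · rw [LinearEquiv.restrictScalars_apply, Polar.eichE_apply, h2]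
      generalize PK.B v u • w - PK.B v w • u = n₁
      generalize -(c * PK.B v u) • u = n₂
      simp only [map_add, map_sum, map_mul, MvPolynomial.eval_C, MvPolynomial.eval_X,
        Basis.equivFun_symm_apply, Finset.sum_mul_sum, Finset.sum_smul, smul_mul_smul_comm,
        smul_assoc, map_smul, smul_eq_mul]

theorem exists_hom (hm : finrank K V = 3) (hb : Bad PK X) {u : V} (h0 : u ≠ 0) (hu : PK.Val u 0)
    {e : K →ₗ[F] V} (he : Par PK X u e) (he' : ∀ k, e k ∈ ln F K u) :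
    ∃ σ : K →* K, ∀ k, e k = σ k • u := by
  have := S.finV
  obtain ⟨g, hg, v, hv0, hv, h1, h2⟩ := he
  obtain ⟨t, ht, a, ha, htu⟩ := S.oK.exists_move S.twoK hm.ge hu h0 hv hv0
  have h3 : ∀ k : K, (g * t.restrictScalars F) (k • u) = e (k * a) := fun k => by
    rw [h2, LinearEquiv.mul_apply, LinearEquiv.restrictScalars_apply, map_smul, htu, smul_smul]
  choose σ hσ using hb u h0 hu _ (X.mul_mem hg (S.E_le ht)) (mem_stab_iff_map.1
    (mem_stab_of_forall fun y hy => by
      obtain ⟨k, rfl⟩ := mem_ln.1 hy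
      exact h3 k ▸ he' _))
  have h4 : ∀ l k, e (l * k) = σ l • e k := fun l k => by
    simpa only [h3, div_mul_cancel₀ _ ha, mul_assoc] using hσ l (k / a)
  have h5 : ∀ l, e l = σ l • u := fun l => by simpa [h2 1, h1] using h4 l 1
  have hinj := smul_left_injective K h0
  exact ⟨{  toFun := σ
            map_one' := hinj (by simp only [← h5, h2, one_smul, h1])
            map_mul' := fun l k => hinj (by simp only [← h5, h4, mul_smul]) }, h5⟩

theorem ln_le (hm : finrank K V = 3) (h3 : 3 ≤ finrank F K) (hb : Bad PK X) {u : V} (h0 : u ≠ 0)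
    (hu : PK.Val u 0) {B : Submodule F V} (h : Mem PK X B) (huB : u ∈ B) : ln F K u ≤ B := by
  classical
  have := S.finF
  have := S.finV
  have := Fintype.ofFinite F
  have : Finite V := Module.finite_of_finite F
  have : Finite (K →ₗ[F] V) := DFunLike.finite _
  have := Fintype.ofFinite (K →ₗ[F] V)
  have hκ : 4 < (Fintype.card F - 1) * Fintype.card (Fin (finrank F K)) := by
    have h1 : 2 < Fintype.card F := by
      rw [Fintype.two_lt_card_iff]
      exact ⟨0, 1, -1, by simp, by simp, fun e => S.two (by linear_combination e)⟩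
    rw [Fintype.card_fin]
    nlinarith [Nat.mul_le_mul (show 2 ≤ Fintype.card F - 1 by omega) h3]
  intro a ha
  by_contra hn
  obtain ⟨k, rfl⟩ := mem_ln.1 ha
  obtain ⟨ψ, hψ, hψ'⟩ := exists_dual_one hn
  obtain ⟨T, hT⟩ := exists_fam S hm h
  obtain ⟨T', hT'⟩ := exists_fam S hm (mem_of_sing (X := X) h0 hu)
  have h1 : ∀ l, ∑ e with Par PK X u e ∧ ∀ k, e k ∈ ln F K u, ψ (e k) • e l = 0 := fun l => by
    rw [← hT'.sum_eq hκ PK (self_mem_ln u), hT.sum_eq hκ PK huB]
    exact Finset.sum_eq_zero fun e he => by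
      rw [hψ' _ ((Finset.mem_filter.1 he).2.2 k), zero_smul]
  choose σ hσ using fun e : {e // Par PK X u e ∧ ∀ k, e k ∈ ln F K u} =>
    exists_hom S hm hb h0 hu e.2.1 e.2.2
  have h2 := Fintype.linearIndependent_iff.1 ((linearIndependent_monoidHom K K).comp σ
    fun e e' h => Subtype.ext (LinearMap.ext fun k => by rw [hσ, hσ, h]))
    (fun e => algebraMap F K (ψ (e.1 k))) (funext fun l => smul_left_injective K h0 (by
      have := h1 l
      rw [Finset.sum_subtype (p := fun e => Par PK X u e ∧ ∀ k, e k ∈ ln F K u) _ (by simp)] at this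
      simpa [Finset.sum_smul, mul_smul, ← hσ] using this))
    ⟨(LinearMap.toSpanSingleton K V u).restrictScalars F,
      ⟨1, X.one_mem, u, h0, hu, rfl, fun _ => rfl⟩, fun k => smul_mem_ln k u⟩
  simp [hψ] at h2

theorem exists_sq_notMem (h3 : 3 ≤ finrank F K) {a : K} (ha : a ∉ (algebraMap F K).range) :
    a * a ∉ (algebraMap F K).range := by
  have := S.finK
  rintro ⟨c, hc⟩
  have h1 : (F ∙ (1 : K)) ⊔ F ∙ a = ⊤ := eq_top_iff.2 fun k _ => by
    simpa using smul_mem_of_prime S.prime ha (D := (F ∙ (1 : K)) ⊔ F ∙ a) (fun d hd => by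
      obtain ⟨_, hx, t, rfl⟩ := mem_sup_span_singleton.1 hd
      obtain ⟨s, rfl⟩ := Submodule.mem_span_singleton.1 hx
      refine mem_sup_span_singleton.2 ⟨(t * c) • 1, Submodule.mem_span_singleton.2 ⟨_, rfl⟩, s, ?_⟩
      rw [smul_eq_mul]
      simp only [Algebra.smul_def, map_mul, hc]
      ring) k (d := 1) (Submodule.mem_sup_left (Submodule.mem_span_singleton_self _))
  have := finrank_span_pair_le (F := F) (1 : K) a
  rw [h1, finrank_top] at this
  omega

/-- a rotation about `x` whose trace is not in the ground field -/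
theorem exists_rot (hm : finrank K V = 3) (h3 : 3 ≤ finrank F K) {x : V} (hxx : PK.B x x ≠ 0) :
    ∃ g ∈ XK K X, g ∈ PK.Iso ∧ ∃ τ : K, τ ∉ (algebraMap F K).range ∧ g x = x ∧
      ∀ v, PK.B v x = 0 → PK.B (g v) x = 0 ∧ g (g v) + v = τ • g v := by
  have hx0 : x ≠ 0 := fun e => hxx (by simp [e])
  have aniso : ∀ U : Submodule K V, finrank K U ≤ 2 → (∀ z ∈ U, z ∈ PK.perp U → z = 0) →
      ∃ a ∈ PK.perp U, PK.B a a ≠ 0 := fun U hU hU' => by
    obtain ⟨y, hy, hy0⟩ := exists_notMem_of_finrank_lt (U := ⊥) (W := PK.perp U) (by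
      have := PK.finrank_perp U
      rw [finrank_bot]; omega)
    obtain ⟨z, hz, hyz⟩ : ∃ z ∈ PK.perp U, PK.B y z ≠ 0 := by
      by_contra! hcon
      exact hy0 (hU' y (Polar.perp_perp (P := PK) U ▸ hcon) hy)
    exact S.oK.exists_aniso S.twoK hy hz hyz
  obtain ⟨y, hy, hyy⟩ := aniso (K ∙ x) ((finrank_span_singleton_le x).trans (by omega))
    fun z hz hz' => by
      obtain ⟨k, rfl⟩ := Submodule.mem_span_singleton.1 hz
      simpa [hxx, hx0] using hz' x (Submodule.mem_span_singleton_self x)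
  rw [Polar.perp_span_singleton, Polar.mem_pp] at hy
  obtain ⟨z, hz, hzz⟩ := aniso ((K ∙ x) ⊔ K ∙ y) (finrank_span_pair_le x y) fun z hz hz' => by
    obtain ⟨_, hw, t, rfl⟩ := mem_sup_span_singleton.1 hz
    obtain ⟨s, rfl⟩ := Submodule.mem_span_singleton.1 hw
    have h1 := hz' x (Submodule.mem_sup_left (Submodule.mem_span_singleton_self x))
    have h2 := hz' y (Submodule.mem_sup_right (Submodule.mem_span_singleton_self y))
    simp [hy, PK.B_symm hy, hxx, hyy] at h1 h2
    simp [h1, h2]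
  rw [Polar.perp_sup, Polar.perp_span_singleton, Polar.perp_span_singleton] at hz
  have hzx : PK.B z x = 0 := hz.1
  have hzy : PK.B z y = 0 := hz.2
  obtain ⟨c, hc⟩ : ∃ c : K, c * c * PK.B z z / PK.B y y ∉ (algebraMap F K).range := by
    by_contra! hcon
    obtain ⟨a, ha⟩ := S.exists_notMem
    obtain ⟨s, hs⟩ := hcon 1
    obtain ⟨t, ht⟩ := hcon a
    refine exists_sq_notMem S h3 ha ⟨t / s, ?_⟩
    rw [map_div₀, hs, ht]
    field_simp
  have hc0 : c ≠ 0 := fun e => hc ⟨0, by simp [e]⟩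
  have hspan : ∀ v, PK.B v x = 0 → ∃ s t : K, v = s • y + t • c • z := fun v hv => by
    refine ⟨PK.B v y / PK.B y y, PK.B v z / PK.B z z / c, ?_⟩
    rw [smul_smul, div_mul_cancel₀ _ hc0, ← sub_eq_zero]
    have h1 : (K ∙ x) ⊔ (K ∙ y) ⊔ K ∙ z = ⊤ := Submodule.eq_top_of_finrank_eq (by
      rw [Submodule.finrank_sup_span_singleton, Submodule.finrank_sup_span_singleton,
        finrank_span_singleton hx0, hm]
      · intro h
        obtain ⟨k, rfl⟩ := Submodule.mem_span_singleton.1 h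
        simp [hxx] at hy
        simp [hy] at hyy
      · intro h
        obtain ⟨_, hw, t, e⟩ := mem_sup_span_singleton.1 h
        obtain ⟨s, rfl⟩ := Submodule.mem_span_singleton.1 hw
        refine hzz ?_
        nth_rewrite 1 [e]
        simp [PK.B_symm hzx, PK.B_symm hzy])
    rw [← Submodule.mem_bot K, ← Polar.perp_top (P := PK), ← h1, Polar.perp_sup, Polar.perp_sup,
      Polar.perp_span_singleton, Polar.perp_span_singleton, Polar.perp_span_singleton]
    exact ⟨⟨by simp [hv, hy, hzx], by simp [hyy, hzy]⟩, by simp [hzz, PK.B_symm hzy]⟩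
  have h4 : PK.B (c • z) (c • z) = c * c * PK.B z z := by simp [S.oK.σ, mul_assoc]
  rw [← h4] at hc
  replace hzx : PK.B (c • z) x = 0 := by simp [hzx]
  replace hzy : PK.B (c • z) y = 0 := by simp [hzy]
  generalize c • z = w at hc hspan hzx hzy
  obtain ⟨α, hα⟩ := PK.val_ex y
  obtain ⟨β, hβ⟩ := PK.val_ex w
  have hα' := S.oK.self hα
  have hβ' := S.oK.self hβ
  have h2 := S.twoK
  have hα0 : α ≠ 0 := fun e => hyy (by rw [hα', e, mul_zero])
  rw [hα', hβ', mul_div_mul_left _ _ h2] at hc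
  have hδ : α + β ≠ 0 := fun e => hc ⟨-1, by
    rw [eq_div_iff hα0, map_neg, map_one]; linear_combination -e⟩
  have hb := Polar.val_add_orth hα hβ (PK.B_symm hzy)
  have hinv : ∀ {d : V} {c : K} (hc : PK.Val d c) (h0 : c ≠ 0),
      (Polar.reflE hc h0)⁻¹ = Polar.reflE hc h0 := fun {d c} hc h0 => by
    rw [inv_eq_iff_mul_eq_one]
    ext x
    have := Polar.refl_inv hc h0 x
    rwa [S.oK.σ, S.oK.ε, one_mul] at this
  have hg := S.comm _ (Polar.reflE_mem_Iso hα hα0) _ (Polar.reflE_mem_Iso hb hδ)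
  rw [hinv, hinv, mul_assoc] at hg
  obtain ⟨R, hR⟩ : ∃ R, R = Polar.reflE hα hα0 * Polar.reflE hb hδ := ⟨_, rfl⟩
  rw [← hR] at hg
  obtain ⟨C, hC⟩ : ∃ C, C = (α - β) / (α + β) := ⟨_, rfl⟩
  have hRx : R x = x := by simp [hR, Polar.refl, PK.B_symm hy, PK.B_symm hzx]
  have hRv : ∀ v, PK.B v x = 0 → PK.B (R v) x = 0 ∧ R (R v) = (2 * C) • R v - v := fun v hv => by
    refine ⟨by simp [hR, Polar.refl, hv, hy, hzx], ?_⟩
    obtain ⟨s, t, rfl⟩ := hspan v hv
    simp only [hR, hC, LinearEquiv.mul_apply, Polar.reflE_apply, Polar.refl, map_add, map_sub,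
      map_smul, LinearMap.add_apply, LinearMap.sub_apply, LinearMap.smul_apply, hα', hβ', hzy,
      PK.B_symm hzy, smul_eq_mul]
    match_scalars <;> field_simp <;> ring
  have hRI : R ∈ PK.Iso := hR ▸ PK.Iso.mul_mem (Polar.reflE_mem_Iso _ _) (Polar.reflE_mem_Iso _ _)
  refine ⟨R * R, hg, PK.Iso.mul_mem hRI hRI, 4 * (C * C) - 2, ?_, by simp [hRx],
    fun v hv => ⟨(hRv _ (hRv v hv).1).1, ?_⟩⟩
  · rintro ⟨t, ht⟩
    refine exists_sq_notMem S h3 (a := C) ?_ ⟨(t + 2) / 4, ?_⟩
    · rintro ⟨s, hs⟩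
      have h5 : 1 + C ≠ 0 := by
        rw [hC, add_div' _ _ _ hδ]
        exact div_ne_zero (by rw [show 1 * (α + β) + (α - β) = 2 * α by ring]; simp [h2, hα0]) hδ
      refine hc ⟨(1 - s) / (1 + s), ?_⟩
      rw [map_div₀, map_sub, map_add, map_one, hs, div_eq_div_iff h5 hα0, hC]
      field_simp
      ring
    · have h5 : (4 : K) ≠ 0 := by rw [show (4 : K) = 2 * 2 by norm_num]; exact mul_ne_zero h2 h2
      rw [map_div₀, map_add, ht, map_ofNat, map_ofNat]
      field_simp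
      ring
  · have h5 := (hRv _ (hRv v hv).1).2
    simp only [LinearEquiv.mul_apply, (hRv _ (hRv _ (hRv v hv).1).1).2, h5, (hRv v hv).2, map_sub,
      map_smul]
    module

theorem eq_ln_of_disjoint (hm : finrank K V = 3) (h3 : 3 ≤ finrank F K)
    (hmax : ∀ A₁ A₂, Mem PK X A₁ → Mem PK X A₂ → A₁ ≠ A₂ → finrank F ↥(A₁ ⊓ A₂) ≤ 0)
    {A : Submodule F V} (h : Mem PK X A) : ∃ u, A = ln F K u := by
  have := S.finV
  have := S.finK
  have key : ∀ e, e ≠ 0 → ln F K e ≤ A → A = ln F K e := fun e h0 hle =>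
    (Submodule.eq_of_le_of_finrank_eq hle (by rw [h.finrank_eq, finrank_ln h0])).symm
  obtain ⟨x, hx, hx0⟩ := exists_notMem_of_finrank_lt (U := ⊥) (W := A) (by
    rw [h.finrank_eq, finrank_bot]; exact S.prime.pos)
  replace hx0 : x ≠ 0 := by simpa using hx0
  by_cases hxx : PK.B x x = 0
  · refine ⟨x, ?_⟩
    by_contra hne
    have h1 := hmax _ _ h (mem_of_sing hx0 ((S.oK.sing_iff S.twoK).2 hxx)) hne
    rw [Nat.le_zero, Submodule.finrank_eq_zero] at h1
    exact hx0 (h1.le ⟨hx, self_mem_ln x⟩)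
  by_contra! hcon
  obtain ⟨a, ha, hax⟩ : ∃ a ∈ A, a ∉ K ∙ x := by
    by_contra! h1
    exact hcon x (Submodule.eq_of_le_of_finrank_eq h1 (by rw [h.finrank_eq, finrank_ln hx0]))
  obtain ⟨g, hg, hgI, τ, hτ, hgx, hg'⟩ := exists_rot S hm h3 hxx
  have h1 := map_eq_of_inv hmax h hg (N := F ∙ x) (by simpa using hx)
    (by rw [finrank_span_singleton hx0]; omega) fun n hn => by
      obtain ⟨t, rfl⟩ := Submodule.mem_span_singleton.1 hn
      rwa [map_smul, LinearEquiv.restrictScalars_apply, hgx]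
  have h2 : ∀ a ∈ A, g a ∈ A := fun a ha => h1.le ⟨a, ha, rfl⟩
  obtain ⟨y, hy⟩ : ∃ y, y = a - (PK.B a x / PK.B x x) • x := ⟨_, rfl⟩
  have hyx : PK.B y x = 0 := by simp [hy, hxx]
  have h4 : g a - a = g y - y := by rw [hy, map_sub, map_smul, hgx]; abel
  have h5 : g y - y ≠ 0 := fun e => by
    have h6 := (hg' y hyx).2
    rw [sub_eq_zero.1 e, sub_eq_zero.1 e, ← two_smul K y] at h6
    refine hτ ⟨2, ?_⟩
    rw [map_ofNat]
    exact smul_left_injective K (fun e => hax
      (Submodule.mem_span_singleton.2 ⟨_, (sub_eq_zero.1 (hy ▸ e)).symm⟩)) h6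
  refine hcon _ (key _ h5 fun z hz => ?_)
  obtain ⟨k, rfl⟩ := mem_ln.1 hz
  refine (smul_mem_of_prime S.prime hτ (D := A ⊓ (PK.pp x).restrictScalars F) (fun d hd => ⟨?_,
    (PK.pp x).smul_mem τ hd.2⟩) k ⟨h4 ▸ A.sub_mem (h2 a ha) ha, ?_⟩).1
  · obtain ⟨d', hd', rfl⟩ := h1.ge hd.1
    have h6 : PK.B d' x = 0 := by rw [← Polar.Iso.B hgI, hgx]; exact hd.2
    exact (hg' d' h6).2 ▸ A.add_mem (h2 _ hd.1) hd'
  · change PK.B _ x = 0
    simp [hyx, (hg' y hyx).1]

theorem E_le_or_semi (hm : finrank K V = 3) (h3 : 3 ≤ finrank F K) :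
    PF.E ≤ X ∨ ∀ g ∈ X, Semi K g := by
  have := S.finV
  by_cases hb : Bad PK X
  · rcases exists_max_pair PK X with h | ⟨j, hj, -, u, A, h0, hu, hA, hne, hj'⟩
    · exact Or.inr fun g hg => S.semi_of_mem hm.ge (fun A => eq_ln_of_disjoint S hm h3 h) hg
    obtain ⟨d, hd, hd0⟩ := exists_notMem_of_finrank_lt (U := ⊥) (W := ln F K u ⊓ A) (by
      rw [finrank_bot]; omega)
    replace hd0 : d ≠ 0 := by simpa using hd0
    obtain ⟨k, rfl⟩ := mem_ln.1 hd.1
    have h1 := ln_le S hm h3 hb hd0 (Polar.sing_smul hu k) hA hd.2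
    rw [ln_eq hd.1 hd0] at h1
    exact absurd (Submodule.eq_of_le_of_finrank_eq h1 (by rw [hA.finrank_eq, finrank_ln h0])).symm
      hne
  · simp only [Bad, not_forall] at hb
    obtain ⟨u, h0, hu, x, hx, hxu, l, hl⟩ := hb
    exact Or.inl (S.E_le_of_not_semi hm.ge hu h0 hx hxu hl)

omit S in
/-- Extension-field subgroups of orthogonal type of `Ω`, `q` odd, `n / r ≥ 3`, `r ≥ 3`. -/
theorem omega_ext_maximal' {ι : Type} [Fintype ι] [DecidableEq ι] {F : Type*} [Field F] [Finite F]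
    (h2 : (2 : F) ≠ 0) {Q : (ι → F) → F} (hQ : Geo.IsNondegenerateQuadraticForm Q)
    {r : ℕ} (hr : r.Prime) (h3 : 3 ≤ r) (hn : 2 * r < Fintype.card ι)
    {K : Subalgebra F (Matrix ι ι F)} (hK : Geo.IsFieldSubalgebra r K)
    (hsa : Geo.IsSelfAdjointFor (QuadraticMap.polar Q) K) :
    Geo.IsMaximalIn (Geo.omegaGL Q) (Geo.subalgebraNormalizer K ⊓ Geo.omegaGL Q) :=
  maximal_of h2 hQ (by omega) hr hK hsa fun K _ _ _ _ _ _ _ _ _ hr' hm S _ _ => by
    by_cases h : finrank K (ι → F) = 3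
    · exact E_le_or_semi S h (hr' ▸ h3)
    · refine S.E_le_or_semi ?_
      by_contra h'
      have := Nat.mul_le_mul_left r (by omega : finrank K (ι → F) ≤ 2)
      omega

end Cfsg.Agent.H3.OExt3
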